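import Mathlib
import Cfsg.Agent.Lib.Helper65.MonoDefs

/-!
# S5634 (helper65), piece DUAL: the inverse-transpose group (helper58)
-/

set_option autoImplicit false

namespace Cfsg.Agent.Lib.Helper65.Mono

open Matrix

section
variable {F : Type*} [Field F] {κ : Type} [Fintype κ] [DecidableEq κ]

/-- an invertible monomial matrix has at most one nonzero entry in every row -/
theorem dual_isMono_transpose (g : GL κ F) (h : IsMono (g : Matrix κ κ F)) :
    IsMono ((g : Matrix κ κ F)ᵀ) := by
  classical
  intro i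
  by_cases hex : ∃ j, (g : Matrix κ κ F) i j ≠ 0
  · obtain ⟨j, hj⟩ := hex
    refine ⟨j, fun j' hj' => ?_⟩
    rw [Matrix.transpose_apply] at hj'
    by_contra hne
    obtain ⟨r, hr⟩ := h j
    obtain ⟨r', hr'⟩ := h j'
    have hir : i = r := hr i hj
    have hir' : i = r' := hr' i hj'
    have h1 : ((g⁻¹ : GL κ F) : Matrix κ κ F) j i * (g : Matrix κ κ F) i j = 1 := by
      have := gl_inv_mul_apply g j j
      rw [if_pos rfl] at this
      rw [← this]
      symm
      apply Finset.sum_eq_single i
      · intro l _ hl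
        have : (g : Matrix κ κ F) l j = 0 := by
          by_contra hne'
          exact hl ((hr l hne').trans hir.symm)
        rw [this, mul_zero]
      · intro hh
        exact absurd (Finset.mem_univ _) hh
    have h2 : ((g⁻¹ : GL κ F) : Matrix κ κ F) j i * (g : Matrix κ κ F) i j' = 0 := by
      have := gl_inv_mul_apply g j j'
      rw [if_neg (fun hh => hne hh.symm)] at this
      rw [← this]
      symm
      apply Finset.sum_eq_single i
      · intro l _ hl
        have : (g : Matrix κ κ F) l j' = 0 := by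
          by_contra hne'
          exact hl ((hr' l hne').trans hir'.symm)
        rw [this, mul_zero]
      · intro hh
        exact absurd (Finset.mem_univ _) hh
    rcases mul_eq_zero.mp h2 with h3 | h3
    · rw [h3, zero_mul] at h1
      exact zero_ne_one h1
    · exact hj' h3
  · refine ⟨i, fun j' hj' => ?_⟩
    rw [Matrix.transpose_apply] at hj'
    exact absurd ⟨j', hj'⟩ hex

theorem dual_det_inv_of_det (g : GL κ F) (h : (g : Matrix κ κ F).det = 1) :
    ((g⁻¹ : GL κ F) : Matrix κ κ F).det = 1 := by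
  have h1 : ((g⁻¹ : GL κ F) : Matrix κ κ F) * (g : Matrix κ κ F) = 1 := by
    rw [← Units.val_mul, inv_mul_cancel, Units.val_one]
  have h2 := congrArg Matrix.det h1
  rw [Matrix.det_mul, h, mul_one, Matrix.det_one] at h2
  exact h2

theorem monIn_tinv {X : Subgroup (GL κ F)} (hX : MonIn X) : MonIn (tinv X) := by
  intro g hdet hmono
  rw [mem_tinv]
  apply hX
  · rw [tinvHom_val, Matrix.det_transpose]
    exact dual_det_inv_of_det g hdet
  · rw [tinvHom_val]
    exact dual_isMono_transpose g⁻¹ (isMono_inv g hmono)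

theorem det_tinv {X : Subgroup (GL κ F)} (h : ∀ g ∈ X, (g : Matrix κ κ F).det = 1) :
    ∀ g ∈ tinv X, (g : Matrix κ κ F).det = 1 := by
  intro g hg
  rw [mem_tinv] at hg
  have h1 := h _ hg
  rw [tinvHom_val, Matrix.det_transpose] at h1
  have h2 := dual_det_inv_of_det g⁻¹ h1
  rwa [inv_inv] at h2

theorem rootIn_of_tinv {X : Subgroup (GL κ F)} (h : RootIn (tinv X)) : RootIn X := by
  obtain ⟨i, j, a, g, hij, ha, hg, hgm⟩ := h
  rw [mem_tinv] at hg
  refine ⟨j, i, -a, tinvHom g, hij.symm, neg_ne_zero.mpr ha, hg, ?_⟩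
  have hinv : ((g⁻¹ : GL κ F) : Matrix κ κ F) = Matrix.transvection i j (-a) := by
    have h1 : ((g⁻¹ : GL κ F) : Matrix κ κ F) * (g : Matrix κ κ F) = 1 := by
      rw [← Units.val_mul, inv_mul_cancel, Units.val_one]
    have h2 : (g : Matrix κ κ F) * Matrix.transvection i j (-a) = 1 := by
      rw [hgm, Matrix.transvection_mul_transvection_same i j hij, add_neg_cancel,
        Matrix.transvection_zero]
    calc ((g⁻¹ : GL κ F) : Matrix κ κ F)
        = ((g⁻¹ : GL κ F) : Matrix κ κ F) * ((g : Matrix κ κ F) *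
            Matrix.transvection i j (-a)) := by rw [h2, mul_one]
      _ = Matrix.transvection i j (-a) := by rw [← mul_assoc, h1, one_mul]
  rw [tinvHom_val, hinv]
  ext r s
  simp only [Matrix.transvection, Matrix.transpose_apply, Matrix.add_apply, Matrix.one_apply,
    Matrix.single_apply]
  congr 1
  · by_cases hrs : r = s
    · subst hrs; simp
    · rw [if_neg hrs, if_neg (fun hh => hrs hh.symm)]
  · by_cases h1 : i = s ∧ j = r
    · rw [if_pos h1, if_pos ⟨h1.2, h1.1⟩]
    · rw [if_neg h1, if_neg (fun hh => h1 ⟨hh.2, hh.1⟩)]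

theorem p3row_of_tinv {X : Subgroup (GL κ F)} (h : P3col (tinv X)) : P3row X := by
  intro x hx hnm k a b hab ha hb
  have hy : tinvHom x⁻¹ ∈ tinv X := by
    rw [mem_tinv, tinvHom_tinvHom]
    exact X.inv_mem hx
  have hval : (tinvHom x⁻¹ : Matrix κ κ F) = (x : Matrix κ κ F)ᵀ := by
    rw [tinvHom_val, inv_inv]
  refine h (tinvHom x⁻¹) hy ?_ k a b hab ?_ ?_
  · intro hm
    apply hnm
    have := dual_isMono_transpose (tinvHom x⁻¹) hm
    rwa [hval, Matrix.transpose_transpose] at this
  · rw [hval, Matrix.transpose_apply]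
    exact ha
  · rw [hval, Matrix.transpose_apply]
    exact hb

end

end Cfsg.Agent.Lib.Helper65.Mono
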