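import Mathlib
import Cfsg.Prelude.Def_JComponents
import Cfsg.Agent.Lib.Helper78.JcDefs
import Cfsg.Agent.Lib.Helper72.JLDefs

/-! Interface for the S2948 project JE (helper58): in a ZN-group, a solvable overgroup `L ∈ ℒ(T)`
contains a `J(T)`-component; and the elementary facts on the family `𝒯*(M)`.
Definitions and the exact statements of the pieces. -/

set_option autoImplicit false

namespace Cfsg.Agent.Lib.Helper58.JE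

open Cfsg.Agent.Lib.Helper78.Jc
open Cfsg.Agent.Lib.Helper72.SC
open Cfsg.Agent.Lib.Helper72.JL

universe u

/-- the data extracted from an overgroup `L ∈ ℒ(T)` (all subgroups of the ambient group `G`):
`Q = O₂(L)`, `V` the normal closure of `Ω₁(Z(T))` in `L`, `C = C_L(V)`, `D ≥ C` with `|D : C| = 3`
normalized by `J(T)`, `A` an elementary abelian subgroup of `T` of largest order and `b ∈ A`
inverting `D/C` and acting on `V` as a transvection. -/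
structure Data {G : Type*} [Group G] (T L Q C V D A : Subgroup G) (b : G) : Prop where
  hT2 : IsPGroup 2 ↥T
  hTL : T ≤ L
  hQ2 : IsPGroup 2 ↥Q
  hQT : Q ≤ T
  hQn : L ≤ Subgroup.normalizer (Q : Set G)
  hCL : C ≤ L
  hCn : L ≤ Subgroup.normalizer (C : Set G)
  hQC : Q ≤ C
  hCT : C ≤ Subgroup.normalizer (T : Set G)
  hc1 : ∀ c ∈ C, ∀ t ∈ T, c * t * c⁻¹ * t⁻¹ ∈ Q
  hc2 : ∀ c ∈ C, (∃ n : ℕ, c ^ 2 ^ n = 1) → c ∈ Q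
  hVQ : V ≤ Q
  hVn : L ≤ Subgroup.normalizer (V : Set G)
  hVc : ∀ u ∈ V, ∀ v ∈ V, u * v = v * u
  hV2 : ∀ v ∈ V, v * v = 1
  hCV : ∀ x ∈ L, x ∈ C ↔ ∀ v ∈ V, x * v = v * x
  hCD : C ≤ D
  hDL : D ≤ L
  hDC : C.relIndex D = 3
  hDJ : Cfsg.thompsonSubgroupOf 2 T ≤ Subgroup.normalizer (D : Set G)
  hA : IsMaxEA T A
  hbA : b ∈ A
  hbD : ∀ d ∈ D, b * d * b⁻¹ * d ∈ C
  hbV : ∃ v₀ ∈ V, ∀ v ∈ V, b * v * b⁻¹ * v⁻¹ = 1 ∨ b * v * b⁻¹ * v⁻¹ = v₀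

/-- `y` is an element of order 3 of `D` outside `C` inverted by `b` -/
def YOk {G : Type*} [Group G] (C D : Subgroup G) (b y : G) : Prop :=
  y ∈ D ∧ y ∉ C ∧ y ^ 3 = 1 ∧ b * y * b⁻¹ = y⁻¹

/-- the candidate component: the subgroup generated by the elements of odd order of `Q⟨y⟩` -/
def KOf {G : Type*} [Group G] (Q : Subgroup G) (y : G) : Subgroup G :=
  Subgroup.closure {g : G | g ∈ Q ⊔ Subgroup.zpowers y ∧ Odd (orderOf g)}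

/-- every element of `T` normalizing `D` maps `y` into `yQ ∪ y⁻¹Q` -/
def Y2Ok {G : Type*} [Group G] (T Q D : Subgroup G) (y : G) : Prop :=
  ∀ t ∈ T, t ∈ Subgroup.normalizer (D : Set G) →
    t * y * t⁻¹ * y⁻¹ ∈ Q ∨ t * y * t⁻¹ * y ∈ Q

/-- the basic properties of `K = KOf Q y` -/
def K1Ok {G : Type*} [Group G] (T L Q : Subgroup G) (y : G) : Prop :=
  KOf Q y ≤ L ∧ y ∈ KOf Q y ∧
    Subgroup.closure {g : G | g ∈ KOf Q y ∧ Odd (orderOf g)} = KOf Q y ∧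
    Cfsg.thompsonSubgroupOf 2 T ≤ Subgroup.normalizer (KOf Q y : Set G) ∧
    Q ≤ Subgroup.normalizer (KOf Q y : Set G) ∧
    (∀ k ∈ KOf Q y, ∃ q ∈ KOf Q y ⊓ Q, ∃ i : ℕ, k = q * y ^ i) ∧
    (KOf Q y ⊓ Q).relIndex (KOf Q y) = 3

/-- `K = [K, J(T)]` and `O₂(K) = K ∩ Q` -/
def K2Ok {G : Type*} [Group G] (T Q : Subgroup G) (y : G) : Prop :=
  ⁅KOf Q y, Cfsg.thompsonSubgroupOf 2 T⁆ = KOf Q y ∧
    Cfsg.pCoreOf 2 (KOf Q y) = KOf Q y ⊓ Q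

/-- `W₁` is a four-group in `Ω₁(Z(K ∩ Q))` on which `y` acts fixed-point-freely, normalized
by `A` -/
def W1Ok {G : Type*} [Group G] (Q A : Subgroup G) (y : G) (W₁ : Subgroup G) : Prop :=
  W₁ ≤ Cfsg.omegaCenterOf (KOf Q y ⊓ Q) ∧ Nat.card ↥W₁ = 4 ∧ (∀ w ∈ W₁, y * w * y⁻¹ ∈ W₁) ∧
    (∀ w ∈ W₁, y * w * y⁻¹ = w → w = 1) ∧ ∀ a ∈ A, ∀ w ∈ W₁, a * w * a⁻¹ ∈ W₁

/-! ### statements of the pieces -/

/-- JE-FFG (from S0611, S0612 and JM-EXTM2): in a faithful solvable failure-of-factorization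
group `H` on `V` for `p = 2`, a nontrivial best offender `A` contains an involution `b` acting on
`V` as a transvection and inverting a normal subgroup `M` of `H` of order 3 -/
def FFGStmt.{w} : Prop :=
  ∀ (G : Type w) [Group G] [Finite G] (V H : Subgroup G), Cfsg.IsElementaryAbelian 2 V →
    H ≤ Subgroup.normalizer (V : Set G) → H ⊓ Subgroup.centralizer (V : Set G) = ⊥ →
    Subgroup.centralizer (Cfsg.pPrimeCore 2 ↥H : Set ↥H) ≤ Cfsg.pPrimeCore 2 ↥H →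
    H = ⨆ A : {A : Subgroup G // A ≤ H ∧ Cfsg.IsBestOffenderOn 2 V A}, (A : Subgroup G) →
    ∀ A : Subgroup G, A ≤ H → Cfsg.IsBestOffenderOn 2 V A → A ≠ ⊥ →
    ∃ (b : G) (M : Subgroup G), b ∈ A ∧ M ≤ H ∧ Nat.card ↥M = 3 ∧
      (∀ h ∈ H, ∀ m ∈ M, h * m * h⁻¹ ∈ M) ∧ (∀ m ∈ M, b * m * b⁻¹ = m⁻¹) ∧
      ∃ v₀ ∈ V, ∀ v ∈ V, b * v * b⁻¹ * v⁻¹ = 1 ∨ b * v * b⁻¹ * v⁻¹ = v₀

/-- JE-FF3 (from FFG and the pieces SC-FFA, SC-FFB): the same for a group `Gb` of automorphisms of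
an elementary abelian 2-group `V` -/
def FF3Stmt.{w} : Prop :=
  ∀ (V : Type w) [Group V] [Finite V] (Gb A : Subgroup (MulAut V)),
    (∀ a b : V, a * b = b * a) → (∀ v : V, v ^ 2 = 1) →
    Cfsg.IsPSolvable 2 ↥Gb → Cfsg.pCore 2 ↥Gb = ⊥ → A ≤ Gb →
    Cfsg.IsBestOffenderOn 2 (Vs V) (up A) → A ≠ ⊥ →
    ∃ (β : MulAut V) (M : Subgroup (MulAut V)), β ∈ A ∧ M ≤ Gb ∧ Nat.card ↥M = 3 ∧
      (∀ h : MulAut V, (SemidirectProduct.inr h : Gam V) ∈ Hs 2 Gb →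
        ∀ m ∈ M, h * m * h⁻¹ ∈ M) ∧
      (∀ m ∈ M, β * m * β⁻¹ = m⁻¹) ∧
      ∃ v₀ : V, ∀ v : V, β v * v⁻¹ = 1 ∨ β v * v⁻¹ = v₀

/-- JE-DATAX (from FF3) -/
def DataXStmt.{w} : Prop :=
  ∀ (X : Type w) [Group X] [Finite X] (T : Subgroup X), Setting X T →
    (∃ A₀ : Subgroup X, IsMaxEA T A₀ ∧ ¬ A₀ ≤ Cfsg.pCore 2 X) →
    ∃ (A : Subgroup X) (b : X) (M : Subgroup (MulAut ↥(VT T))),
      IsMaxEA T A ∧ b ∈ A ∧ M ≤ (rhoT T).range ∧ Nat.card ↥M = 3 ∧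
      (∀ A' : Subgroup X, IsMaxEA T A' → ∀ a ∈ A', ∀ m ∈ M,
        rhoT T a * m * (rhoT T a)⁻¹ ∈ M) ∧
      (∀ m ∈ M, rhoT T b * m * (rhoT T b)⁻¹ = m⁻¹) ∧
      ∃ v₀ : ↥(VT T), ∀ v : ↥(VT T), rhoT T b v * v⁻¹ = 1 ∨ rhoT T b v * v⁻¹ = v₀

/-- JE-DATAL (from DATAX): the data inside the group `X` itself (`L = ⊤`) -/
def DataLStmt.{w} : Prop :=
  ∀ (X : Type w) [Group X] [Finite X] (T : Subgroup X), Setting X T →
    (∃ A₀ : Subgroup X, IsMaxEA T A₀ ∧ ¬ A₀ ≤ Cfsg.pCore 2 X) →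
    ∃ (Q C V D A : Subgroup X) (b : X), Data T ⊤ Q C V D A b

/-- JE-DATAG (from DATAL) -/
def DataStmt.{w} : Prop :=
  ∀ (G : Type w) [Group G] [Finite G], ZNHyp G → ∀ T L : Subgroup G, IsPGroup 2 ↥T → T ≠ ⊥ →
    L ∈ Cfsg.jOvergroups T → ∃ (Q C V D A : Subgroup G) (b : G), Data T L Q C V D A b

/-- JE-Y1 -/
def Y1Stmt.{w} : Prop :=
  ∀ (G : Type w) [Group G] [Finite G] (T L Q C V D A : Subgroup G) (b : G),
    Data T L Q C V D A b → ∃ y : G, YOk C D b y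

/-- JE-Y2 -/
def Y2Stmt.{w} : Prop :=
  ∀ (G : Type w) [Group G] [Finite G] (T L Q C V D A : Subgroup G) (b y : G),
    Data T L Q C V D A b → YOk C D b y → Y2Ok T Q D y

/-- JE-K1 -/
def K1Stmt.{w} : Prop :=
  ∀ (G : Type w) [Group G] [Finite G] (T L Q C V D A : Subgroup G) (b y : G),
    Data T L Q C V D A b → YOk C D b y → Y2Ok T Q D y → K1Ok T L Q y

/-- JE-K2 -/
def K2Stmt.{w} : Prop :=
  ∀ (G : Type w) [Group G] [Finite G] (T L Q C V D A : Subgroup G) (b y : G),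
    Data T L Q C V D A b → YOk C D b y → K1Ok T L Q y → K2Ok T Q y

/-- JE-SYL -/
def SylStmt.{w} : Prop :=
  ∀ (G : Type w) [Group G] [Finite G] (T K P : Subgroup G), IsPGroup 2 ↥T → P ≤ T → P ≤ K →
    K ≤ Subgroup.normalizer (P : Set G) →
    Cfsg.thompsonSubgroupOf 2 T ≤ Subgroup.normalizer (K : Set G) →
    Cfsg.thompsonSubgroupOf 2 T ≤ Subgroup.normalizer (P : Set G) → P.relIndex K = 3 →
    ∀ S₁ : Subgroup G, Cfsg.IsSylowTwoIn S₁ (K ⊔ Cfsg.thompsonSubgroupOf 2 T) →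
      Cfsg.thompsonSubgroupOf 2 T ≤ S₁ →
      Cfsg.thompsonSubgroupOf 2 S₁ = Cfsg.thompsonSubgroupOf 2 T

/-- JE-FTR (from FMOD) -/
def FoursStmt.{w} : Prop :=
  ∀ (G : Type w) [Group G] [Finite G] (T A U W₁ : Subgroup G) (y b : G),
    IsMaxEA T A → b ∈ A → U ≤ T → (∀ u ∈ U, ∀ v ∈ U, u * v = v * u) → (∀ u ∈ U, u * u = 1) →
    y ^ 3 = 1 → (∀ u ∈ U, y * u * y⁻¹ ∈ U) → (∀ a ∈ A, ∀ u ∈ U, a * u * a⁻¹ ∈ U) →
    b * y * b⁻¹ = y⁻¹ →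
    (∀ a ∈ A, (∀ u ∈ U, (a * y * a⁻¹) * u * (a * y * a⁻¹)⁻¹ = y * u * y⁻¹) ∨
      (∀ u ∈ U, (a * y * a⁻¹) * u * (a * y * a⁻¹)⁻¹ = y⁻¹ * u * y)) →
    W₁ ≤ U → Nat.card ↥W₁ = 4 → (∀ w ∈ W₁, y * w * y⁻¹ ∈ W₁) →
    (∀ w ∈ W₁, y * w * y⁻¹ = w → w = 1) → (∀ a ∈ A, ∀ w ∈ W₁, a * w * a⁻¹ ∈ W₁) →
    ∀ u ∈ U, y * u * y⁻¹ * u⁻¹ ∈ W₁

/-- JE-HALF: an automorphism `κ` of order 3 without fixed points on the elementary abelian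
2-group `N`, inverted by the involution `β`: `|C_N(β)|² = |N|` -/
def HalfStmt.{w} : Prop :=
  ∀ (U : Type w) [CommGroup U] [Finite U] (κ β : MulAut U) (N : Subgroup U),
    (∀ u : U, u * u = 1) → κ ^ 3 = 1 → β * β = 1 → β * κ * β⁻¹ = κ⁻¹ →
    (∀ n ∈ N, κ n ∈ N) → (∀ n ∈ N, β n ∈ N) → (∀ n ∈ N, κ n = n → n = 1) →
    Nat.card {n : U // n ∈ N ∧ β n = n} ^ 2 = Nat.card ↥N

/-- JE-FMOD (from HALF): the module form of JE-FOURS; `𝔸` is an elementary abelian 2-group acting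
on the elementary abelian 2-group `U` and satisfying the offender inequality -/
def FModStmt.{w} : Prop :=
  ∀ (U : Type w) [CommGroup U] [Finite U] (𝔸 : Type w) [Group 𝔸] [Finite 𝔸]
    (ρ : 𝔸 →* MulAut U) (κ : MulAut U) (b : 𝔸) (W₁ : Subgroup U),
    (∀ u : U, u * u = 1) → (∀ a a' : 𝔸, a * a' = a' * a) → (∀ a : 𝔸, a * a = 1) →
    κ ^ 3 = 1 → ρ b * κ * (ρ b)⁻¹ = κ⁻¹ →
    (∀ a : 𝔸, ρ a * κ * (ρ a)⁻¹ = κ ∨ ρ a * κ * (ρ a)⁻¹ = κ⁻¹) →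
    (∀ B : Subgroup 𝔸, Nat.card ↥B * Nat.card {u : U // ∀ a ∈ B, ρ a u = u} ≤
      Nat.card 𝔸 * Nat.card {u : U // ∀ a : 𝔸, ρ a u = u}) →
    Nat.card ↥W₁ = 4 → (∀ w ∈ W₁, κ w ∈ W₁) → (∀ w ∈ W₁, κ w = w → w = 1) →
    (∀ a : 𝔸, ∀ w ∈ W₁, ρ a w ∈ W₁) →
    ∀ u : U, κ u * u⁻¹ ∈ W₁

/-- JE-W1 -/
def W1Stmt.{w} : Prop :=
  ∀ (G : Type w) [Group G] [Finite G] (T L Q C V D A : Subgroup G) (b y : G),
    Data T L Q C V D A b → YOk C D b y → Y2Ok T Q D y → K1Ok T L Q y →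
    ∃ W₁ : Subgroup G, W1Ok Q A y W₁

/-- JE-FAPP -/
def FAppStmt.{w} : Prop :=
  ∀ (G : Type w) [Group G] [Finite G] (T L Q C V D A : Subgroup G) (b y : G) (W₁ : Subgroup G),
    Data T L Q C V D A b → YOk C D b y → Y2Ok T Q D y → K1Ok T L Q y → W1Ok Q A y W₁ →
    FoursStmt.{w} →
    ∀ u ∈ Cfsg.omegaCenterOf (KOf Q y ⊓ Q), y * u * y⁻¹ * u⁻¹ ∈ W₁

/-- JE-WEQ -/
def WEqStmt.{w} : Prop :=
  ∀ (G : Type w) [Group G] [Finite G] (T L Q C V D A : Subgroup G) (b y : G) (W₁ : Subgroup G),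
    Data T L Q C V D A b → YOk C D b y → K1Ok T L Q y → K2Ok T Q y → W1Ok Q A y W₁ →
    (∀ u ∈ Cfsg.omegaCenterOf (KOf Q y ⊓ Q), y * u * y⁻¹ * u⁻¹ ∈ W₁) →
    Nat.card ↥(Cfsg.wOf (KOf Q y)) = 4 ∧ ∀ w ∈ Cfsg.wOf (KOf Q y), w * w = 1

/-- JE-A1 -/
def A1Stmt.{w} : Prop :=
  ∀ (G : Type w) [Group G] [Finite G] (S : Sylow 2 G) (M T : Subgroup G),
    Subgroup.normalizer (Cfsg.thompsonSubgroupOf 2 (S : Subgroup G) : Set G) ≤ M →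
    T ∈ Cfsg.maxStraddlingTwoSubgroups M →
    Subgroup.normalizer (Cfsg.thompsonSubgroupOf 2 T : Set G) ≤ M

/-- JE-A2 -/
def A2Stmt.{w} : Prop :=
  ∀ (G : Type w) [Group G] [Finite G] (M T L T₀ : Subgroup G),
    T ∈ Cfsg.maxStraddlingTwoSubgroups M →
    Subgroup.normalizer (Cfsg.thompsonSubgroupOf 2 T : Set G) ≤ M →
    Cfsg.IsTwoLocal L → ¬ L ≤ M → Cfsg.IsSylowTwoIn T₀ L → Cfsg.thompsonSubgroupOf 2 T ≤ T₀ →
    Cfsg.thompsonSubgroupOf 2 T = Cfsg.thompsonSubgroupOf 2 T₀ ∧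
      T₀ ∈ Cfsg.straddlingTwoSubgroups M

/-- JE-A3 -/
def A3Stmt.{w} : Prop :=
  ∀ (G : Type w) [Group G] [Finite G], Cfsg.IsCharacteristicTwoType G →
    ∀ (M T L T₀ : Subgroup G),
    Subgroup.normalizer (Cfsg.thompsonSubgroupOf 2 T : Set G) ≤ M →
    Cfsg.IsTwoLocal L → ¬ L ≤ M → Cfsg.IsSylowTwoIn T₀ L →
    Cfsg.thompsonSubgroupOf 2 T = Cfsg.thompsonSubgroupOf 2 T₀ → L ∈ Cfsg.jOvergroups T₀

/-- JE-A4 -/
def A4Stmt.{w} : Prop :=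
  ∀ (G : Type w) [Group G] [Finite G] (M T L : Subgroup G),
    T ∈ Cfsg.maxStraddlingTwoSubgroups M → Cfsg.IsTwoLocal L → ¬ L ≤ M → T ≤ L →
    (∀ T₀ : Subgroup G, Cfsg.IsSylowTwoIn T₀ L → Cfsg.thompsonSubgroupOf 2 T ≤ T₀ →
      Cfsg.thompsonSubgroupOf 2 T = Cfsg.thompsonSubgroupOf 2 T₀ ∧
        T₀ ∈ Cfsg.straddlingTwoSubgroups M) →
    Cfsg.IsSylowTwoIn T L

/-- the existence of a `J(T)`-component (assembled in JECore from the pieces) -/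
def CompStmt.{w} : Prop :=
  ∀ (G : Type w) [Group G] [Finite G] (T L Q C V D A : Subgroup G) (b : G),
    Data T L Q C V D A b → ∃ K : Subgroup G, Cfsg.IsJComponent T K ∧ K ≤ L

end Cfsg.Agent.Lib.Helper58.JE
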