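import Cfsg.Agent.Lib.Helper47.GUPrime

set_option autoImplicit false

namespace Cfsg.Agent.Lib.Helper58.QuadCOUNTEVEN

open Cfsg.Agent.Lib.Helper47

theorem card_sym_eq (α : Type*) [Finite α] (k : ℕ) :
    Nat.card {s : Multiset α // Multiset.card s = k} = (Nat.card α + k - 1).choose k := by
  classical
  have := Fintype.ofFinite α
  have h : Nat.card {s : Multiset α // Multiset.card s = k} = Fintype.card (Sym α k) := by
    rw [← Nat.card_eq_fintype_card]; rfl
  rw [h, Sym.card_sym_eq_choose, Nat.card_eq_fintype_card]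

theorem finite_pos_le (α : Type*) [Finite α] (i n : ℕ) (hi : 0 < i) :
    Finite {s : Multiset α // 0 < Multiset.card s ∧ i * Multiset.card s ≤ n} := by
  classical
  have := Fintype.ofFinite α
  obtain ⟨hfin, -⟩ := card_multiset_le_aux α n
  exact Finite.of_injective
    (fun s : {s : Multiset α // 0 < Multiset.card s ∧ i * Multiset.card s ≤ n} =>
      (⟨s.1, le_trans (Nat.le_mul_of_pos_left _ hi) s.2.2⟩ :
        {s : Multiset α // Multiset.card s ≤ n}))
    (fun a b h => Subtype.ext (by have h' := congrArg Subtype.val h; exact h'))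

/-- splitting a finite subtype along a predicate -/
theorem card_split {β : Type*} (P Q : β → Prop) [Finite {s : β // P s}] :
    Nat.card {s : β // P s ∧ Q s} + Nat.card {s : β // P s ∧ ¬ Q s} = Nat.card {s : β // P s} := by
  classical
  rw [← Nat.card_congr (Equiv.subtypeSubtypeEquivSubtypeInter P Q),
    ← Nat.card_congr (Equiv.subtypeSubtypeEquivSubtypeInter P (fun s => ¬ Q s)),
    ← Nat.card_sum]
  exact Nat.card_congr (Equiv.sumCompl (fun a : {s : β // P s} => Q a.1))

theorem card_full_gen {α : Type*} [Finite α] (i m : ℕ) (hi : 0 < i) (hm : 1 ≤ m)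
    (R : ℕ → Prop) :
    Nat.card {s : Multiset α // 0 < Multiset.card s ∧ i * Multiset.card s ≤ 2 * m ∧
        (i * Multiset.card s = 2 * m → R (Multiset.card s))}
      + Nat.card {s : Multiset α // i * Multiset.card s = 2 * m ∧ ¬ R (Multiset.card s)}
      = (2 * m / i + Nat.card α).choose (Nat.card α) - 1 := by
  classical
  have hfin := finite_pos_le α i (2 * m) hi
  rw [← card_multiset_pos_le α i (2 * m) hi,
    ← card_split (fun s : Multiset α => 0 < Multiset.card s ∧ i * Multiset.card s ≤ 2 * m)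
      (fun s => i * Multiset.card s = 2 * m → R (Multiset.card s))]
  congr 1
  · apply Nat.card_congr
    exact Equiv.subtypeEquivRight (fun s => by
      constructor
      · rintro ⟨h1, h2, h3⟩
        exact ⟨⟨h1, h2⟩, h3⟩
      · rintro ⟨⟨h1, h2⟩, h3⟩
        exact ⟨h1, h2, h3⟩)
  · apply Nat.card_congr
    exact Equiv.subtypeEquivRight (fun s => by
      constructor
      · rintro ⟨h1, h2⟩
        refine ⟨⟨?_, le_of_eq h1⟩, fun h => h2 (h h1)⟩
        rcases Nat.eq_zero_or_pos (Multiset.card s) with h0 | h0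
        · rw [h0, mul_zero] at h1
          omega
        · exact h0
      · rintro ⟨-, h3⟩
        by_contra hcon
        apply h3
        intro h1
        by_contra h2
        exact hcon ⟨h1, h2⟩)

theorem card_exact_pos {α : Type*} [Finite α] (hα : 0 < Nat.card α) (i m : ℕ) (hi : 0 < i)
    (R : ℕ → Prop) (h : i ∣ 2 * m ∧ ¬ R (2 * m / i)) :
    Nat.card {s : Multiset α // i * Multiset.card s = 2 * m ∧ ¬ R (Multiset.card s)}
      = (2 * m / i + Nat.card α - 1).choose (Nat.card α - 1) := by
  have e : {s : Multiset α // i * Multiset.card s = 2 * m ∧ ¬ R (Multiset.card s)} ≃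
      {s : Multiset α // Multiset.card s = 2 * m / i} :=
    Equiv.subtypeEquivRight (fun s => by
      constructor
      · rintro ⟨h1, -⟩
        exact (Nat.div_eq_of_eq_mul_right hi h1.symm).symm
      · intro h1
        rw [h1]
        exact ⟨Nat.mul_div_cancel' h.1, h.2⟩)
  rw [Nat.card_congr e, card_sym_eq]
  obtain ⟨t, ht⟩ : ∃ t, Nat.card α = t + 1 := ⟨Nat.card α - 1, by omega⟩
  rw [ht]
  generalize 2 * m / i = k
  have e1 : t + 1 + k - 1 = k + t := by omega
  have e2 : k + (t + 1) - 1 = k + t := by omega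
  rw [e1, e2, Nat.add_sub_cancel]
  exact Nat.choose_symm_add

theorem card_exact_neg {α : Type*} [Finite α] (i m : ℕ) (hi : 0 < i)
    (R : ℕ → Prop) (h : ¬ (i ∣ 2 * m ∧ ¬ R (2 * m / i))) :
    Nat.card {s : Multiset α // i * Multiset.card s = 2 * m ∧ ¬ R (Multiset.card s)} = 0 := by
  have : IsEmpty {s : Multiset α // i * Multiset.card s = 2 * m ∧ ¬ R (Multiset.card s)} := by
    refine ⟨fun s => h ?_⟩
    obtain ⟨s, h1, h2⟩ := s
    have h3 : 2 * m / i = Multiset.card s := Nat.div_eq_of_eq_mul_right hi h1.symm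
    rw [h3]
    exact ⟨Dvd.intro _ h1, h2⟩
  exact Nat.card_of_isEmpty

theorem card_multisets_full_even {α : Type*} [Finite α] (hα : 0 < Nat.card α) (i m : ℕ)
    (hi : 0 < i) (hm : 1 ≤ m) :
    Nat.card {s : Multiset α // 0 < Multiset.card s ∧ i * Multiset.card s ≤ 2 * m ∧
        (i * Multiset.card s = 2 * m → Even (Multiset.card s))}
      = (2 * m / i + Nat.card α).choose (Nat.card α) - 1
        - (if i ∣ 2 * m ∧ Odd (2 * m / i)
            then (2 * m / i + Nat.card α - 1).choose (Nat.card α - 1) else 0) := by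
  have key := card_full_gen (α := α) i m hi hm Even
  split_ifs with h
  · have h' : i ∣ 2 * m ∧ ¬ Even (2 * m / i) := ⟨h.1, Nat.not_even_iff_odd.mpr h.2⟩
    rw [card_exact_pos hα i m hi Even h'] at key
    omega
  · have h' : ¬ (i ∣ 2 * m ∧ ¬ Even (2 * m / i)) := fun hc =>
      h ⟨hc.1, Nat.not_even_iff_odd.mp hc.2⟩
    rw [card_exact_neg i m hi Even h'] at key
    omega

theorem card_multisets_full_odd {α : Type*} [Finite α] (hα : 0 < Nat.card α) (i m : ℕ)
    (hi : 0 < i) (hm : 1 ≤ m) :
    Nat.card {s : Multiset α // 0 < Multiset.card s ∧ i * Multiset.card s ≤ 2 * m ∧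
        (i * Multiset.card s = 2 * m → Odd (Multiset.card s))}
      = (2 * m / i + Nat.card α).choose (Nat.card α) - 1
        - (if i ∣ 2 * m ∧ Even (2 * m / i)
            then (2 * m / i + Nat.card α - 1).choose (Nat.card α - 1) else 0) := by
  have key := card_full_gen (α := α) i m hi hm Odd
  split_ifs with h
  · have h' : i ∣ 2 * m ∧ ¬ Odd (2 * m / i) := ⟨h.1, Nat.not_odd_iff_even.mpr h.2⟩
    rw [card_exact_pos hα i m hi Odd h'] at key
    omega
  · have h' : ¬ (i ∣ 2 * m ∧ ¬ Odd (2 * m / i)) := fun hc =>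
      h ⟨hc.1, Nat.not_odd_iff_even.mp hc.2⟩
    rw [card_exact_neg i m hi Odd h'] at key
    omega

end Cfsg.Agent.Lib.Helper58.QuadCOUNTEVEN
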