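import Cfsg.Agent.Lib.Helper47.GUPrime

set_option autoImplicit false
set_option linter.unusedVariables false

namespace Cfsg.Agent.Lib.Helper58.QuadCOUNTODD

open Cfsg.Agent.Lib.Helper47

theorem choose_arith (i m h : ℕ) (hi : 0 < i) (hm : 1 ≤ m) :
    ((2 * m - 1) / (2 * i) + h).choose h - 1
      = (m / i + h).choose h - 1 - (if i ∣ m then (m / i + h - 1).choose (h - 1) else 0) := by
  split_ifs with hd
  · obtain ⟨k, rfl⟩ := hd
    obtain ⟨k', rfl⟩ : ∃ k', k = k' + 1 := by
      refine ⟨k - 1, ?_⟩
      rcases Nat.eq_zero_or_pos k with h0 | h0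
      · rw [h0, mul_zero] at hm; omega
      · omega
    have h1 : (2 * (i * (k' + 1)) - 1) / (2 * i) = k' := by
      apply Nat.div_eq_of_lt_le
      · have : k' * (2 * i) = 2 * (i * k') := by ring
        have e : i * (k' + 1) = i * k' + i := by ring
        rw [this, e]
        omega
      · have : (k' + 1) * (2 * i) = 2 * (i * k') + 2 * i := by ring
        have e : i * (k' + 1) = i * k' + i := by ring
        rw [this, e]
        omega
    have h2 : i * (k' + 1) / i = k' + 1 := Nat.mul_div_cancel_left _ hi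
    rw [h1, h2]
    rcases Nat.eq_zero_or_pos h with h0 | h0
    · subst h0
      simp
    · obtain ⟨h', rfl⟩ : ∃ h', h = h' + 1 := ⟨h - 1, by omega⟩
      have e1 : k' + 1 + (h' + 1) = (k' + h' + 1) + 1 := by ring
      have e2 : k' + h' + 1 + 1 - 1 = k' + h' + 1 := by omega
      have e3 : k' + (h' + 1) = k' + h' + 1 := by ring
      have e4 : h' + 1 - 1 = h' := by omega
      rw [e1, e2, e3, e4, Nat.choose_succ_succ' (k' + h' + 1) h']
      omega
  · have hr : m % i ≠ 0 := fun h0 => hd (Nat.dvd_of_mod_eq_zero h0)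
    have hlt : m % i < i := Nat.mod_lt _ hi
    have hdm : i * (m / i) + m % i = m := Nat.div_add_mod m i
    have h1 : (2 * m - 1) / (2 * i) = m / i := by
      apply Nat.div_eq_of_lt_le
      · have : m / i * (2 * i) = 2 * (i * (m / i)) := by ring
        rw [this]
        omega
      · have : (m / i + 1) * (2 * i) = 2 * (i * (m / i)) + 2 * i := by ring
        rw [this]
        omega
    rw [h1, Nat.sub_zero]

theorem card_inv_multisets_ne {α : Type*} [Finite α] (hα : 0 < Nat.card α) (δ : α → α)
    (hδ : ∀ a, δ (δ a) = a) (hfix : ∀ a, δ a ≠ a) (i m : ℕ) (hi : 0 < i) (hm : 1 ≤ m) :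
    Nat.card {s : Multiset α // 0 < Multiset.card s ∧ i * Multiset.card s ≤ 2 * m ∧
        s.map δ = s ∧ i * Multiset.card s ≠ 2 * m}
      = (m / i + Nat.card α / 2).choose (Nat.card α / 2) - 1
        - (if i ∣ m then (m / i + Nat.card α / 2 - 1).choose (Nat.card α / 2 - 1) else 0) := by
  have key := card_invariant_multisets δ hδ hfix i (2 * m - 1) hi
  have e : {s : Multiset α // 0 < Multiset.card s ∧ i * Multiset.card s ≤ 2 * m ∧
        s.map δ = s ∧ i * Multiset.card s ≠ 2 * m} ≃
      {s : Multiset α // 0 < Multiset.card s ∧ i * Multiset.card s ≤ 2 * m - 1 ∧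
        s.map δ = s} :=
    Equiv.subtypeEquivRight (fun s => by
      constructor
      · rintro ⟨h1, h2, h3, h4⟩
        exact ⟨h1, by omega, h3⟩
      · rintro ⟨h1, h2, h3⟩
        exact ⟨h1, by omega, h3, by omega⟩)
  rw [Nat.card_congr e, key]
  exact choose_arith i m (Nat.card α / 2) hi hm

end Cfsg.Agent.Lib.Helper58.QuadCOUNTODD
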