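import Mathlib

set_option autoImplicit false

namespace Cfsg.Agent.Lib.Helper58

theorem nsub_ga1 {G : Type*} [Group G] [Finite G] {p : ℕ} [Fact p.Prime] (S : Sylow p G)
    (Q T KR : Subgroup G) [Q.Normal] [KR.Normal]
    (hQp : IsPGroup p Q) (hCQ : Subgroup.centralizer (Q : Set G) ≤ Q)
    (hQmax : ∀ N : Subgroup G, N.Normal → IsPGroup p N → N ≤ Q)
    (hTS : T ≤ S)
    (hsc : ∀ t ∈ T, ∀ g : G, g * t * g⁻¹ ∈ (S : Subgroup G) → g * t * g⁻¹ ∈ T)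
    (hTK : T ≤ KR) (hCK : Subgroup.centralizer ((T ⊓ Q : Subgroup G) : Set G) ≤ KR)
    (hsyl : ∀ s ∈ (S : Subgroup G), s ∈ KR → ∃ t ∈ T, ∀ r ∈ T ⊓ Q, s * r * s⁻¹ = t * r * t⁻¹) :
    ∃ H₂ X : Subgroup G, H₂.Normal ∧ X.Normal ∧ T ≤ H₂ ∧ X ≤ H₂ ∧ X ≤ Q ∧
      (∀ g, g ∈ H₂ ↔ g ∈ KR ∧ ∀ q ∈ Q, g * q * g⁻¹ * q⁻¹ ∈ T ⊓ Q) ∧
      (∀ g, g ∈ X ↔ g ∈ H₂ ∧ ∀ r ∈ T ⊓ Q, g * r * g⁻¹ = r) ∧
      (∀ x ∈ X, ∀ h ∈ H₂, h * x * h⁻¹ * x⁻¹ ∈ T) ∧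
      (∀ s ∈ (S : Subgroup G), s ∈ H₂ → ∃ t ∈ T, t⁻¹ * s ∈ X) := by
  have hQS : Q ≤ (S : Subgroup G) := hQp.le_sylow_of_normal S
  have hSnT : ∀ s ∈ (S : Subgroup G), ∀ t ∈ T, s * t * s⁻¹ ∈ T := fun s hs t ht =>
    hsc t ht s (mul_mem (mul_mem hs (hTS ht)) (inv_mem hs))
  have hRn : (T ⊓ Q : Subgroup G).Normal := by
    constructor
    intro r hr g
    have hq : g * r * g⁻¹ ∈ Q := Subgroup.Normal.conj_mem inferInstance r hr.2 g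
    exact ⟨hsc r hr.1 g (hQS hq), hq⟩
  -- the subgroup Y
  let Y : Subgroup G :=
    { carrier := {g | ∀ q ∈ Q, g * q * g⁻¹ * q⁻¹ ∈ T ⊓ Q}
      one_mem' := by
        intro q _
        simp
      mul_mem' := by
        intro a b ha hb q hq
        have h1 : a * (b * q * b⁻¹ * q⁻¹) * a⁻¹ ∈ T ⊓ Q := hRn.conj_mem _ (hb q hq) a
        have h2 := ha q hq
        have : a * b * q * (a * b)⁻¹ * q⁻¹
            = (a * (b * q * b⁻¹ * q⁻¹) * a⁻¹) * (a * q * a⁻¹ * q⁻¹) := by group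
        rw [this]
        exact mul_mem h1 h2
      inv_mem' := by
        intro a ha q hq
        have hq' : a⁻¹ * q * a⁻¹⁻¹ ∈ Q := Subgroup.Normal.conj_mem inferInstance q hq a⁻¹
        have h1 := ha _ hq'
        have : a⁻¹ * q * a⁻¹⁻¹ * q⁻¹ = (a * (a⁻¹ * q * a⁻¹⁻¹) * a⁻¹ * (a⁻¹ * q * a⁻¹⁻¹)⁻¹)⁻¹ := by
          group
        rw [this]
        exact inv_mem h1 }
  have hYmem : ∀ g, g ∈ Y ↔ ∀ q ∈ Q, g * q * g⁻¹ * q⁻¹ ∈ T ⊓ Q := fun g => Iff.rfl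
  have hYn : Y.Normal := by
    constructor
    intro g hg k
    rw [hYmem] at hg ⊢
    intro q hq
    have hq' : k⁻¹ * q * k⁻¹⁻¹ ∈ Q := Subgroup.Normal.conj_mem inferInstance q hq k⁻¹
    have h1 := hRn.conj_mem _ (hg _ hq') k
    have : k * g * k⁻¹ * q * (k * g * k⁻¹)⁻¹ * q⁻¹
        = k * (g * (k⁻¹ * q * k⁻¹⁻¹) * g⁻¹ * (k⁻¹ * q * k⁻¹⁻¹)⁻¹) * k⁻¹ := by group
    rw [this]
    exact h1
  have hTY : T ≤ Y := by
    intro t ht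
    rw [hYmem]
    intro q hq
    refine Subgroup.mem_inf.mpr ⟨?_, ?_⟩
    · have h1 : q * t⁻¹ * q⁻¹ ∈ T := hSnT q (hQS hq) t⁻¹ (inv_mem ht)
      have : t * q * t⁻¹ * q⁻¹ = t * (q * t⁻¹ * q⁻¹) := by group
      rw [this]
      exact mul_mem ht h1
    · exact mul_mem (Subgroup.Normal.conj_mem inferInstance q hq t) (inv_mem hq)
  -- H₂ and X
  have hH2n : (KR ⊓ Y).Normal := Subgroup.normal_inf_normal KR Y
  have hCn : (Subgroup.centralizer ((T ⊓ Q : Subgroup G) : Set G)).Normal :=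
    Subgroup.normal_centralizer
  have hXn : ((KR ⊓ Y) ⊓ Subgroup.centralizer ((T ⊓ Q : Subgroup G) : Set G)).Normal :=
    Subgroup.normal_inf_normal _ _
  have hXmem : ∀ g, g ∈ (KR ⊓ Y) ⊓ Subgroup.centralizer ((T ⊓ Q : Subgroup G) : Set G) ↔
      g ∈ KR ⊓ Y ∧ ∀ r ∈ T ⊓ Q, g * r * g⁻¹ = r := by
    intro g
    rw [Subgroup.mem_inf, Subgroup.mem_centralizer_iff]
    constructor
    · rintro ⟨h1, h2⟩
      refine ⟨h1, fun r hr => ?_⟩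
      rw [← h2 r hr]; group
    · rintro ⟨h1, h2⟩
      refine ⟨h1, fun r hr => ?_⟩
      have := h2 r hr
      calc r * g = (g * r * g⁻¹) * g := by rw [this]
        _ = g * r := by group
  -- X is a p-group
  have hXp : IsPGroup p ((KR ⊓ Y) ⊓ Subgroup.centralizer ((T ⊓ Q : Subgroup G) : Set G) :
      Subgroup G) := by
    obtain ⟨a, ha⟩ := IsPGroup.iff_card.mp hQp
    intro ⟨x, hx⟩
    obtain ⟨hxH, hxc⟩ := (hXmem x).mp hx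
    have hxY : ∀ q ∈ Q, x * q * x⁻¹ * q⁻¹ ∈ T ⊓ Q := hxH.2
    have key : ∀ q ∈ Q, ∀ k : ℕ, x ^ k * q * (x ^ k)⁻¹ = (x * q * x⁻¹ * q⁻¹) ^ k * q := by
      intro q hq k
      induction k with
      | zero => simp
      | succ k ih =>
        have h1 : x * (x * q * x⁻¹ * q⁻¹) ^ k * x⁻¹ = (x * q * x⁻¹ * q⁻¹) ^ k :=
          hxc _ (pow_mem (hxY q hq) k)
        calc x ^ (k + 1) * q * (x ^ (k + 1))⁻¹ = x * (x ^ k * q * (x ^ k)⁻¹) * x⁻¹ := by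
              rw [pow_succ']; group
          _ = x * ((x * q * x⁻¹ * q⁻¹) ^ k * q) * x⁻¹ := by rw [ih]
          _ = (x * (x * q * x⁻¹ * q⁻¹) ^ k * x⁻¹) * (x * q * x⁻¹ * q⁻¹) * q := by group
          _ = (x * q * x⁻¹ * q⁻¹) ^ k * (x * q * x⁻¹ * q⁻¹) * q := by rw [h1]
          _ = (x * q * x⁻¹ * q⁻¹) ^ (k + 1) * q := by rw [pow_succ]
    have hcent : x ^ (p ^ a) ∈ Subgroup.centralizer (Q : Set G) := by
      rw [Subgroup.mem_centralizer_iff]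
      intro q hq
      have h1 := key q hq (p ^ a)
      have h2 : (x * q * x⁻¹ * q⁻¹) ^ (p ^ a) = 1 := by
        have hrQ : x * q * x⁻¹ * q⁻¹ ∈ Q := (hxY q hq).2
        have := pow_card_eq_one' (G := Q) (x := ⟨_, hrQ⟩)
        rw [ha] at this
        simpa [Subtype.ext_iff] using this
      rw [h2, one_mul] at h1
      calc q * x ^ (p ^ a) = (x ^ (p ^ a) * q * (x ^ (p ^ a))⁻¹) * x ^ (p ^ a) := by rw [h1]
        _ = x ^ (p ^ a) * q := by group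
    have hxQ : x ^ (p ^ a) ∈ Q := hCQ hcent
    have h3 : (x ^ (p ^ a)) ^ (p ^ a) = 1 := by
      have := pow_card_eq_one' (G := Q) (x := ⟨_, hxQ⟩)
      rw [ha] at this
      simpa [Subtype.ext_iff] using this
    refine ⟨a + a, ?_⟩
    apply Subtype.ext
    simp only [Subgroup.coe_pow, Subgroup.coe_one]
    rw [pow_add, pow_mul, h3]
  have hXQ : (KR ⊓ Y) ⊓ Subgroup.centralizer ((T ⊓ Q : Subgroup G) : Set G) ≤ Q :=
    hQmax _ hXn hXp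
  refine ⟨KR ⊓ Y, (KR ⊓ Y) ⊓ Subgroup.centralizer ((T ⊓ Q : Subgroup G) : Set G), hH2n, hXn,
    le_inf hTK hTY, inf_le_left, hXQ, fun g => Iff.rfl, hXmem, ?_, ?_⟩
  · intro x hx h hh
    exact ((hh.2 : ∀ q ∈ Q, h * q * h⁻¹ * q⁻¹ ∈ T ⊓ Q) x (hXQ hx)).1
  · intro s hs hsH
    obtain ⟨t, ht, htr⟩ := hsyl s hs hsH.1
    refine ⟨t, ht, ?_⟩
    rw [hXmem]
    refine ⟨mul_mem (inv_mem (le_inf hTK hTY ht)) hsH, fun r hr => ?_⟩
    calc t⁻¹ * s * r * (t⁻¹ * s)⁻¹ = t⁻¹ * (s * r * s⁻¹) * t := by group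
      _ = t⁻¹ * (t * r * t⁻¹) * t := by rw [htr r hr]
      _ = r := by group

end Cfsg.Agent.Lib.Helper58
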