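import Mathlib
import Cfsg.Agent.Lib.Helper7.U3Unip

/-!
# S2149 job PT (helper58): `SU(3,5)` has `126` isotropic points
-/

set_option autoImplicit false
set_option linter.style.haveILetI false

namespace Cfsg.Agent.Lib.Helper58.U35PT

open Matrix Cfsg.Agent.Lib.Helper7 Cfsg.Agent.Lib.Helper18

theorem card_suPt35 {F : Type*} [Field F] [Fintype F] (hF : Fintype.card F = 5 ^ 2) :
    Nat.card (SUPt F 5 3) = 126 := by
  classical
  haveI : Finite (SUPt F 5 3) := finite_suPt 5 3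
  -- the number of isotropic vectors
  have hx : hcnt F 5 3 (0 : F) = 3025 := by
    obtain ⟨h1, h2⟩ := herm_counts hF 3
    have h3 : ((hcnt F 5 3 (0 : F) : ℕ) : ℤ) = 3025 := by
      push_cast at h1 h2
      linarith
    exact_mod_cast h3
  have hiso : Nat.card {v : Fin 3 → F // Cfsg.hermForm 3 F 5 v v = 0} = 3025 := by
    rw [hcnt_eq_hermForm, hx]
  have hiso' : Nat.card {v : Fin 3 → F // Cfsg.hermForm 3 F 5 v v = 0 ∧ v ≠ 0} = 3024 := by
    rw [Nat.card_eq_fintype_card, Fintype.card_subtype] at hiso ⊢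
    have h1 : (Finset.univ.filter fun v : Fin 3 → F => Cfsg.hermForm 3 F 5 v v = 0 ∧ v ≠ 0) =
        (Finset.univ.filter fun v : Fin 3 → F => Cfsg.hermForm 3 F 5 v v = 0).erase 0 := by
      ext v
      simp [and_comm]
    rw [h1, Finset.card_erase_of_mem (by simp [hf_zero_left]), hiso]
  -- representatives
  have hrep : ∀ p : SUPt F 5 3, ∃ v : Fin 3 → F, ∃ (hv : Cfsg.hermForm 3 F 5 v v = 0)
      (hv0 : v ≠ 0), p = suMkPt 3 v hv hv0 := fun p => exists_eq_suMkPt p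
  choose rep hrepiso hrep0 hrepeq using hrep
  have hsm : ∀ (a : Fˣ) (v : Fin 3 → F), Cfsg.hermForm 3 F 5 v v = 0 → v ≠ 0 →
      Cfsg.hermForm 3 F 5 ((a : F) • v) ((a : F) • v) = 0 ∧ (a : F) • v ≠ 0 := by
    intro a v hv hv0
    refine ⟨by rw [hf_smul_left, hf_smul_right, hv, mul_zero, mul_zero], ?_⟩
    intro h
    rcases smul_eq_zero.mp h with h | h
    · exact a.ne_zero h
    · exact hv0 h
  let Φ : SUPt F 5 3 × Fˣ → {v : Fin 3 → F // Cfsg.hermForm 3 F 5 v v = 0 ∧ v ≠ 0} :=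
    fun x => ⟨(x.2 : F) • rep x.1, hsm x.2 (rep x.1) (hrepiso x.1) (hrep0 x.1)⟩
  have hΦpt : ∀ x : SUPt F 5 3 × Fˣ,
      suMkPt 3 ((x.2 : F) • rep x.1) (hsm x.2 (rep x.1) (hrepiso x.1) (hrep0 x.1)).1
        (hsm x.2 (rep x.1) (hrepiso x.1) (hrep0 x.1)).2 = x.1 := by
    intro x
    rw [suMkPt_smul (x.2 : F) x.2.ne_zero (rep x.1) (hrepiso x.1) (hrep0 x.1)]
    exact (hrepeq x.1).symm
  have hΦinj : Function.Injective Φ := by
    rintro ⟨p, a⟩ ⟨p', a'⟩ hxx
    have h1 : (a : F) • rep p = (a' : F) • rep p' := congrArg Subtype.val hxx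
    have hp : p = p' := by
      have e1 := hΦpt (p, a)
      have e2 := hΦpt (p', a')
      have e3 : (p, a).1 = (p', a').1 := by
        rw [← e1, ← e2]
        exact suMkPt_congr h1 _ _ _ _
      exact e3
    subst hp
    have h2 : ((a : F) - (a' : F)) • rep p = 0 := by rw [sub_smul, h1, sub_self]
    rcases smul_eq_zero.mp h2 with h | h
    · have h3 : a = a' := Units.ext (sub_eq_zero.mp h)
      rw [h3]
    · exact absurd h (hrep0 p)
  have hΦsurj : Function.Surjective Φ := by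
    rintro ⟨w, hw, hw0⟩
    have h1 := hrepeq (suMkPt 3 w hw hw0)
    have h2 : suRoot 3 w hw = suRoot 3 (rep (suMkPt 3 w hw hw0)) (hrepiso _) :=
      congrArg Subtype.val h1
    obtain ⟨a, ha⟩ := suRoot_eq_imp hF 3 (rep (suMkPt 3 w hw hw0)) w (hrepiso _) hw hw0 h2
    have ha0 : a ≠ 0 := by
      rintro rfl
      rw [zero_smul] at ha
      exact hw0 ha
    refine ⟨(suMkPt 3 w hw hw0, Units.mk0 a ha0), ?_⟩
    apply Subtype.ext
    show ((Units.mk0 a ha0 : Fˣ) : F) • rep (suMkPt 3 w hw hw0) = w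
    rw [Units.val_mk0, ← ha]
  have hcard := Nat.card_congr (Equiv.ofBijective Φ ⟨hΦinj, hΦsurj⟩)
  rw [Nat.card_prod, hiso', herm_card_units hF] at hcard
  omega

end Cfsg.Agent.Lib.Helper58.U35PT
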