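import Mathlib

/-!
# S2149 job S (helper58): Sylow counting for a subgroup, and `|G| ∣ index!` for simple `G`
-/

set_option autoImplicit false
set_option linter.style.haveILetI false

namespace Cfsg.Agent.Lib.Helper58.U35S

/-- If `S` of order `p` is a Sylow `p`-subgroup of `G` (`p² ∤ |G|`) with `|N_G(S)| = n`, then every
subgroup `H` of order divisible by `p` has order `m * k` with `m ≡ 1 mod p`, `k ∣ n`, `p ∣ k`. -/
theorem sylow_count {G : Type*} [Group G] [Finite G] (p : ℕ) [Fact p.Prime] (S : Subgroup G)
    (hS : Nat.card S = p) (hp2 : ¬ p ^ 2 ∣ Nat.card G) (n : ℕ)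
    (hN : Nat.card (Subgroup.normalizer (S : Set G)) = n)
    (H : Subgroup G) (hH : p ∣ Nat.card H) :
    ∃ m k, Nat.card H = m * k ∧ m % p = 1 ∧ k ∣ n ∧ p ∣ k := by
  classical
  have hp : p.Prime := Fact.out
  have hGne : Nat.card G ≠ 0 := Nat.card_pos.ne'
  have hHne : Nat.card H ≠ 0 := Nat.card_pos.ne'
  have hHG : Nat.card H ∣ Nat.card G := Subgroup.card_subgroup_dvd_card H
  have hfacG : (Nat.card G).factorization p = 1 := by
    have h3 : p ∣ Nat.card G := dvd_trans hH hHG
    have h4 : 1 ≤ (Nat.card G).factorization p := (hp.dvd_iff_one_le_factorization hGne).mp h3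
    have h5 : ¬ 2 ≤ (Nat.card G).factorization p :=
      fun h => hp2 ((hp.pow_dvd_iff_le_factorization hGne).mpr h)
    omega
  have hfacH : (Nat.card H).factorization p = 1 := by
    have h4 : 1 ≤ (Nat.card H).factorization p := (hp.dvd_iff_one_le_factorization hHne).mp hH
    have h5 : ¬ 2 ≤ (Nat.card H).factorization p :=
      fun h => hp2 (dvd_trans ((hp.pow_dvd_iff_le_factorization hHne).mpr h) hHG)
    omega
  obtain ⟨T⟩ : Nonempty (Sylow p H) := inferInstance
  have hTcard : Nat.card (T : Subgroup H) = p := by
    rw [Sylow.card_eq_multiplicity, hfacH, pow_one]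
  refine ⟨Nat.card (Sylow p H), Nat.card (Subgroup.normalizer ((T : Subgroup H) : Set H)),
    ?_, ?_, ?_, ?_⟩
  · have e' : Nat.card (Sylow p H) =
        (Subgroup.normalizer ((T : Subgroup H) : Set H)).index :=
      Sylow.card_eq_index_normalizer T
    rw [e', Subgroup.index_mul_card]
  · have h1 := card_sylow_modEq_one p H
    have h2 : 1 % p = 1 := Nat.mod_eq_of_lt hp.one_lt
    rw [Nat.ModEq, h2] at h1
    exact h1
  · -- the image of `T` in `G` is a Sylow subgroup of `G`
    have hT'card : Nat.card ((T : Subgroup H).map H.subtype) = p := by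
      rw [Subgroup.card_map_of_injective H.subtype_injective, hTcard]
    have hidx : (Subgroup.normalizer (((T : Subgroup H).map H.subtype : Subgroup G) : Set G)).index
        = (Subgroup.normalizer (S : Set G)).index := by
      have e1 : Nat.card (Sylow p G) = (Subgroup.normalizer
          (((T : Subgroup H).map H.subtype : Subgroup G) : Set G)).index :=
        Sylow.card_eq_index_normalizer
          (Sylow.ofCard ((T : Subgroup H).map H.subtype) (by rw [hT'card, hfacG, pow_one]) :
            Sylow p G)
      have e2 : Nat.card (Sylow p G) = (Subgroup.normalizer (S : Set G)).index :=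
        Sylow.card_eq_index_normalizer
          (Sylow.ofCard S (by rw [hS, hfacG, pow_one]) : Sylow p G)
      rw [← e1, ← e2]
    have hcardN : Nat.card (Subgroup.normalizer
        (((T : Subgroup H).map H.subtype : Subgroup G) : Set G)) = n := by
      have e1 := Subgroup.index_mul_card
        (Subgroup.normalizer (((T : Subgroup H).map H.subtype : Subgroup G) : Set G))
      have e2 := Subgroup.index_mul_card (Subgroup.normalizer (S : Set G))
      rw [hidx] at e1
      rw [hN] at e2
      have hpos : 0 < (Subgroup.normalizer (S : Set G)).index :=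
        Nat.pos_of_ne_zero (Subgroup.index_ne_zero_of_finite)
      exact Nat.eq_of_mul_eq_mul_left hpos (e1.trans e2.symm)
    have hle : (Subgroup.normalizer ((T : Subgroup H) : Set H)).map H.subtype ≤
        Subgroup.normalizer (((T : Subgroup H).map H.subtype : Subgroup G) : Set G) := by
      rintro x ⟨h, hh, rfl⟩
      have hh' := Subgroup.mem_set_normalizer_iff.mp hh
      rw [Subgroup.mem_set_normalizer_iff]
      intro y
      constructor
      · rintro ⟨t, ht, rfl⟩
        exact ⟨h * t * h⁻¹, (hh' t).mp ht, rfl⟩
      · rintro ⟨t', ht', ht'eq⟩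
        refine ⟨h⁻¹ * t' * h, ?_, ?_⟩
        · apply (hh' (h⁻¹ * t' * h)).mpr
          have : h * (h⁻¹ * t' * h) * h⁻¹ = t' := by group
          rw [this]
          exact ht'
        · have h1 : (H.subtype t' : G) = H.subtype h * y * (H.subtype h)⁻¹ := ht'eq
          rw [map_mul, map_mul, map_inv, h1]
          group
    have h1 := Subgroup.card_dvd_of_le hle
    rw [Subgroup.card_map_of_injective H.subtype_injective, hcardN] at h1
    exact h1
  · have h1 : p ∣ Nat.card (T : Subgroup H) := by rw [hTcard]
    exact dvd_trans h1 (Subgroup.card_dvd_of_le Subgroup.le_normalizer)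

/-- A simple group embeds in the symmetric group on the cosets of any proper subgroup. -/
theorem card_dvd_factorial_index {G : Type*} [Group G] [Finite G] [IsSimpleGroup G]
    (H : Subgroup G) (hH : H ≠ ⊤) : Nat.card G ∣ (H.index).factorial := by
  classical
  have hker : (MulAction.toPermHom G (G ⧸ H)).ker = ⊥ := by
    rcases Subgroup.Normal.eq_bot_or_eq_top
      (inferInstance : ((MulAction.toPermHom G (G ⧸ H)).ker).Normal) with h | h
    · exact h
    · exfalso
      apply hH
      rw [eq_top_iff, ← h, ← Subgroup.normalCore_eq_ker]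
      exact Subgroup.normalCore_le H
  have hinj : Function.Injective (MulAction.toPermHom G (G ⧸ H)) :=
    (MonoidHom.ker_eq_bot_iff _).mp hker
  have h1 := Subgroup.card_dvd_of_injective _ hinj
  rw [Nat.card_perm] at h1
  exact h1

end Cfsg.Agent.Lib.Helper58.U35S
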