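import Mathlib
import Cfsg.Agent.Lib.Helper7.U3Unip

/-!
# S2149 job U (helper58): a TI `5`-subgroup of `SU(3,5)` on isotropic points, and a
transversal counting lemma
-/

set_option autoImplicit false
set_option linter.style.haveILetI false

namespace Cfsg.Agent.Lib.Helper58.U35U

open Matrix Cfsg.Agent.Lib.Helper7 Cfsg.Agent.Lib.Helper18

theorem exists_TI35 {F : Type*} [Field F] [Fintype F] (hF : Fintype.card F = 5 ^ 2) :
    ∃ (P : Subgroup (Cfsg.SU 3 F 5)) (δ₀ : SUPt F 5 3), IsPGroup 5 P ∧ 125 ≤ Nat.card P ∧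
      (∀ u ∈ P, u • δ₀ = δ₀) ∧
      (∀ u ∈ P, u ≠ 1 → ∀ δ : SUPt F 5 3, u • δ = δ → δ = δ₀) := by
  haveI : Fact (Nat.Prime 5) := ⟨by norm_num⟩
  haveI : CharP F 5 := charP_of_card_eq_prime_pow hF
  have hq0 : (5 : ℕ) ≠ 0 := by norm_num
  obtain ⟨t, ht0, ht⟩ := herm_norm_surj hF (-1 : F) (neg_ne_zero.mpr one_ne_zero)
    (by rw [herm_neg_pow hF, one_pow])
  have htt : t ^ 5 * t = -1 := by rw [← pow_succ]; exact ht
  obtain ⟨e, he⟩ : ∃ e : Fin 3 → F, e = ![1, t, 0] := ⟨_, rfl⟩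
  obtain ⟨d, hd⟩ : ∃ d : Fin 3 → F, d = ![0, 0, 1] := ⟨_, rfl⟩
  obtain ⟨x₀, hx₀⟩ : ∃ x₀ : Fin 3 → F, x₀ = ![1, 0, 0] := ⟨_, rfl⟩
  have hee : Cfsg.hermForm 3 F 5 e e = 0 := by
    rw [hfq3, he]
    simp
    linear_combination htt
  have hde : Cfsg.hermForm 3 F 5 d e = 0 := by
    rw [hfq3, he, hd]
    simp
  have hdd : Cfsg.hermForm 3 F 5 d d = 1 := by
    rw [hfq3, hd]
    simp
  have hxe : Cfsg.hermForm 3 F 5 x₀ e = 1 := by
    rw [hfq3, he, hx₀]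
    simp
  have hxd : Cfsg.hermForm 3 F 5 x₀ d = 0 := by
    rw [hfq3, hd, hx₀]
    simp
  have he0 : e ≠ 0 := by
    intro h
    have h1 := congrFun h 0
    rw [he] at h1
    simp at h1
  have hD : ∀ v : Fin 3 → F, Cfsg.hermForm 3 F 5 v v = 0 → Cfsg.hermForm 3 F 5 v e = 0 →
      ∃ α : F, v = α • e := by
    intro v hvv hve
    rw [hfq3] at hvv hve
    rw [he] at hve
    simp at hve
    have h0 : v 0 = -(v 1 * t ^ 5) := by linear_combination hve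
    have h0q : v 0 ^ 5 = -(v 1 ^ 5 * t) := by
      rw [h0, herm_neg_pow hF, mul_pow, herm_pow_pow hF]
    have h2 : v 2 * v 2 ^ 5 = 0 := by
      rw [h0q] at hvv
      rw [h0] at hvv
      linear_combination hvv - v 1 * v 1 ^ 5 * htt
    have hv2 : v 2 = 0 := by
      rcases mul_eq_zero.mp h2 with h | h
      · exact h
      · exact (pow_eq_zero_iff hq0).mp h
    refine ⟨v 0, ?_⟩
    ext i
    fin_cases i
    · simp [he]
    · simp [he]
      rw [h0]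
      linear_combination v 1 * htt
    · simp [he, hv2]
  refine ⟨unipU hF 3 e hee, suMkPt 3 e hee he0, unipU_isPGroup hF 3 e hee 5, ?_, ?_, ?_⟩
  · have h1 := card_unipU_ge hF 3 e d x₀ hee hde hdd hxe hxd
    norm_num at h1
    exact h1
  · intro u hu
    obtain ⟨hgv, hgv0, h3⟩ := smul_suMkPt u e hee he0
    rw [h3]
    exact suMkPt_congr (unipU_fix hF 3 e hee u hu) _ _ _ _
  · intro u hu hu1 δ hδ
    obtain ⟨v, hv, hv0, rfl⟩ := exists_eq_suMkPt δ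
    obtain ⟨hgv, hgv0, h3⟩ := smul_suMkPt u v hv hv0
    rw [h3] at hδ
    have h4 : suRoot 3 _ hgv = suRoot 3 v hv := congrArg Subtype.val hδ
    obtain ⟨a, ha⟩ := suRoot_eq_imp hF 3 v _ hv hgv hgv0 h4
    by_cases hve : Cfsg.hermForm 3 F 5 v e = 0
    · obtain ⟨α, hα⟩ := hD v hv hve
      have hα0 : α ≠ 0 := by
        rintro rfl
        rw [zero_smul] at hα
        exact hv0 hα
      have hav : Cfsg.hermForm 3 F 5 (α • e) (α • e) = 0 := by rw [← hα]; exact hv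
      have hav0 : α • e ≠ 0 := by rw [← hα]; exact hv0
      rw [suMkPt_congr hα hv hv0 hav hav0]
      exact suMkPt_smul α hα0 e hee he0 hav hav0
    · exact absurd (unipU_free hF 3 e hee u hu v hve a ha) hu1

theorem card_ge_of_transversal {G : Type*} [Group G] [Finite G] {Δ : Type*} [MulAction G Δ]
    (K : Subgroup G) (δ₁ δ₂ : Δ) {ι₁ ι₂ ι₃ : Type*} [Finite ι₁] [Finite ι₂] [Finite ι₃]
    (t₁ : ι₁ → G) (t₂ : ι₂ → G) (t₃ : ι₃ → G)
    (h1 : ∀ i, t₁ i ∈ K) (h2 : ∀ j, t₂ j ∈ K) (h3 : ∀ l, t₃ l ∈ K)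
    (i1 : ∀ i i', t₁ i • δ₁ = t₁ i' • δ₁ → i = i')
    (f2 : ∀ j, t₂ j • δ₁ = δ₁) (i2 : ∀ j j', t₂ j • δ₂ = t₂ j' • δ₂ → j = j')
    (f3 : ∀ l, t₃ l • δ₁ = δ₁) (f3' : ∀ l, t₃ l • δ₂ = δ₂) (i3 : Function.Injective t₃) :
    Nat.card ι₁ * Nat.card ι₂ * Nat.card ι₃ ≤ Nat.card K := by
  have hinj : Function.Injective (fun x : (ι₁ × ι₂) × ι₃ =>
      (⟨t₁ x.1.1 * t₂ x.1.2 * t₃ x.2,
        K.mul_mem (K.mul_mem (h1 _) (h2 _)) (h3 _)⟩ : K)) := by
    rintro ⟨⟨i, j⟩, l⟩ ⟨⟨i', j'⟩, l'⟩ hxx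
    have hx : t₁ i * t₂ j * t₃ l = t₁ i' * t₂ j' * t₃ l' := congrArg Subtype.val hxx
    have hi : i = i' := by
      apply i1
      have e1 := congrArg (fun g : G => g • δ₁) hx
      simp only [mul_smul, f3, f2] at e1
      exact e1
    subst hi
    have hx2 : t₂ j * t₃ l = t₂ j' * t₃ l' := by
      have e2 : t₁ i * (t₂ j * t₃ l) = t₁ i * (t₂ j' * t₃ l') := by
        rw [← mul_assoc, ← mul_assoc]; exact hx
      exact mul_left_cancel e2
    have hj : j = j' := by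
      apply i2
      have e1 := congrArg (fun g : G => g • δ₂) hx2
      simp only [mul_smul, f3'] at e1
      exact e1
    subst hj
    have hl : l = l' := i3 (mul_left_cancel hx2)
    subst hl
    rfl
  have h4 := Nat.card_le_card_of_injective _ hinj
  rw [Nat.card_prod, Nat.card_prod] at h4
  exact h4

end Cfsg.Agent.Lib.Helper58.U35U
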