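import Mathlib
import Cfsg.Agent.Lib.Helper52.SP8EBDefs

/-! SP8-EB (helper52, S5823), piece GLOF: transported pure tensors of invertible matrices are
elements of `GL`. -/

set_option autoImplicit false
set_option linter.unusedSectionVars false

namespace Cfsg.Agent.Lib.Helper52.SP8EB

open Matrix Cfsg.Geo Cfsg.Agent.Lib.Helper71.Asch

variable {n : ℕ} {F : Type*} [Field F] [Fintype F]

/-- GLOF [easy]: pt_mul, pt_one, tw_mul, tw_one. -/
theorem GLOF (e : Fin n ≃ (Fin 3 → Fin 2)) (P : GL (Fin n) F) : HGlof e P := by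
  intro cs ds h
  have h' : ∀ i, ds i * cs i = 1 := fun i => mul_eq_one_comm.mp (h i)
  have h1 : tw e P (pt cs) * tw e P (pt ds) = 1 := by
    rw [tw_mul, pt_mul]
    have : (fun i => cs i * ds i) = fun _ : Fin 3 => (1 : Matrix (Fin 2) (Fin 2) F) := funext h
    rw [this, pt_one, tw_one]
  have h2 : tw e P (pt ds) * tw e P (pt cs) = 1 := by
    rw [tw_mul, pt_mul]
    have : (fun i => ds i * cs i) = fun _ : Fin 3 => (1 : Matrix (Fin 2) (Fin 2) F) := funext h'
    rw [this, pt_one, tw_one]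
  exact ⟨⟨tw e P (pt cs), tw e P (pt ds), h1, h2⟩, rfl, rfl⟩

end Cfsg.Agent.Lib.Helper52.SP8EB
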