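import Mathlib
import Cfsg.Prelude.Def_GeometricClasses
import Cfsg.Prelude.Def_ClassicalGeometry
import Cfsg.Agent.Lib.Helper98.F75Defs
import Cfsg.Agent.Lib.Helper18.Symp

/-!
S5975 piece F75-KEVEN (helper58 for helper98): a `ρ`-invariant subspace on which the symplectic
form is nondegenerate has `F`-dimension divisible by `2 * finrank F L`.
-/

set_option autoImplicit false

universe u

namespace Cfsg.Agent.Lib.Helper98.F75

open Matrix Polynomial

/-! ### F75-KEVEN -/
theorem two_mul_dvd_finrank_of_nondeg {F : Type*} [Field F] {d : ℕ} {L : Type*} [Field L]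
    [Algebra F L] (ρ : L →ₐ[F] Matrix (Fin d ⊕ Fin d) (Fin d ⊕ Fin d) F)
    (hself : ∀ (c : L) (u v : Fin d ⊕ Fin d → F),
      Cfsg.sympForm d F (ρ c *ᵥ u) v = Cfsg.sympForm d F u (ρ c *ᵥ v))
    (halt : ∀ (c : L) (v : Fin d ⊕ Fin d → F), Cfsg.sympForm d F (ρ c *ᵥ v) v = 0)
    (hinv : ∀ U : Submodule F (Fin d ⊕ Fin d → F), (∀ c : L, ∀ w ∈ U, ρ c *ᵥ w ∈ U) →
      Module.finrank F L ∣ Module.finrank F U)
    (W : Submodule F (Fin d ⊕ Fin d → F)) (hW : ∀ c : L, ∀ w ∈ W, ρ c *ᵥ w ∈ W)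
    (hnd : ∀ w ∈ W, (∀ u ∈ W, Cfsg.sympForm d F w u = 0) → w = 0) :
    2 * Module.finrank F L ∣ Module.finrank F W := by
  classical
  obtain ⟨B, hBdef⟩ : ∃ B : LinearMap.BilinForm F (Fin d ⊕ Fin d → F),
      B = Cfsg.Agent.Lib.Helper18.sympB d := ⟨_, rfl⟩
  have hB : ∀ u v, B u v = Cfsg.sympForm d F u v := fun u v => by
    rw [hBdef]; exact Cfsg.Agent.Lib.Helper18.sympB_eq_sympForm d u v
  have hBalt : B.IsAlt := by rw [hBdef]; exact Cfsg.Agent.Lib.Helper18.sympB_isAlt d
  have hrefl : B.IsRefl := hBalt.isRefl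
  have hself' : ∀ (c : L) (u v : Fin d ⊕ Fin d → F), B (ρ c *ᵥ u) v = B u (ρ c *ᵥ v) :=
    fun c u v => by rw [hB, hB]; exact hself c u v
  have halt' : ∀ (c : L) (v : Fin d ⊕ Fin d → F), B (ρ c *ᵥ v) v = 0 :=
    fun c v => by rw [hB]; exact halt c v
  -- a maximal invariant totally isotropic subspace of `W`
  let P : Submodule F (Fin d ⊕ Fin d → F) → Prop := fun U =>
    U ≤ W ∧ (∀ c : L, ∀ w ∈ U, ρ c *ᵥ w ∈ U) ∧ ∀ u ∈ U, ∀ u' ∈ U, B u u' = 0
  let S : Set ℕ := {n | ∃ U, P U ∧ Module.finrank F U = n}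
  have hne : S.Nonempty := by
    refine ⟨0, ⊥, ⟨bot_le, ?_, ?_⟩, finrank_bot F _⟩
    · intro c w hw
      rw [Submodule.mem_bot] at hw ⊢
      rw [hw, Matrix.mulVec_zero]
    · intro u hu u' _
      rw [Submodule.mem_bot] at hu
      rw [hu]; simp
  have hbdd : BddAbove S := by
    refine ⟨Module.finrank F (Fin d ⊕ Fin d → F), ?_⟩
    rintro n ⟨U, -, rfl⟩
    exact Submodule.finrank_le U
  obtain ⟨U, hPU, hUn⟩ := Nat.sSup_mem hne hbdd
  have hmax : ∀ U', P U' → Module.finrank F U' ≤ Module.finrank F U := fun U' hU' => by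
    rw [hUn]; exact le_csSup hbdd ⟨U', hU', rfl⟩
  obtain ⟨hUW, hUinv, hUiso⟩ := hPU
  -- maximality: `U^⊥ ∩ W ≤ U`
  have hclaim : ∀ w ∈ W, (∀ u ∈ U, B u w = 0) → w ∈ U := by
    intro w hwW hw
    by_contra hwU
    let φ : L →ₗ[F] (Fin d ⊕ Fin d → F) :=
      { toFun := fun c => ρ c *ᵥ w
        map_add' := fun c c' => by rw [map_add, Matrix.add_mulVec]
        map_smul' := fun a c => by
          rw [map_smul, Matrix.smul_mulVec]; rfl }
    have hφ : ∀ c, φ c = ρ c *ᵥ w := fun c => rfl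
    have hP' : P (U ⊔ LinearMap.range φ) := by
      refine ⟨sup_le hUW ?_, ?_, ?_⟩
      · rintro _ ⟨c, rfl⟩
        exact hW c w hwW
      · intro c x hx
        obtain ⟨u, hu, t, ⟨c', rfl⟩, rfl⟩ := Submodule.mem_sup.mp hx
        rw [Matrix.mulVec_add]
        refine Submodule.add_mem _ (Submodule.mem_sup_left (hUinv c u hu))
          (Submodule.mem_sup_right ⟨c * c', ?_⟩)
        rw [hφ, hφ, map_mul, Matrix.mulVec_mulVec]
      · intro x hx x' hx'
        obtain ⟨u, hu, t, ⟨c₁, rfl⟩, rfl⟩ := Submodule.mem_sup.mp hx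
        obtain ⟨u', hu', t', ⟨c₂, rfl⟩, rfl⟩ := Submodule.mem_sup.mp hx'
        rw [hφ, hφ]
        have e1 : B u u' = 0 := hUiso u hu u' hu'
        have e2 : B u (ρ c₂ *ᵥ w) = 0 := by
          rw [← hself']; exact hw _ (hUinv c₂ u hu)
        have e3 : B (ρ c₁ *ᵥ w) u' = 0 := by
          rw [hself']; exact hrefl _ _ (hw _ (hUinv c₁ u' hu'))
        have e4 : B (ρ c₁ *ᵥ w) (ρ c₂ *ᵥ w) = 0 := by
          rw [← hself', Matrix.mulVec_mulVec, ← map_mul]; exact halt' _ _
        simp only [map_add, LinearMap.add_apply, e1, e2, e3, e4, add_zero]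
    have hlt : U < U ⊔ LinearMap.range φ := by
      refine lt_of_le_of_ne le_sup_left ?_
      intro heq
      apply hwU
      rw [heq]
      refine Submodule.mem_sup_right ⟨1, ?_⟩
      rw [hφ, map_one, Matrix.one_mulVec]
    have h1 := Submodule.finrank_lt_finrank_of_lt hlt
    have h2 := hmax _ hP'
    omega
  -- dimension count in `W`
  have hBWnd : (B.restrict W).Nondegenerate := by
    have hl : ∀ x : ↥W, (∀ y : ↥W, B.restrict W x y = 0) → x = 0 := by
      intro x hx
      apply Subtype.ext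
      apply hnd x.1 x.2
      intro u hu
      have := hx ⟨u, hu⟩
      rw [LinearMap.BilinForm.restrict_apply] at this
      rw [← hB]; exact this
    refine ⟨hl, ?_⟩
    intro y hy
    apply hl
    intro x
    have := hy x
    rw [LinearMap.BilinForm.restrict_apply] at this ⊢
    exact hrefl _ _ this
  have horth : (B.restrict W).orthogonal (U.comap W.subtype) = U.comap W.subtype := by
    ext m
    rw [LinearMap.BilinForm.mem_orthogonal_iff]
    constructor
    · intro h
      rw [Submodule.mem_comap]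
      apply hclaim _ m.2
      intro u hu
      have := h ⟨u, hUW hu⟩ (by rw [Submodule.mem_comap]; exact hu)
      rw [LinearMap.BilinForm.restrict_apply] at this
      exact this
    · intro hm n hn
      rw [LinearMap.BilinForm.restrict_apply]
      exact hUiso _ hn _ hm
  have h1 := LinearMap.BilinForm.finrank_orthogonal hBWnd (U.comap W.subtype)
  rw [horth] at h1
  have h2 : Module.finrank F (U.comap W.subtype) = Module.finrank F U :=
    (Submodule.comapSubtypeEquivOfLe hUW).finrank_eq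
  have h3 : Module.finrank F (U.comap W.subtype) ≤ Module.finrank F W := Submodule.finrank_le _
  have h4 : Module.finrank F W = 2 * Module.finrank F U := by omega
  rw [h4]
  exact Nat.mul_dvd_mul_left 2 (hinv U hUinv)

end Cfsg.Agent.Lib.Helper98.F75
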