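import Mathlib
import Cfsg.Prelude.Def_GeometricClasses
import Cfsg.Prelude.Def_ClassicalGeometry
import Cfsg.Agent.Lib.Helper98.F75Defs

/-!
S5975 piece F75-KINV (helper58 for helper98): a `ρ`-invariant `F`-subspace has `F`-dimension
divisible by `finrank F L`.
-/

set_option autoImplicit false

universe u

namespace Cfsg.Agent.Lib.Helper98.F75

open Matrix Polynomial

/-! ### F75-KINV -/
theorem finrank_dvd_of_invariant {F : Type*} [Field F] {ι : Type} [Fintype ι] [DecidableEq ι]
    {L : Type*} [Field L] [Algebra F L] (ρ : L →ₐ[F] Matrix ι ι F)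
    (W : Submodule F (ι → F)) (hW : ∀ c : L, ∀ w ∈ W, ρ c *ᵥ w ∈ W) :
    Module.finrank F L ∣ Module.finrank F W := by
  classical
  let inst : Module L ↥W :=
    { smul := fun c w => ⟨ρ c *ᵥ (w : ι → F), hW c w w.2⟩
      one_smul := fun w => Subtype.ext (by
        show ρ 1 *ᵥ (w : ι → F) = w
        rw [map_one, Matrix.one_mulVec])
      mul_smul := fun c c' w => Subtype.ext (by
        show ρ (c * c') *ᵥ (w : ι → F) = ρ c *ᵥ (ρ c' *ᵥ (w : ι → F))
        rw [map_mul, Matrix.mulVec_mulVec])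
      smul_zero := fun c => Subtype.ext (by
        show ρ c *ᵥ ((0 : ↥W) : ι → F) = ((0 : ↥W) : ι → F)
        simp)
      smul_add := fun c w w' => Subtype.ext (by
        show ρ c *ᵥ ((w + w' : ↥W) : ι → F) = ρ c *ᵥ (w : ι → F) + ρ c *ᵥ (w' : ι → F)
        simp [Matrix.mulVec_add])
      add_smul := fun c c' w => Subtype.ext (by
        show ρ (c + c') *ᵥ (w : ι → F) = ρ c *ᵥ (w : ι → F) + ρ c' *ᵥ (w : ι → F)
        rw [map_add, Matrix.add_mulVec])
      zero_smul := fun w => Subtype.ext (by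
        show ρ 0 *ᵥ (w : ι → F) = ((0 : ↥W) : ι → F)
        rw [map_zero, Matrix.zero_mulVec]
        rfl) }
  have : IsScalarTower F L ↥W := ⟨fun a c w => Subtype.ext (by
    show ρ (a • c) *ᵥ (w : ι → F) = a • (ρ c *ᵥ (w : ι → F))
    rw [map_smul, Matrix.smul_mulVec])⟩
  exact Dvd.intro _ (Module.finrank_mul_finrank F L ↥W)

end Cfsg.Agent.Lib.Helper98.F75
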