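import Mathlib
import Cfsg.Agent.Lib.Helper58.JEDefs

/-! Assembly of the S2948 project JE (helper58): the existence of a `J(T)`-component from the
pieces, and the statement S2948 from the pieces. -/

set_option autoImplicit false

namespace Cfsg.Agent.Lib.Helper58.JE

open Cfsg.Agent.Lib.Helper78.Jc
open Cfsg.Agent.Lib.Helper72.SC
open Cfsg.Agent.Lib.Helper72.JL

universe u

theorem je_mem_normalizer_inf {G : Type*} [Group G] (H₁ H₂ : Subgroup G) (g : G)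
    (h1 : g ∈ Subgroup.normalizer (H₁ : Set G)) (h2 : g ∈ Subgroup.normalizer (H₂ : Set G)) :
    g ∈ Subgroup.normalizer ((H₁ ⊓ H₂ : Subgroup G) : Set G) := by
  rw [Subgroup.mem_normalizer_iff] at h1 h2 ⊢
  intro h
  rw [Subgroup.mem_inf, Subgroup.mem_inf, ← h1 h, ← h2 h]

/-- the existence of a `J(T)`-component from the pieces -/
theorem comp_of_pieces (hY1 : Y1Stmt.{u}) (hY2 : Y2Stmt.{u}) (hK1 : K1Stmt.{u})
    (hK2 : K2Stmt.{u}) (hSyl : SylStmt.{u}) (hW1 : W1Stmt.{u}) (hFApp : FAppStmt.{u})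
    (hFours : FoursStmt.{u}) (hWEq : WEqStmt.{u}) : CompStmt.{u} := by
  intro G _ _ T L Q C V D A b hD
  obtain ⟨y, hy⟩ := hY1 G T L Q C V D A b hD
  have hy2 := hY2 G T L Q C V D A b y hD hy
  have hk1 := hK1 G T L Q C V D A b y hD hy hy2
  have hk2 := hK2 G T L Q C V D A b y hD hy hk1
  obtain ⟨W₁, hW⟩ := hW1 G T L Q C V D A b y hD hy hy2 hk1
  have hU := hFApp G T L Q C V D A b y W₁ hD hy hy2 hk1 hW hFours
  have hw := hWEq G T L Q C V D A b y W₁ hD hy hk1 hk2 hW hU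
  obtain ⟨hKL, hyK, hgen, hJK, hQK, hdec, hidx⟩ := hk1
  obtain ⟨hcomm, hcore⟩ := hk2
  have hJT : Cfsg.thompsonSubgroupOf 2 T ≤ T :=
    Subgroup.map_subtype_le (Cfsg.thompsonSubgroup 2 ↥T)
  refine ⟨KOf Q y, ⟨hgen, hcomm, ?_, ?_, hw.1, hw.2⟩, hKL⟩
  · rw [hcore]; exact hidx
  · intro S hS hJS
    refine hSyl G T (KOf Q y) (KOf Q y ⊓ Q) hD.hT2 (inf_le_right.trans hD.hQT) inf_le_left
      ?_ hJK ?_ hidx S hS hJS
    · intro k hk
      exact je_mem_normalizer_inf _ _ k (Subgroup.le_normalizer hk) (hD.hQn (hKL hk))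
    · intro j hj
      exact je_mem_normalizer_inf _ _ j (hJK hj) (hD.hQn (hD.hTL (hJT hj)))

/-- the statement S2948 from the pieces -/
theorem main_of_pieces (hA1 : A1Stmt.{u}) (hA2 : A2Stmt.{u}) (hA3 : A3Stmt.{u})
    (hA4 : A4Stmt.{u}) (hData : DataStmt.{u}) (hComp : CompStmt.{u})
    {G : Type u} [Group G] [Finite G] (hL : Cfsg.IsCharacteristicTwoType G)
    (hN : ∀ N : Subgroup G, Cfsg.IsTwoLocal N → Group.IsSolvable ↥N)
    (hZ : ∀ S : Sylow 2 G, Subgroup.centralizer (Cfsg.omegaCenterOf (S : Subgroup G) : Set G) ≤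
      Subgroup.normalizer ((S : Subgroup G) : Set G))
    (S : Sylow 2 G) (M : Subgroup G)
    (hMJ : Subgroup.normalizer (Cfsg.thompsonSubgroupOf 2 (S : Subgroup G) : Set G) ≤ M)
    (T : Subgroup G) (hT : T ∈ Cfsg.maxStraddlingTwoSubgroups M)
    (L : Subgroup G) (hL2 : Cfsg.IsTwoLocal L) (hLM : ¬ L ≤ M) (T₀ : Subgroup G)
    (hT₀ : Cfsg.IsSylowTwoIn T₀ L) (hJT₀ : Cfsg.thompsonSubgroupOf 2 T ≤ T₀) :
    Cfsg.thompsonSubgroupOf 2 T = Cfsg.thompsonSubgroupOf 2 T₀ ∧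
      T₀ ∈ Cfsg.straddlingTwoSubgroups M ∧ L ∈ Cfsg.jOvergroups T₀ ∧
      (T ≤ L → L ∈ Cfsg.jOvergroups T ∧ ∃ K : Subgroup G, Cfsg.IsJComponent T K ∧ K ≤ L) := by
  have hNJ := hA1 G S M T hMJ hT
  have h12 := hA2 G M T L T₀ hT hNJ hL2 hLM hT₀ hJT₀
  refine ⟨h12.1, h12.2, hA3 G hL M T L T₀ hNJ hL2 hLM hT₀ h12.1, fun hTL => ?_⟩
  have hS : Cfsg.IsSylowTwoIn T L := hA4 G M T L hT hL2 hLM hTL
    (fun T₁ h1 h2 => hA2 G M T L T₁ hT hNJ hL2 hLM h1 h2)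
  have hLj : L ∈ Cfsg.jOvergroups T := hA3 G hL M T L T hNJ hL2 hLM hS rfl
  obtain ⟨⟨hT2, hTne, -, -⟩, -⟩ := hT
  obtain ⟨Q, C, V, D, A, b, hD⟩ := hData G ⟨hL, hN, hZ⟩ T L hT2 hTne hLj
  exact ⟨hLj, hComp G T L Q C V D A b hD⟩

end Cfsg.Agent.Lib.Helper58.JE
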