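import Cfsg.Agent.Lib.Helper47.OmcDefs

/-!
# OMC (helper47, S2683–S2685), piece NACOUNT (helper58)

For a non-alternating involution `M` of `O⁺_{2m}(q)`, `q` even, exactly half of the fixed vectors
`a` have `Q a` in the Artin–Schreier image.
-/

set_option autoImplicit false

namespace Cfsg.Agent.Lib.Helper58.Omc

open Cfsg.Agent.Lib.Helper47 Matrix

variable {F : Type*} [Field F]

/-- squaring is surjective on a finite field of characteristic two -/
theorem nacount_exists_sq [Fintype F] [CharP F 2] (c : F) : ∃ d : F, d ^ 2 = c := by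
  have h2 : (2 : F) = 0 := CharTwo.two_eq_zero
  have hinj : Function.Injective (fun x : F => x ^ 2) := by
    intro x y h
    have h' : x ^ 2 = y ^ 2 := h
    have h3 : (x - y) ^ 2 = 0 := by
      linear_combination h' + (y ^ 2 - x * y) * h2
    have h4 : x - y = 0 := by
      rcases pow_eq_zero_iff (n := 2) (by norm_num) |>.mp h3 with h5
      exact h5
    exact sub_eq_zero.mp h4
  exact Finite.surjective_of_injective hinj c

theorem nacount_spForm_sub (m : ℕ) (a x y : Fin m ⊕ Fin m → F) :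
    spForm (Fin m) F a (x - y) = spForm (Fin m) F a x - spForm (Fin m) F a y := by
  simp [spForm, Matrix.mulVec_sub, dotProduct_sub]

theorem nacount_spForm_smul (m : ℕ) (a x : Fin m ⊕ Fin m → F) (d : F) :
    spForm (Fin m) F a (d • x) = d * spForm (Fin m) F a x := by
  simp [spForm, Matrix.mulVec_smul, dotProduct_smul]

/-- the number of fixed vectors -/
theorem nacount_card_fix [Fintype F] {q : ℕ} (hF : Fintype.card F = q) (m s : ℕ)
    (M : Matrix (Fin m ⊕ Fin m) (Fin m ⊕ Fin m) F) (hs : (M - 1).rank = s) :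
    Nat.card {a : Fin m ⊕ Fin m → F // M *ᵥ a = a} = q ^ (2 * m - s) := by
  classical
  have e : {a : Fin m ⊕ Fin m → F // M *ᵥ a = a} ≃ ↥(LinearMap.ker (M - 1).mulVecLin) :=
    Equiv.subtypeEquivRight (fun a => by
      rw [LinearMap.mem_ker, Matrix.mulVecLin_apply, Matrix.sub_mulVec, Matrix.one_mulVec,
        sub_eq_zero])
  rw [Nat.card_congr e, Module.natCard_eq_pow_finrank (K := F), Nat.card_eq_fintype_card, hF]
  congr 1
  have h1 := LinearMap.finrank_range_add_finrank_ker (M - 1).mulVecLin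
  have h2 : Module.finrank F (LinearMap.range (M - 1).mulVecLin) = s := hs
  rw [h2, Module.finrank_fintype_fun_eq_card, Fintype.card_sum, Fintype.card_fin] at h1
  omega

theorem card_fix_wp_na [Fintype F] [CharP F 2] {q : ℕ} (hF : Fintype.card F = q)
    (hwp : WPFacts F q) (m s : ℕ) (M : Matrix (Fin m ⊕ Fin m) (Fin m ⊕ Fin m) F)
    (hMQ : ∀ v, Cfsg.quadFormPlus m F (M *ᵥ v) = Cfsg.quadFormPlus m F v) (hM2 : M * M = 1)
    (hs : (M - 1).rank = s) (hna : ∃ v, Cfsg.quadFormPlus m F ((M - 1) *ᵥ v) ≠ 0) :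
    Nat.card {a : Fin m ⊕ Fin m → F // M *ᵥ a = a ∧ IsWP (Cfsg.quadFormPlus m F a)} * 2
      = q ^ (2 * m - s) := by
  classical
  obtain ⟨hwp1, hwp2, hwp3, ⟨e, he⟩, -⟩ := hwp
  obtain ⟨v0, hv0⟩ := hna
  have h2 : (2 : F) = 0 := CharTwo.two_eq_zero
  have hdbl : ∀ w : Fin m ⊕ Fin m → F, w + w = 0 := by
    intro w
    ext i
    simp only [Pi.add_apply, Pi.zero_apply]
    exact CharTwo.add_self_eq_zero _
  -- the vector `w0`
  have hw0def : (M - 1) *ᵥ v0 = M *ᵥ v0 - v0 := by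
    rw [Matrix.sub_mulVec, Matrix.one_mulVec]
  rw [hw0def] at hv0
  have hw0fix : M *ᵥ (M *ᵥ v0 - v0) = M *ᵥ v0 - v0 := by
    rw [Matrix.mulVec_sub, Matrix.mulVec_mulVec, hM2, Matrix.one_mulVec]
    have hneg : -(M *ᵥ v0 - v0) = M *ᵥ v0 - v0 :=
      (eq_neg_of_add_eq_zero_left (hdbl (M *ᵥ v0 - v0))).symm
    rw [← neg_sub, hneg]
  have hB0 : ∀ a : Fin m ⊕ Fin m → F, M *ᵥ a = a → spForm (Fin m) F a (M *ᵥ v0 - v0) = 0 := by
    intro a ha
    rw [nacount_spForm_sub]
    have h1 := spForm_of_qplus m M hMQ a v0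
    rw [ha] at h1
    rw [h1, sub_self]
  -- the scalar `d`
  obtain ⟨d, hd⟩ := nacount_exists_sq (e / Cfsg.quadFormPlus m F (M *ᵥ v0 - v0))
  have hde : d ^ 2 * Cfsg.quadFormPlus m F (M *ᵥ v0 - v0) = e := by
    rw [hd, div_mul_cancel₀ _ hv0]
  -- the shift
  have hshiftfix : ∀ a : Fin m ⊕ Fin m → F, M *ᵥ a = a →
      M *ᵥ (a + d • (M *ᵥ v0 - v0)) = a + d • (M *ᵥ v0 - v0) := by
    intro a ha
    rw [Matrix.mulVec_add, Matrix.mulVec_smul, ha, hw0fix]
  have hshiftQ : ∀ a : Fin m ⊕ Fin m → F, M *ᵥ a = a →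
      Cfsg.quadFormPlus m F (a + d • (M *ᵥ v0 - v0)) = Cfsg.quadFormPlus m F a + e := by
    intro a ha
    rw [qplus_add, qplus_smul, nacount_spForm_smul, hB0 a ha, hde, mul_zero, add_zero]
  have hshift2 : ∀ a : Fin m ⊕ Fin m → F,
      a + d • (M *ᵥ v0 - v0) + d • (M *ᵥ v0 - v0) = a := by
    intro a
    rw [add_assoc, hdbl, add_zero]
  -- counting
  have hK := nacount_card_fix hF m s M hs
  rw [Nat.card_eq_fintype_card, Fintype.card_subtype] at hK
  have h1 : Nat.card {a : Fin m ⊕ Fin m → F // M *ᵥ a = a ∧ IsWP (Cfsg.quadFormPlus m F a)}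
      = ((Finset.univ.filter (fun a : Fin m ⊕ Fin m → F => M *ᵥ a = a)).filter
          (fun a => IsWP (Cfsg.quadFormPlus m F a))).card := by
    rw [Nat.card_eq_fintype_card, Fintype.card_subtype, Finset.filter_filter]
  have h3 : ((Finset.univ.filter (fun a : Fin m ⊕ Fin m → F => M *ᵥ a = a)).filter
          (fun a => IsWP (Cfsg.quadFormPlus m F a))).card
      = ((Finset.univ.filter (fun a : Fin m ⊕ Fin m → F => M *ᵥ a = a)).filter
          (fun a => ¬ IsWP (Cfsg.quadFormPlus m F a))).card := by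
    apply Finset.card_bij (fun a _ => a + d • (M *ᵥ v0 - v0))
    · intro a ha
      rw [Finset.mem_filter, Finset.mem_filter] at ha ⊢
      refine ⟨⟨Finset.mem_univ _, hshiftfix a ha.1.2⟩, ?_⟩
      rw [hshiftQ a ha.1.2]
      exact hwp3 _ _ ha.2 he
    · intro a _ b _ hab
      exact add_right_cancel hab
    · intro b hb
      rw [Finset.mem_filter, Finset.mem_filter] at hb
      refine ⟨b + d • (M *ᵥ v0 - v0), ?_, hshift2 b⟩
      rw [Finset.mem_filter, Finset.mem_filter]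
      refine ⟨⟨Finset.mem_univ _, hshiftfix b hb.1.2⟩, ?_⟩
      rw [hshiftQ b hb.1.2]
      exact hwp2 _ _ hb.2 he
  have h4 := Finset.card_filter_add_card_filter_not
    (s := Finset.univ.filter (fun a : Fin m ⊕ Fin m → F => M *ᵥ a = a))
    (fun a => IsWP (Cfsg.quadFormPlus m F a))
  rw [h1, ← hK, ← h4, ← h3]
  ring

end Cfsg.Agent.Lib.Helper58.Omc
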