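import Cfsg.Agent.Lib.Helper47.OmcDefs

/-!
# OMC (helper47, S2683–S2685), piece STDINV (helper58)

An explicit alternating involution `fromBlocks 1 S 0 1` of `O⁺_{2m}(F)`, characteristic two, of
even rank `s ≤ m`, with fixed space `{a | a (inr i) = 0 for i < s}`.
-/

set_option autoImplicit false

namespace Cfsg.Agent.Lib.Helper58.Omc

open Cfsg.Agent.Lib.Helper47 Matrix

variable {F : Type*} [Field F]

/-- the partner of `n`: `n + 1` for even `n`, `n - 1` for odd `n` -/
def stdinvP (n : ℕ) : ℕ := if n % 2 = 0 then n + 1 else n - 1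

theorem stdinvP_lt {s n : ℕ} (hev : Even s) (h : n < s) : stdinvP n < s := by
  unfold stdinvP
  obtain ⟨k, rfl⟩ := hev
  split_ifs <;> omega

theorem stdinvP_invol (n : ℕ) : stdinvP (stdinvP n) = n := by
  unfold stdinvP
  split_ifs <;> omega

theorem stdinvP_ne (n : ℕ) : stdinvP n ≠ n := by
  unfold stdinvP
  split_ifs <;> omega

/-- the involution of `Fin m` pairing `2j` and `2j+1` below `s` -/
def stdinvQ (m s : ℕ) (hs : s ≤ m) (hev : Even s) (i : Fin m) : Fin m :=
  if h : i.val < s then ⟨stdinvP i.val, lt_of_lt_of_le (stdinvP_lt hev h) hs⟩ else i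

theorem stdinvQ_lt_iff (m s : ℕ) (hs : s ≤ m) (hev : Even s) (i : Fin m) :
    (stdinvQ m s hs hev i).val < s ↔ i.val < s := by
  unfold stdinvQ
  by_cases h : i.val < s
  · rw [dif_pos h]
    exact ⟨fun _ => h, fun _ => stdinvP_lt hev h⟩
  · rw [dif_neg h]

theorem stdinvQ_val (m s : ℕ) (hs : s ≤ m) (hev : Even s) (i : Fin m) (h : i.val < s) :
    (stdinvQ m s hs hev i).val = stdinvP i.val := by
  unfold stdinvQ
  rw [dif_pos h]

theorem stdinvQ_invol (m s : ℕ) (hs : s ≤ m) (hev : Even s) (i : Fin m) :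
    stdinvQ m s hs hev (stdinvQ m s hs hev i) = i := by
  by_cases h : i.val < s
  · have h' : (stdinvQ m s hs hev i).val < s := (stdinvQ_lt_iff m s hs hev i).mpr h
    apply Fin.ext
    rw [stdinvQ_val m s hs hev _ h', stdinvQ_val m s hs hev _ h, stdinvP_invol]
  · have e1 : stdinvQ m s hs hev i = i := by
      unfold stdinvQ
      rw [dif_neg h]
    rw [e1, e1]

theorem stdinvQ_ne (m s : ℕ) (hs : s ≤ m) (hev : Even s) (i : Fin m) (h : i.val < s) :
    stdinvQ m s hs hev i ≠ i := by
  intro hh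
  have e1 := stdinvQ_val m s hs hev i h
  rw [hh] at e1
  exact stdinvP_ne _ e1.symm

/-- the symmetric block -/
def stdinvS (F : Type*) [Field F] (m s : ℕ) (hs : s ≤ m) (hev : Even s) :
    Matrix (Fin m) (Fin m) F :=
  fun i k => if i.val < s ∧ k = stdinvQ m s hs hev i then 1 else 0

/-- the permutation matrix of the pairing -/
def stdinvPq (F : Type*) [Field F] (m s : ℕ) (hs : s ≤ m) (hev : Even s) :
    Matrix (Fin m) (Fin m) F :=
  fun i k => if k = stdinvQ m s hs hev i then 1 else 0

/-- the diagonal weights -/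
def stdinvW (F : Type*) [Field F] (m s : ℕ) : Fin m → F := fun k => if k.val < s then 1 else 0

/-- the involution -/
def stdinvM (F : Type*) [Field F] (m s : ℕ) (hs : s ≤ m) (hev : Even s) :
    Matrix (Fin m ⊕ Fin m) (Fin m ⊕ Fin m) F :=
  fromBlocks 1 (stdinvS F m s hs hev) 0 1

theorem stdinvS_mulVec (m s : ℕ) (hs : s ≤ m) (hev : Even s) (x : Fin m → F) (i : Fin m) :
    (stdinvS F m s hs hev *ᵥ x) i = if i.val < s then x (stdinvQ m s hs hev i) else 0 := by
  simp only [Matrix.mulVec, dotProduct, stdinvS]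
  by_cases h : i.val < s
  · simp [h]
  · simp [h]

theorem stdinvM_mulVec (m s : ℕ) (hs : s ≤ m) (hev : Even s) (v : Fin m ⊕ Fin m → F) :
    stdinvM F m s hs hev *ᵥ v = Sum.elim
      (fun i => v (Sum.inl i) + if i.val < s then v (Sum.inr (stdinvQ m s hs hev i)) else 0)
      (fun i => v (Sum.inr i)) := by
  unfold stdinvM
  rw [Matrix.fromBlocks_mulVec]
  ext (i | i)
  · simp only [Sum.elim_inl, Pi.add_apply, Matrix.one_mulVec, Function.comp_apply,
      stdinvS_mulVec]
  · simp

theorem stdinv_sum_zero [CharP F 2] (m s : ℕ) (hs : s ≤ m) (hev : Even s) (x : Fin m → F) :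
    ∑ i : Fin m, (if i.val < s then x (stdinvQ m s hs hev i) else 0) * x i = 0 := by
  apply Finset.sum_involution (fun i _ => stdinvQ m s hs hev i)
  · intro i _
    by_cases h : i.val < s
    · have h' := (stdinvQ_lt_iff m s hs hev i).mpr h
      rw [if_pos h, if_pos h', stdinvQ_invol, mul_comm (x i)]
      exact CharTwo.add_self_eq_zero _
    · have h' : ¬ (stdinvQ m s hs hev i).val < s := fun hh =>
        h ((stdinvQ_lt_iff m s hs hev i).mp hh)
      rw [if_neg h, if_neg h', zero_mul, zero_mul, add_zero]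
  · intro i _ hne
    by_cases h : i.val < s
    · exact stdinvQ_ne m s hs hev i h
    · rw [if_neg h, zero_mul] at hne
      exact absurd rfl hne
  · intro i _
    exact Finset.mem_univ _
  · intro i _
    exact stdinvQ_invol m s hs hev i

theorem stdinvS_add_self [CharP F 2] (m s : ℕ) (hs : s ≤ m) (hev : Even s) :
    stdinvS F m s hs hev + stdinvS F m s hs hev = 0 := by
  ext i k
  simp only [Matrix.add_apply, Matrix.zero_apply]
  exact CharTwo.add_self_eq_zero _

theorem stdinvPq_mul_diag (m s : ℕ) (hs : s ≤ m) (hev : Even s) :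
    stdinvPq F m s hs hev * Matrix.diagonal (stdinvW F m s) = stdinvS F m s hs hev := by
  ext i k
  rw [Matrix.mul_diagonal]
  simp only [stdinvPq, stdinvW, stdinvS]
  by_cases hk : k = stdinvQ m s hs hev i
  · subst hk
    by_cases h : i.val < s
    · have h' := (stdinvQ_lt_iff m s hs hev i).mpr h
      simp [h, h']
    · have h' : ¬ (stdinvQ m s hs hev i).val < s := fun hh =>
        h ((stdinvQ_lt_iff m s hs hev i).mp hh)
      simp [h, h']
  · simp [hk]

theorem stdinvPq_mul_S (m s : ℕ) (hs : s ≤ m) (hev : Even s) :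
    stdinvPq F m s hs hev * stdinvS F m s hs hev = Matrix.diagonal (stdinvW F m s) := by
  ext i k
  rw [Matrix.mul_apply]
  have h1 : ∑ l, stdinvPq F m s hs hev i l * stdinvS F m s hs hev l k
      = stdinvS F m s hs hev (stdinvQ m s hs hev i) k := by
    simp [stdinvPq]
  rw [h1]
  simp only [stdinvS, stdinvQ_invol, stdinvW, Matrix.diagonal_apply, stdinvQ_lt_iff]
  by_cases hik : i = k
  · subst hik
    by_cases h : i.val < s
    · simp [h]
    · simp [h]
  · have hki : ¬ k = i := fun hh => hik hh.symm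
    simp [hik, hki]

theorem stdinv_card (F : Type*) [Field F] (m s : ℕ) (hs : s ≤ m) :
    Nat.card {j : Fin m ⊕ Fin m //
      Sum.elim (fun _ : Fin m => (0 : F)) (stdinvW F m s) j ≠ 0} = s := by
  classical
  let f : Fin s → {j : Fin m ⊕ Fin m //
      Sum.elim (fun _ : Fin m => (0 : F)) (stdinvW F m s) j ≠ 0} := fun i =>
    ⟨Sum.inr ⟨i.val, lt_of_lt_of_le i.2 hs⟩, by
      simp only [Sum.elim_inr, stdinvW]
      rw [if_pos i.2]
      exact one_ne_zero⟩
  have hf : Function.Bijective f := by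
    constructor
    · intro a b hab
      have h1 := congrArg Subtype.val hab
      have h2 : (⟨a.val, lt_of_lt_of_le a.2 hs⟩ : Fin m) = ⟨b.val, lt_of_lt_of_le b.2 hs⟩ :=
        Sum.inr_injective h1
      exact Fin.ext (Fin.mk.inj_iff.mp h2)
    · rintro ⟨j, hj⟩
      rcases j with k | k
      · exact absurd rfl hj
      · have hk : k.val < s := by
          by_contra hh
          apply hj
          simp only [Sum.elim_inr, stdinvW]
          rw [if_neg hh]
        exact ⟨⟨k.val, hk⟩, rfl⟩
  rw [← Nat.card_eq_of_bijective f hf, Nat.card_eq_fintype_card, Fintype.card_fin]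

theorem stdinv_rank (m s : ℕ) (hs : s ≤ m) (hev : Even s) :
    (stdinvM F m s hs hev - 1).rank = s := by
  classical
  have hN : stdinvM F m s hs hev - 1 = fromBlocks 0 (stdinvS F m s hs hev) 0 0 := by
    unfold stdinvM
    ext (i | i) (j | j) <;> simp [Matrix.sub_apply, Matrix.one_apply]
  have hD : Matrix.diagonal (Sum.elim (fun _ : Fin m => (0 : F)) (stdinvW F m s))
      = fromBlocks 0 0 0 (Matrix.diagonal (stdinvW F m s)) := by
    rw [← Matrix.fromBlocks_diagonal]
    congr 1
    exact Matrix.diagonal_zero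
  have hA : stdinvM F m s hs hev - 1
      = fromBlocks 0 (stdinvPq F m s hs hev) (stdinvPq F m s hs hev) 0
        * Matrix.diagonal (Sum.elim (fun _ : Fin m => (0 : F)) (stdinvW F m s)) := by
    rw [hN, hD, Matrix.fromBlocks_multiply, stdinvPq_mul_diag]
    simp
  have hB : Matrix.diagonal (Sum.elim (fun _ : Fin m => (0 : F)) (stdinvW F m s))
      = fromBlocks 0 (stdinvPq F m s hs hev) (stdinvPq F m s hs hev) 0
        * (stdinvM F m s hs hev - 1) := by
    rw [hN, hD, Matrix.fromBlocks_multiply, stdinvPq_mul_S]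
    simp
  have h1 : (stdinvM F m s hs hev - 1).rank
      ≤ (Matrix.diagonal (Sum.elim (fun _ : Fin m => (0 : F)) (stdinvW F m s))).rank := by
    conv_lhs => rw [hA]
    exact Matrix.rank_mul_le_right _ _
  have h2 : (Matrix.diagonal (Sum.elim (fun _ : Fin m => (0 : F)) (stdinvW F m s))).rank
      ≤ (stdinvM F m s hs hev - 1).rank := by
    conv_lhs => rw [hB]
    exact Matrix.rank_mul_le_right _ _
  have h3 : (Matrix.diagonal (Sum.elim (fun _ : Fin m => (0 : F)) (stdinvW F m s))).rank = s := by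
    rw [Matrix.rank_diagonal, ← Nat.card_eq_fintype_card]
    exact stdinv_card F m s hs
  omega

theorem exists_std_alt_inv [CharP F 2] (m s : ℕ) (hs : s ≤ m) (hev : Even s) :
    ∃ M : Matrix (Fin m ⊕ Fin m) (Fin m ⊕ Fin m) F,
      (∀ v, Cfsg.quadFormPlus m F (M *ᵥ v) = Cfsg.quadFormPlus m F v) ∧ M * M = 1 ∧
      (M - 1).rank = s ∧ (∀ v, Cfsg.quadFormPlus m F ((M - 1) *ᵥ v) = 0) ∧
      ∀ a : Fin m ⊕ Fin m → F, M *ᵥ a = a ↔ ∀ i : Fin m, i.val < s → a (Sum.inr i) = 0 := by
  refine ⟨stdinvM F m s hs hev, ?_, ?_, stdinv_rank m s hs hev, ?_, ?_⟩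
  · intro v
    rw [stdinvM_mulVec]
    simp only [Cfsg.quadFormPlus, Sum.elim_inl, Sum.elim_inr, add_mul, Finset.sum_add_distrib]
    rw [stdinv_sum_zero m s hs hev (fun i => v (Sum.inr i)), add_zero]
  · unfold stdinvM
    rw [Matrix.fromBlocks_multiply]
    simp only [Matrix.one_mul, Matrix.mul_one, Matrix.mul_zero, Matrix.zero_mul, add_zero,
      zero_add, stdinvS_add_self]
    exact Matrix.fromBlocks_one
  · intro v
    rw [Matrix.sub_mulVec, Matrix.one_mulVec, stdinvM_mulVec]
    simp [Cfsg.quadFormPlus]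
  · intro a
    rw [stdinvM_mulVec]
    constructor
    · intro h i hi
      have hi' := (stdinvQ_lt_iff m s hs hev i).mpr hi
      have h1 := congrFun h (Sum.inl (stdinvQ m s hs hev i))
      simp only [Sum.elim_inl, if_pos hi', stdinvQ_invol] at h1
      exact left_eq_add.mp h1.symm
    · intro h
      ext (i | i)
      · simp only [Sum.elim_inl]
        by_cases hi : i.val < s
        · have hi' := (stdinvQ_lt_iff m s hs hev i).mpr hi
          rw [if_pos hi, h _ hi', add_zero]
        · rw [if_neg hi, add_zero]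
      · simp

end Cfsg.Agent.Lib.Helper58.Omc
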