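import Mathlib
import Cfsg.Agent.S5396
import Cfsg.Prelude.Def_Classical

set_option autoImplicit false

namespace Cfsg.Agent.Lib.Helper58.OutExtra

open Cfsg.Agent.S5396

/-- the plus-type cocycle `∑ xᵢ y'ᵢ` -/
def betaPlus (n : ℕ) : ((Fin n ⊕ Fin n) → ZMod 2) →+ ((Fin n ⊕ Fin n) → ZMod 2) →+ ZMod 2 :=
  AddMonoidHom.mk' (fun v => AddMonoidHom.mk' (fun w => ∑ i : Fin n, v (.inl i) * w (.inr i))
    (by
      intro w w'
      rw [← Finset.sum_add_distrib]
      apply Finset.sum_congr rfl
      intro i _
      simp only [Pi.add_apply]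
      ring))
    (by
      intro v v'
      refine AddMonoidHom.ext (fun w => ?_)
      show ∑ i : Fin n, (v + v') (.inl i) * w (.inr i)
        = ∑ i : Fin n, v (.inl i) * w (.inr i) + ∑ i : Fin n, v' (.inl i) * w (.inr i)
      rw [← Finset.sum_add_distrib]
      apply Finset.sum_congr rfl
      intro i _
      simp only [Pi.add_apply]
      ring)

theorem betaPlus_apply (n : ℕ) (v w : (Fin n ⊕ Fin n) → ZMod 2) :
    betaPlus n v w = ∑ i : Fin n, v (.inl i) * w (.inr i) := rfl

theorem model_plus (n : ℕ) :
    ∃ β : ((Fin n ⊕ Fin n) → ZMod 2) →+ ((Fin n ⊕ Fin n) → ZMod 2) →+ ZMod 2,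
      (∀ v, β v v = Cfsg.quadFormPlus n (ZMod 2) v) ∧
      (∀ v, (∀ w, β v w = β w v) → v = 0) ∧
      ∃ A : Subgroup (Ext β), Cfsg.IsElementaryAbelian 2 A ∧ Nat.card A = 2 ^ (n + 1) := by
  refine ⟨betaPlus n, fun v => rfl, ?_, ?_⟩
  · intro v hv
    funext x
    rcases x with i | i
    · have h := hv (Pi.single (Sum.inr i) 1)
      rw [betaPlus_apply, betaPlus_apply] at h
      simpa [Pi.single_apply] using h
    · have h := hv (Pi.single (Sum.inl i) 1)
      rw [betaPlus_apply, betaPlus_apply] at h
      simpa [Pi.single_apply] using h.symm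
  · let W : AddSubgroup ((Fin n ⊕ Fin n) → ZMod 2) :=
      { carrier := {v | ∀ i, v (.inr i) = 0}
        add_mem' := by
          intro v w hv hw i
          simp [hv i, hw i]
        zero_mem' := by
          intro i
          rfl
        neg_mem' := by
          intro v hv i
          simp [hv i] }
    have h2 : ∀ v : (Fin n ⊕ Fin n) → ZMod 2, v + v = 0 := by
      intro v
      funext x
      exact two_s (v x)
    have hW : ∀ v ∈ W, ∀ w ∈ W, betaPlus n v w = 0 := by
      intro v _ w hw
      rw [betaPlus_apply]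
      apply Finset.sum_eq_zero
      intro i _
      rw [hw i, mul_zero]
    have hcard : Nat.card W = 2 ^ n := by
      have e : W ≃ (Fin n → ZMod 2) :=
        { toFun := fun v i => v.1 (.inl i)
          invFun := fun f => ⟨Sum.elim f (fun _ => 0), fun i => rfl⟩
          left_inv := fun v => by
            apply Subtype.ext
            funext x
            rcases x with i | i
            · rfl
            · exact (v.2 i).symm
          right_inv := fun f => rfl }
      rw [Nat.card_congr e, Nat.card_eq_fintype_card, Fintype.card_fun, ZMod.card,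
        Fintype.card_fin]
    exact ⟨Ext.lift (betaPlus n) W, Ext.lift_elem h2 W hW, by
      rw [Ext.card_lift, hcard, pow_succ]⟩

end Cfsg.Agent.Lib.Helper58.OutExtra
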