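import Mathlib
import Cfsg.Agent.Lib.Helper72.PQDefs
import Cfsg.Agent.Lib.Helper12.Ward2
import Cfsg.Agent.Lib.Helper32.NcAxB2

/-!
S4306 piece L1 (poster helper72): `R / C_R(Q)` is abelian, the type I / type II dichotomy, and the
consequences of type I.
-/

set_option autoImplicit false

namespace Cfsg.Agent.Lib.Helper58.PQ

open Cfsg.Agent.Lib.Helper72.PQ
open Cfsg.Agent.Lib.Helper12.Ward (conj_mem_of_nz conj_mem_of_nz' nz_of_conj_mem nz_inf nz_comm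
  nz_centralizer)

universe u

section
variable {Γ : Type u} [Group Γ]

/-- `g` normalises `cz R Q` when it normalises `R` and `Q` -/
theorem l1_nz_cz {R Q : Subgroup Γ} {g : Γ} (hR : g ∈ Subgroup.normalizer (R : Set Γ))
    (hQ : g ∈ Subgroup.normalizer (Q : Set Γ)) :
    g ∈ Subgroup.normalizer ((cz R Q : Subgroup Γ) : Set Γ) := nz_inf hR (nz_centralizer hQ)

/-- the set `{b | b x b⁻¹ x⁻¹ ∈ C}` is closed under products when `C` is normalised -/
theorem l1_mul_closed {C : Subgroup Γ} {a b x : Γ} (ha : a ∈ Subgroup.normalizer (C : Set Γ))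
    (h1 : a * x * a⁻¹ * x⁻¹ ∈ C) (h2 : b * x * b⁻¹ * x⁻¹ ∈ C) :
    (a * b) * x * (a * b)⁻¹ * x⁻¹ ∈ C := by
  have e : (a * b) * x * (a * b)⁻¹ * x⁻¹
      = (a * (b * x * b⁻¹ * x⁻¹) * a⁻¹) * (a * x * a⁻¹ * x⁻¹) := by group
  rw [e]
  exact C.mul_mem (conj_mem_of_nz ha h2) h1

theorem l1_pow_closed {C : Subgroup Γ} {a x : Γ} (ha : a ∈ Subgroup.normalizer (C : Set Γ))
    (h1 : a * x * a⁻¹ * x⁻¹ ∈ C) (k : ℕ) : a ^ k * x * (a ^ k)⁻¹ * x⁻¹ ∈ C := by
  induction k with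
  | zero =>
    have e : a ^ 0 * x * (a ^ 0)⁻¹ * x⁻¹ = 1 := by group
    rw [e]
    exact C.one_mem
  | succ k ih =>
    rw [pow_succ']
    exact l1_mul_closed ha h1 ih

end

theorem l1 (h1 : AFixStmt.{u}) (h2 : AStrStmt.{u}) : L1Stmt.{u} := by
  intro Γ _ _ p ℓ r q s A F V Q R tw
  have hfr := tw.frob
  obtain ⟨C, hC⟩ : ∃ C : Subgroup Γ, C = cz R Q := ⟨_, rfl⟩
  have hCR : C ≤ R := by
    rw [hC]
    exact inf_le_left
  have hAC : ∀ a ∈ A, a ∈ Subgroup.normalizer (C : Set Γ) := by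
    intro a ha
    rw [hC]
    exact l1_nz_cz (tw.hAR ha) (tw.hAQ ha)
  have hRC : ∀ x ∈ R, x ∈ Subgroup.normalizer (C : Set Γ) := by
    intro x hx
    rw [hC]
    exact l1_nz_cz (Subgroup.le_normalizer hx) (tw.hRQ hx)
  have hmemC : ∀ x, x ∈ R → (∀ y ∈ Q, x * y = y * x) → x ∈ C := by
    intro x hx h
    rw [hC, mem_cz]
    exact ⟨hx, fun y hy => (h y hy).symm⟩
  have hR1 : R ≠ ⊥ := by
    intro h
    apply tw.hQ1
    have h5 := tw.hE5
    rw [h, Subgroup.commutator_bot_right] at h5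
    exact h5.symm
  have : Fact s.Prime := ⟨tw.hs⟩
  have : Fact p.Prime := ⟨hfr.hp⟩
  have hcop : (Nat.card C).Coprime (p * ℓ) := by
    have hCs : IsPGroup s C := tw.hRs.to_le hCR
    obtain ⟨k, hk⟩ := (IsPGroup.iff_card).mp hCs
    rw [hk]
    apply Nat.Coprime.pow_left
    exact Nat.Coprime.mul_right ((Nat.coprime_primes tw.hs hfr.hp).mpr (Ne.symm tw.hps))
      ((Nat.coprime_primes tw.hs hfr.hℓ).mpr (Ne.symm tw.hℓs))
  -- (1) `[R, R] ⊆ C`
  have hp1 : ∀ x ∈ R, ∀ x' ∈ R, x * x' * x⁻¹ * x'⁻¹ ∈ C := by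
    have hle : (⁅R, R⁆ : Subgroup Γ) ≤ R := Subgroup.commutator_le.mpr
      (fun g₁ h₁ g₂ h₂ => R.mul_mem (R.mul_mem (R.mul_mem h₁ h₂) (R.inv_mem h₁)) (R.inv_mem h₂))
    have hne : (⁅R, R⁆ : Subgroup Γ) ≠ R := by
      have : Nontrivial ↥R := (Subgroup.nontrivial_iff_ne_bot R).mpr hR1
      have : Group.IsNilpotent ↥R := tw.hRs.isNilpotent
      have hlt := Group.IsSolvable.commutator_lt_top_of_nontrivial ↥R
      intro h
      have h3 : (commutator ↥R).map R.subtype = (⊤ : Subgroup ↥R).map R.subtype := by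
        rw [Subgroup.map_subtype_commutator, h, ← MonoidHom.range_eq_map, Subgroup.range_subtype]
      exact hlt.ne (Subgroup.map_injective R.subtype_injective h3)
    have hA' : A ≤ Subgroup.normalizer ((⁅R, R⁆ : Subgroup Γ) : Set Γ) :=
      fun a ha => nz_comm (tw.hAR ha) (tw.hAR ha)
    have h4 := tw.hE4 _ hle hne hA'
    intro x hx x' hx'
    have hmem : x * x' * x⁻¹ * x'⁻¹ ∈ (⁅R, R⁆ : Subgroup Γ) :=
      Subgroup.commutator_mem_commutator hx hx'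
    exact hmemC _ (hle hmem) (h4 _ hmem)
  -- (2) the subgroup `R_F`
  obtain ⟨RF, hRF⟩ : ∃ RF : Subgroup Γ,
      ∀ x, x ∈ RF ↔ (x ∈ R ∧ ∀ a ∈ F, a * x * a⁻¹ * x⁻¹ ∈ C) :=
    ⟨{ carrier := {x | x ∈ R ∧ ∀ a ∈ F, a * x * a⁻¹ * x⁻¹ ∈ C}
       one_mem' := ⟨R.one_mem, fun a _ => by
         have e : a * 1 * a⁻¹ * (1 : Γ)⁻¹ = 1 := by group
         rw [e]
         exact C.one_mem⟩
       mul_mem' := by
         rintro x x' ⟨hx, hxF⟩ ⟨hx', hxF'⟩
         refine ⟨R.mul_mem hx hx', fun a ha => ?_⟩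
         have e : a * (x * x') * a⁻¹ * (x * x')⁻¹
             = (a * x * a⁻¹ * x⁻¹) * (x * (a * x' * a⁻¹ * x'⁻¹) * x⁻¹) := by group
         rw [e]
         exact C.mul_mem (hxF a ha) (conj_mem_of_nz (hRC x hx) (hxF' a ha))
       inv_mem' := by
         rintro x ⟨hx, hxF⟩
         refine ⟨R.inv_mem hx, fun a ha => ?_⟩
         have e : a * x⁻¹ * a⁻¹ * x⁻¹⁻¹ = x⁻¹ * (a * x * a⁻¹ * x⁻¹)⁻¹ * x := by group
         rw [e]
         exact conj_mem_of_nz' (hRC x hx) (C.inv_mem (hxF a ha)) }, fun x => Iff.rfl⟩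
  have hRFle : RF ≤ R := fun x hx => ((hRF x).mp hx).1
  have hRFconj : ∀ b ∈ A, ∀ x ∈ RF, b * x * b⁻¹ ∈ RF := by
    intro b hb x hx
    obtain ⟨hxR, hxF⟩ := (hRF x).mp hx
    rw [hRF]
    refine ⟨conj_mem_of_nz (tw.hAR hb) hxR, fun a ha => ?_⟩
    have e : a * (b * x * b⁻¹) * a⁻¹ * (b * x * b⁻¹)⁻¹
        = b * ((b⁻¹ * a * b) * x * (b⁻¹ * a * b)⁻¹ * x⁻¹) * b⁻¹ := by group
    rw [e]
    exact conj_mem_of_nz (hAC b hb) (hxF _ (conj_mem_of_nz' (hfr.hAF hb) ha))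
  have hARF : A ≤ Subgroup.normalizer (RF : Set Γ) := by
    intro b hb
    apply nz_of_conj_mem (hRFconj b hb)
    intro x hx
    have h6 := hRFconj b⁻¹ (A.inv_mem hb) x hx
    rwa [inv_inv] at h6
  have hdich : TypeI F Q R ∨ TypeII F Q R := by
    by_cases hRFR : RF = R
    · left
      intro a ha x hx
      have hx' : x ∈ RF := by rw [hRFR]; exact hx
      rw [← hC]
      exact ((hRF x).mp hx').2 a ha
    · right
      have h4 := tw.hE4 RF hRFle hRFR hARF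
      intro a ha ha1 x hx hxC
      rw [← hC] at hxC ⊢
      have hxRF : x ∈ RF := by
        rw [hRF]
        refine ⟨hx, fun a' ha' => ?_⟩
        have hne : (⟨a, ha⟩ : ↥F) ≠ 1 := fun h => ha1 (congrArg Subtype.val h)
        obtain ⟨k, hk⟩ := mem_powers_of_prime_card (g' := (⟨a', ha'⟩ : ↥F)) hfr.hF hne
        have hk' : a ^ k = a' := congrArg Subtype.val hk
        rw [← hk']
        exact l1_pow_closed (hAC a (hfr.hFA ha)) hxC k
      exact hmemC x hx (h4 x hxRF)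
  -- (3)
  have hp3 : TypeI F Q R → ∀ t ∈ A, t ∉ F → ∀ x ∈ R, t * x * t⁻¹ * x⁻¹ ∈ C → x ∈ C := by
    intro hI t ht htF x hx hxt
    obtain ⟨-, -, hdec, -⟩ := h2 Γ p ℓ A F hfr
    have hall : ∀ a ∈ A, a * x * a⁻¹ * x⁻¹ ∈ C := by
      intro a ha
      obtain ⟨f, hf, i, rfl⟩ := hdec t ht htF a ha
      have hfx : f * x * f⁻¹ * x⁻¹ ∈ C := by
        rw [hC]
        exact hI f hf x hx
      exact l1_mul_closed (hAC f (hfr.hFA hf)) hfx (l1_pow_closed (hAC t ht) hxt i)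
    obtain ⟨n, hn, hfix⟩ := h1 Γ p ℓ A F C hfr (fun a ha => hAC a ha) hcop x (hRC x hx) hall
    have hxn : x * n = 1 := tw.hfixR (x * n) (R.mul_mem hx (hCR hn)) hfix
    have hxe : x = n⁻¹ := eq_inv_of_mul_eq_one_left hxn
    rw [hxe]
    exact C.inv_mem hn
  -- (4)
  have hp4 : TypeI F Q R → ∀ x ∈ R, ∃ n ∈ C, ∀ a ∈ F, a * (x * n) = (x * n) * a := by
    intro hI x hx
    have hFp : IsPGroup p F := IsPGroup.of_card (n := 1) (by rw [hfr.hF, pow_one])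
    have hcop' : (Nat.card C).Coprime p := Nat.Coprime.coprime_mul_right_right hcop
    obtain ⟨n, hn, hfix⟩ := Cfsg.Agent.Lib.Helper32.coset_fixed_elt p hFp
      (fun a ha => hAC a (hfr.hFA ha)) hcop' x (by
        intro a ha
        have e : x⁻¹ * (a * x * a⁻¹) = x⁻¹ * (a * x * a⁻¹ * x⁻¹) * x := by group
        rw [e]
        have hfx : a * x * a⁻¹ * x⁻¹ ∈ C := by
          rw [hC]
          exact hI a ha x hx
        exact conj_mem_of_nz' (hRC x hx) hfx)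
    refine ⟨n, hn, fun a ha => ?_⟩
    have h7 := hfix a ha
    calc a * (x * n) = (a * (x * n) * a⁻¹) * a := by group
      _ = (x * n) * a := by rw [h7]
  subst hC
  exact ⟨hp1, hdich, hp3, hp4⟩

end Cfsg.Agent.Lib.Helper58.PQ
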