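import Mathlib
import Cfsg.Agent.Lib.Helper72.PQDefs
import Cfsg.Agent.Lib.Helper12.Ward2
import Cfsg.Agent.Lib.Helper32.NcAxB2

/-!
S4306 piece WSTAB (poster helper72): the stabiliser of a weight `Y` of `B` is a complement of `F`
in `A`, centralising `B / Y` and fixed-point-free on `C_V(Y)`.
-/

set_option autoImplicit false

namespace Cfsg.Agent.Lib.Helper58.PQ

open Cfsg.Agent.Lib.Helper72.PQ
open Cfsg.Agent.Lib.Helper12.Ward (conj_mem_of_nz conj_mem_of_nz' nz_of_conj_mem nz_inf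
  nz_centralizer)

universe u

section
variable {Γ : Type u} [Group Γ]

theorem wstab_comm_of {x w : Γ} (h : x * w * x⁻¹ * w⁻¹ = 1) : x * w = w * x := by
  have h1 : x * w * x⁻¹ = w := mul_inv_eq_one.mp h
  exact mul_inv_eq_iff_eq_mul.mp h1

theorem wstab_of_comm {x w : Γ} (h : x * w = w * x) : x * w * x⁻¹ * w⁻¹ = 1 := by
  rw [h]; group

theorem wstab_nz_bot (g : Γ) : g ∈ Subgroup.normalizer ((⊥ : Subgroup Γ) : Set Γ) := by
  apply nz_of_conj_mem
  · intro x hx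
    rw [Subgroup.mem_bot] at hx ⊢
    rw [hx]; group
  · intro x hx
    rw [Subgroup.mem_bot] at hx ⊢
    rw [hx]; group

theorem wstab_triv_mul {B Y : Subgroup Γ} {g g' : Γ}
    (hg : g ∈ Subgroup.normalizer (Y : Set Γ))
    (h1 : ∀ b ∈ B, g * b * g⁻¹ * b⁻¹ ∈ Y) (h2 : ∀ b ∈ B, g' * b * g'⁻¹ * b⁻¹ ∈ Y) :
    ∀ b ∈ B, (g * g') * b * (g * g')⁻¹ * b⁻¹ ∈ Y := by
  intro b hb
  have e : (g * g') * b * (g * g')⁻¹ * b⁻¹
      = (g * (g' * b * g'⁻¹ * b⁻¹) * g⁻¹) * (g * b * g⁻¹ * b⁻¹) := by group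
  rw [e]
  exact Y.mul_mem (conj_mem_of_nz hg (h2 b hb)) (h1 b hb)

theorem wstab_triv_pow {B Y : Subgroup Γ} {g : Γ} (hg : g ∈ Subgroup.normalizer (Y : Set Γ))
    (h1 : ∀ b ∈ B, g * b * g⁻¹ * b⁻¹ ∈ Y) (k : ℕ) :
    ∀ b ∈ B, g ^ k * b * (g ^ k)⁻¹ * b⁻¹ ∈ Y := by
  induction k with
  | zero =>
    intro b _
    have e : g ^ 0 * b * (g ^ 0)⁻¹ * b⁻¹ = 1 := by group
    rw [e]
    exact Y.one_mem
  | succ k ih =>
    rw [pow_succ']
    exact wstab_triv_mul hg h1 ih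

theorem wstab_triv_inv {B Y : Subgroup Γ} {g : Γ} (hg : g ∈ Subgroup.normalizer (Y : Set Γ))
    (h1 : ∀ b ∈ B, g * b * g⁻¹ * b⁻¹ ∈ Y) : ∀ b ∈ B, g⁻¹ * b * g⁻¹⁻¹ * b⁻¹ ∈ Y := by
  intro b hb
  have e : g⁻¹ * b * g⁻¹⁻¹ * b⁻¹ = g⁻¹ * (g * b * g⁻¹ * b⁻¹)⁻¹ * g := by group
  rw [e]
  exact conj_mem_of_nz' hg (Y.inv_mem (h1 b hb))

theorem wstab_triv_conj {B Y : Subgroup Γ} {g h : Γ}
    (hB : h ∈ Subgroup.normalizer (B : Set Γ)) (hY : h ∈ Subgroup.normalizer (Y : Set Γ))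
    (h1 : ∀ b ∈ B, g * b * g⁻¹ * b⁻¹ ∈ Y) :
    ∀ b ∈ B, (h * g * h⁻¹) * b * (h * g * h⁻¹)⁻¹ * b⁻¹ ∈ Y := by
  intro b hb
  have e : (h * g * h⁻¹) * b * (h * g * h⁻¹)⁻¹ * b⁻¹
      = h * (g * (h⁻¹ * b * h) * g⁻¹ * (h⁻¹ * b * h)⁻¹) * h⁻¹ := by group
  rw [e]
  exact conj_mem_of_nz hY (h1 _ (conj_mem_of_nz' hB hb))

/-- on the quotient `B / Y` of prime order, an element normalising `B` and `Y` acts trivially or
fixed-point-freely -/
theorem wstab_dich [Finite Γ] {q : ℕ} (hq : q.Prime) {B Y : Subgroup Γ} (hBab : Ab B)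
    (hYB : Y ≤ B) (hcard : Nat.card B = q * Nat.card Y) {c : Γ}
    (hcB : c ∈ Subgroup.normalizer (B : Set Γ)) (hcY : c ∈ Subgroup.normalizer (Y : Set Γ)) :
    (∀ b ∈ B, c * b * c⁻¹ * b⁻¹ ∈ Y) ∨ (∀ x ∈ B, c * x * c⁻¹ * x⁻¹ ∈ Y → x ∈ Y) := by
  obtain ⟨K, hK⟩ : ∃ K : Subgroup Γ, ∀ x, x ∈ K ↔ x ∈ B ∧ c * x * c⁻¹ * x⁻¹ ∈ Y := by
    refine ⟨{ carrier := {x | x ∈ B ∧ c * x * c⁻¹ * x⁻¹ ∈ Y}
              mul_mem' := ?_
              one_mem' := ?_
              inv_mem' := ?_ }, fun x => Iff.rfl⟩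
    · rintro x y ⟨hx, hx'⟩ ⟨hy, hy'⟩
      refine ⟨B.mul_mem hx hy, ?_⟩
      have hcy : c * y * c⁻¹ ∈ B := conj_mem_of_nz hcB hy
      have h1 : x⁻¹ * (c * y * c⁻¹ * y⁻¹) = (c * y * c⁻¹ * y⁻¹) * x⁻¹ :=
        hBab _ (B.inv_mem hx) _ (B.mul_mem hcy (B.inv_mem hy))
      have e : c * (x * y) * c⁻¹ * (x * y)⁻¹ = (c * x * c⁻¹ * x⁻¹) * (c * y * c⁻¹ * y⁻¹) := by
        calc c * (x * y) * c⁻¹ * (x * y)⁻¹
            = (c * x * c⁻¹) * ((c * y * c⁻¹ * y⁻¹) * x⁻¹) := by group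
          _ = (c * x * c⁻¹) * (x⁻¹ * (c * y * c⁻¹ * y⁻¹)) := by rw [h1]
          _ = (c * x * c⁻¹ * x⁻¹) * (c * y * c⁻¹ * y⁻¹) := by group
      rw [e]
      exact Y.mul_mem hx' hy'
    · refine ⟨B.one_mem, ?_⟩
      have e : c * 1 * c⁻¹ * (1 : Γ)⁻¹ = 1 := by group
      rw [e]
      exact Y.one_mem
    · rintro x ⟨hx, hx'⟩
      refine ⟨B.inv_mem hx, ?_⟩
      have hcx : c * x * c⁻¹ ∈ B := conj_mem_of_nz hcB hx
      have h1 : x⁻¹ * (c * x * c⁻¹ * x⁻¹)⁻¹ = (c * x * c⁻¹ * x⁻¹)⁻¹ * x⁻¹ :=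
        hBab _ (B.inv_mem hx) _ (B.inv_mem (B.mul_mem hcx (B.inv_mem hx)))
      have e : c * x⁻¹ * c⁻¹ * x⁻¹⁻¹ = (c * x * c⁻¹ * x⁻¹)⁻¹ := by
        calc c * x⁻¹ * c⁻¹ * x⁻¹⁻¹ = (x⁻¹ * (c * x * c⁻¹ * x⁻¹)⁻¹) * x := by group
          _ = ((c * x * c⁻¹ * x⁻¹)⁻¹ * x⁻¹) * x := by rw [h1]
          _ = (c * x * c⁻¹ * x⁻¹)⁻¹ := by group
      rw [e]
      exact Y.inv_mem hx'
  have hYK : Y ≤ K := by
    intro y hy
    rw [hK]
    exact ⟨hYB hy, Y.mul_mem (conj_mem_of_nz hcY hy) (Y.inv_mem hy)⟩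
  have hKB : K ≤ B := fun x hx => ((hK x).mp hx).1
  have hYpos : 0 < Nat.card Y := Nat.card_pos
  obtain ⟨k, hk⟩ := Subgroup.card_dvd_of_le hYK
  obtain ⟨j, hj⟩ := Subgroup.card_dvd_of_le hKB
  have hkq : k ∣ q := by
    refine ⟨j, ?_⟩
    have h : Nat.card Y * q = Nat.card Y * (k * j) := by
      rw [← mul_assoc, ← hk, ← hj, hcard, mul_comm]
    exact Nat.eq_of_mul_eq_mul_left hYpos h
  rcases (Nat.dvd_prime hq).mp hkq with h | h
  · right
    have hKY : Y = K := Subgroup.eq_of_le_of_card_ge hYK (by rw [hk, h, mul_one])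
    intro x hx hx'
    rw [hKY, hK]
    exact ⟨hx, hx'⟩
  · left
    have hKB' : K = B := Subgroup.eq_of_le_of_card_ge hKB (by rw [hcard, hk, h, mul_comm])
    intro b hb
    rw [← hKB'] at hb
    exact ((hK b).mp hb).2

end

theorem wstab (h1 : AStrStmt.{u}) (h2 : WIndStmt.{u}) (h3 : FMQStmt.{u}) : WStabStmt.{u} := by
  intro Γ _ _ p ℓ q A F B V Y hfr hq hVab hAV hBV hAB hBab hYB hcard hcopAV hcopBV hcopAB hVB hVA
    hBF hw t₀ ht₀A ht₀F
  obtain ⟨w₀, hw₀V, hw₀1, hw₀Y⟩ := hw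
  obtain ⟨-, hord, hdec, -⟩ := h1 Γ p ℓ A F hfr
  have hp := hfr.hp
  have hℓ := hfr.hℓ
  have : Fact p.Prime := ⟨hp⟩
  have hBY : B ≤ Subgroup.normalizer (Y : Set Γ) := by
    intro b hb
    apply nz_of_conj_mem
    · intro y hy
      have e : b * y * b⁻¹ = y := by
        rw [hBab b hb y (hYB hy)]; group
      rw [e]
      exact hy
    · intro y hy
      have e : b⁻¹ * y * b = y := by
        rw [hBab b⁻¹ (B.inv_mem hb) y (hYB hy)]; group
      rw [e]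
      exact hy
  obtain ⟨M, hM⟩ : ∃ M : Subgroup Γ, M = cz V Y := ⟨_, rfl⟩
  have hMmem : ∀ v, v ∈ M ↔ v ∈ V ∧ ∀ y ∈ Y, y * v = v * y := by
    intro v
    rw [hM]
    exact mem_cz
  have hMV : M ≤ V := fun v hv => ((hMmem v).mp hv).1
  have hnzM : ∀ g, g ∈ Subgroup.normalizer (V : Set Γ) → g ∈ Subgroup.normalizer (Y : Set Γ) →
      g ∈ Subgroup.normalizer (M : Set Γ) := by
    intro g hgV hgY
    rw [hM]
    exact nz_inf hgV (nz_centralizer hgY)
  have hcopBM : (Nat.card B).Coprime (Nat.card M) :=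
    Nat.Coprime.coprime_dvd_right (Subgroup.card_dvd_of_le hMV) hcopBV
  have hYpos : 0 < Nat.card Y := Nat.card_pos
  have hBneY : ¬ B ≤ Y := by
    intro h
    have h1 : Nat.card B ≤ Nat.card Y := Subgroup.card_le_of_le h
    rw [hcard] at h1
    have := hq.two_le
    nlinarith
  have hW := h2 Γ q A B V Y hq hVab hAV hBV hAB hBab hYB hcard hcopAV hcopBV hVB hVA
  have hFMQ : ∀ (c : Γ) (m : ℕ), c ∈ A → c ∈ Subgroup.normalizer (Y : Set Γ) → 0 < m →
      c ^ m = 1 →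
      (∀ j, 0 < j → j < m → ∀ x ∈ B, c ^ j * x * (c ^ j)⁻¹ * x⁻¹ ∈ Y → x ∈ Y) →
      (∀ w ∈ V, (∀ y ∈ Y, y * w = w * y) → c * w = w * c → w = 1) → False := by
    intro c m hcA hcY hm hcm hfpf hfix
    have hcV := hAV hcA
    have hcB := hAB hcA
    have key := h3 Γ M ⊥ B Y c m hm hcm bot_le hYB
      (by
        intro v hv w hw
        rw [Subgroup.mem_bot]
        exact wstab_of_comm (hVab v (hMV hv) w (hMV hw)))
      (fun x _ => wstab_nz_bot x)
      (fun b hb => hnzM b (hBV hb) (hBY hb))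
      (fun x _ => wstab_nz_bot x)
      (hnzM c hcV hcY)
      (wstab_nz_bot c)
      hcB
      hBY
      hcY
      (by
        intro x hx w hw
        rw [Subgroup.mem_bot]
        exact wstab_of_comm (((hMmem w).mp hw).2 x hx))
      hfpf
      hcopBM
      (by
        intro w hw hcw
        rw [Subgroup.mem_bot] at hcw ⊢
        exact hfix w (hMV hw) ((hMmem w).mp hw).2 (wstab_comm_of hcw))
    apply hw₀1
    apply hVB w₀ hw₀V
    intro b hb
    have h := key b hb w₀ ((hMmem w₀).mpr ⟨hw₀V, hw₀Y⟩)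
    rw [Subgroup.mem_bot] at h
    exact wstab_comm_of h
  have hcopBp : (Nat.card B).Coprime p := by
    have h : (p * ℓ).Coprime (Nat.card B) := by
      rw [← hfr.hA]
      exact hcopAB
    exact (Nat.Coprime.coprime_mul_right h).symm
  have hcopYp : (Nat.card Y).Coprime p :=
    Nat.Coprime.coprime_dvd_left (Subgroup.card_dvd_of_le hYB) hcopBp
  have hFp : IsPGroup p F := IsPGroup.of_card (n := 1) (by rw [hfr.hF, pow_one])
  have ha1 : F ≤ Subgroup.normalizer (Y : Set Γ) →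
      (∀ a ∈ F, ∀ b ∈ B, a * b * a⁻¹ * b⁻¹ ∈ Y) → False := by
    intro hFY htriv
    apply hBneY
    intro b hb
    obtain ⟨n, hn, hfix⟩ := Cfsg.Agent.Lib.Helper32.coset_fixed_elt p hFp hFY hcopYp b (by
      intro a ha
      have e : b⁻¹ * (a * b * a⁻¹) = b⁻¹ * (a * b * a⁻¹ * b⁻¹) * b := by group
      rw [e]
      exact conj_mem_of_nz' (hBY hb) (htriv a ha b hb))
    have hbn : b * n = 1 := by
      apply hBF (b * n) (B.mul_mem hb (hYB hn))
      intro a ha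
      exact mul_inv_eq_iff_eq_mul.mp (hfix a ha)
    have e : b = n⁻¹ := eq_inv_of_mul_eq_one_left hbn
    rw [e]
    exact Y.inv_mem hn
  have hFgen : ∀ f ∈ F, f ≠ 1 → ∀ a ∈ F, ∃ k : ℕ, f ^ k = a := by
    intro f hf hf1 a ha
    have h := mem_powers_of_prime_card (G := F) (g := ⟨f, hf⟩) (g' := ⟨a, ha⟩) hfr.hF (by
      intro h
      exact hf1 (congrArg Subtype.val h))
    obtain ⟨k, hk⟩ := h
    exact ⟨k, by simpa using congrArg Subtype.val hk⟩
  -- Step 2 : `F` does not normalise `Y`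
  have hstep2 : ¬ F ≤ Subgroup.normalizer (Y : Set Γ) := by
    intro hFY
    obtain ⟨f, hfF, hf1⟩ : ∃ f ∈ F, f ≠ 1 := by
      by_contra hcon
      push Not at hcon
      have hFbot : F = ⊥ := (Subgroup.eq_bot_iff_forall F).mpr hcon
      have h := hfr.hF
      rw [hFbot, Subgroup.card_bot] at h
      exact hp.one_lt.ne h
    have hfA : f ∈ A := hfr.hFA hfF
    have hfp : f ^ p = 1 := by
      have h := pow_card_eq_one' (G := F) (x := ⟨f, hfF⟩)
      rw [hfr.hF] at h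
      simpa using congrArg Subtype.val h
    have hfpfF : ∀ a ∈ F, a ≠ 1 → ∀ x ∈ B, a * x * a⁻¹ * x⁻¹ ∈ Y → x ∈ Y := by
      intro a ha ha1'
      rcases wstab_dich hq hBab hYB hcard (hAB (hfr.hFA ha)) (hFY ha) with h | h
      · exfalso
        apply ha1 hFY
        intro a' ha'
        obtain ⟨k, hk⟩ := hFgen a ha ha1' a' ha'
        rw [← hk]
        exact wstab_triv_pow (hFY ha) h k
      · exact h
    have hford : orderOf f = p := orderOf_eq_prime hfp hf1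
    have hexw : ∃ w ∈ V, (∀ y ∈ Y, y * w = w * y) ∧ f * w = w * f ∧ w ≠ 1 := by
      by_contra hcon
      push Not at hcon
      apply hFMQ f p hfA (hFY hfF) hp.pos hfp
      · intro j hj0 hjp x hx hxx
        have hfj1 : f ^ j ≠ 1 := pow_ne_one_of_lt_orderOf hj0.ne' (by rw [hford]; exact hjp)
        exact hfpfF (f ^ j) (F.pow_mem hfF j) hfj1 x hx hxx
      · intro w hwV hwY hfw
        exact hcon w hwV hwY hfw
    obtain ⟨w, hwV, hwY, hfw, hw1⟩ := hexw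
    have hFw : ∀ a ∈ F, a * w = w * a := by
      intro a ha
      obtain ⟨k, hk⟩ := hFgen f hfF hf1 a ha
      rw [← hk]
      have hc : Commute f w := hfw
      exact (hc.pow_left k).eq
    have hext : ∃ t ∈ A, t ∈ Subgroup.normalizer (Y : Set Γ) ∧ t * w ≠ w * t := by
      by_contra hcon
      push Not at hcon
      exact hw1 (hW w hwV hwY hcon)
    obtain ⟨t, htA, htY, htw⟩ := hext
    have htF : t ∉ F := fun h => htw (hFw t h)
    have htℓ : orderOf t = ℓ := hord t htA htF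
    have htℓ1 : t ^ ℓ = 1 := by
      rw [← htℓ]
      exact pow_orderOf_eq_one t
    rcases wstab_dich hq hBab hYB hcard (hAB htA) htY with h | h
    · have hf'F : t * f * t⁻¹ * f⁻¹ ∈ F :=
        F.mul_mem (conj_mem_of_nz (hfr.hAF htA) hfF) (F.inv_mem hfF)
      have hf'1 : t * f * t⁻¹ * f⁻¹ ≠ 1 := by
        intro h'
        exact hf1 (hfr.hfrob t htA htF f hfF (wstab_comm_of h'))
      have hf'triv : ∀ b ∈ B, (t * f * t⁻¹ * f⁻¹) * b * (t * f * t⁻¹ * f⁻¹)⁻¹ * b⁻¹ ∈ Y := by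
        have h1' : ∀ b ∈ B, t⁻¹ * b * t⁻¹⁻¹ * b⁻¹ ∈ Y := wstab_triv_inv htY h
        have h2' : ∀ b ∈ B, (f * t⁻¹ * f⁻¹) * b * (f * t⁻¹ * f⁻¹)⁻¹ * b⁻¹ ∈ Y :=
          wstab_triv_conj (hAB hfA) (hFY hfF) h1'
        have h3' := wstab_triv_mul htY h h2'
        intro b hb
        have e : t * f * t⁻¹ * f⁻¹ = t * (f * t⁻¹ * f⁻¹) := by group
        rw [e]
        exact h3' b hb
      apply ha1 hFY
      intro a ha
      obtain ⟨k, hk⟩ := hFgen _ hf'F hf'1 a ha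
      rw [← hk]
      exact wstab_triv_pow (hFY hf'F) hf'triv k
    · have key := h3 Γ B Y F ⊥ t ℓ hℓ.pos htℓ1 hYB bot_le
        (by
          intro v hv w' hw'
          rw [wstab_of_comm (hBab v hv w' hw')]
          exact Y.one_mem)
        hBY
        (fun a ha => hAB (hfr.hFA ha))
        hFY
        (hAB htA)
        htY
        (hfr.hAF htA)
        (fun x _ => wstab_nz_bot x)
        (wstab_nz_bot t)
        (by
          intro x hx w' hw'
          rw [Subgroup.mem_bot] at hx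
          rw [hx]
          have e : (1 : Γ) * w' * 1⁻¹ * w'⁻¹ = 1 := by group
          rw [e]
          exact Y.one_mem)
        (by
          intro j hj0 hjℓ x hx hxx
          rw [Subgroup.mem_bot] at hxx ⊢
          have htjF : t ^ j ∉ F := by
            intro hcon
            have hcop : j.Coprime (orderOf t) := by
              rw [htℓ]
              exact ((Nat.Prime.coprime_iff_not_dvd hℓ).mpr
                (Nat.not_dvd_of_pos_of_lt hj0 hjℓ)).symm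
            obtain ⟨k, hk⟩ := exists_pow_eq_self_of_coprime hcop
            apply htF
            rw [← hk]
            exact F.pow_mem hcon k
          exact hfr.hfrob (t ^ j) (A.pow_mem htA j) htjF x hx (wstab_comm_of hxx))
        (by
          rw [hfr.hF]
          exact hcopBp.symm)
        h
      exact ha1 hFY key
  -- Step 3 : the complement
  have hexs : ∃ s ∈ A, s ∈ Subgroup.normalizer (Y : Set Γ) ∧ s * w₀ ≠ w₀ * s := by
    by_contra hcon
    push Not at hcon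
    exact hw₀1 (hW w₀ hw₀V hw₀Y hcon)
  obtain ⟨s, hsA, hsY, hsw⟩ := hexs
  have hFY1 : ∀ a ∈ F, a ∈ Subgroup.normalizer (Y : Set Γ) → a = 1 := by
    intro a ha haY
    by_contra ha1'
    apply hstep2
    intro a' ha'
    obtain ⟨k, hk⟩ := hFgen a ha ha1' a' ha'
    rw [← hk]
    exact (Subgroup.normalizer (Y : Set Γ)).pow_mem haY k
  have hsF : s ∉ F := by
    intro h
    have h' := hFY1 s h hsY
    apply hsw
    rw [h']
    group
  obtain ⟨f₀, hf₀, i, hi⟩ := hdec s hsA hsF t₀ ht₀A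
  have htA : s ^ i ∈ A := A.pow_mem hsA i
  have htY : s ^ i ∈ Subgroup.normalizer (Y : Set Γ) :=
    (Subgroup.normalizer (Y : Set Γ)).pow_mem hsY i
  have htF : s ^ i ∉ F := by
    intro h
    apply ht₀F
    rw [hi]
    exact F.mul_mem hf₀ h
  have ht₀t : t₀⁻¹ * s ^ i ∈ F := by
    rw [hi]
    have e : (f₀ * s ^ i)⁻¹ * s ^ i = (s ^ i)⁻¹ * f₀⁻¹ * s ^ i := by group
    rw [e]
    exact conj_mem_of_nz' (hfr.hAF htA) (F.inv_mem hf₀)
  have hSt : ∀ a ∈ A, a ∈ Subgroup.normalizer (Y : Set Γ) → ∃ j : ℕ, a = (s ^ i) ^ j := by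
    intro a haA haY
    obtain ⟨f, hf, j, hj⟩ := hdec (s ^ i) htA htF a haA
    refine ⟨j, ?_⟩
    have hf1 : f = 1 := by
      apply hFY1 f hf
      have e : f = a * ((s ^ i) ^ j)⁻¹ := by
        rw [hj]; group
      rw [e]
      exact (Subgroup.normalizer (Y : Set Γ)).mul_mem haY
        ((Subgroup.normalizer (Y : Set Γ)).inv_mem
          ((Subgroup.normalizer (Y : Set Γ)).pow_mem htY j))
    rw [hj, hf1, one_mul]
  -- Step 5
  have hstep5 : ∀ v ∈ V, (∀ y ∈ Y, y * v = v * y) → s ^ i * v = v * s ^ i → v = 1 := by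
    intro v hvV hvY hvt
    apply hW v hvV hvY
    intro a haA haY
    obtain ⟨j, hj⟩ := hSt a haA haY
    rw [hj]
    have hc : Commute (s ^ i) v := hvt
    exact (hc.pow_left j).eq
  -- Step 4
  have htℓ : orderOf (s ^ i) = ℓ := hord (s ^ i) htA htF
  have htℓ1 : (s ^ i) ^ ℓ = 1 := by
    rw [← htℓ]
    exact pow_orderOf_eq_one _
  have hstep4 : ∀ b ∈ B, s ^ i * b * (s ^ i)⁻¹ * b⁻¹ ∈ Y := by
    by_contra hcon
    apply hFMQ (s ^ i) ℓ htA htY hℓ.pos htℓ1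
    · intro j hj0 hjℓ x hx hxx
      rcases wstab_dich hq hBab hYB hcard (hAB (A.pow_mem htA j))
        ((Subgroup.normalizer (Y : Set Γ)).pow_mem htY j) with h | h
      · exfalso
        apply hcon
        have hcop : j.Coprime (orderOf (s ^ i)) := by
          rw [htℓ]
          exact ((Nat.Prime.coprime_iff_not_dvd hℓ).mpr
            (Nat.not_dvd_of_pos_of_lt hj0 hjℓ)).symm
        obtain ⟨k, hk⟩ := exists_pow_eq_self_of_coprime hcop
        have h' := wstab_triv_pow ((Subgroup.normalizer (Y : Set Γ)).pow_mem htY j) h k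
        rw [hk] at h'
        exact h'
      · exact h x hx hxx
    · exact hstep5
  exact ⟨s ^ i, htA, ht₀t, htY, hstep4, hstep5⟩

end Cfsg.Agent.Lib.Helper58.PQ
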