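import Mathlib
import Cfsg.Prelude.Def_Blocks
import Cfsg.Prelude.Def_Local
import Cfsg.Agent.S0145
import Cfsg.Agent.Lib.Helper4.CharSimple

/-!
Piece C7 of S4501: three distinct irreducible characters (one of them trivial) in the second
orthogonality relation.
-/

set_option autoImplicit false
open Cfsg
open scoped ComplexConjugate

namespace Cfsg.Agent.Lib.Helper30.S4501.C7

theorem three_terms {G : Type*} [Group G] [Finite G] (χ₁ χ₂ : Cfsg.IrrCharacter G)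
    (h1 : (χ₁ : G → ℂ) ≠ (fun _ => 1)) (h2 : (χ₂ : G → ℂ) ≠ (fun _ => 1)) (h12 : χ₁ ≠ χ₂)
    (g : G) : 1 + ‖(χ₁ : G → ℂ) g‖ ^ 2 + ‖(χ₂ : G → ℂ) g‖ ^ 2 ≤
      (Nat.card (Subgroup.centralizer ({g} : Set G)) : ℝ) := by
  classical
  have hfG := Fintype.ofFinite G
  have hfin : Finite (IrrCharacter G) := Cfsg.Agent.Lib.Helper4.irr_finite
  have hfI := Fintype.ofFinite (IrrCharacter G)
  have h := (Cfsg.Agent.S0145.result g g).1 (IsConj.refl g)
  rw [finsum_eq_sum_of_fintype] at h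
  have hterm : ∀ χ : IrrCharacter G, (χ : G → ℂ) g * conj ((χ : G → ℂ) g)
      = ((‖(χ : G → ℂ) g‖ ^ 2 : ℝ) : ℂ) := by
    intro χ
    rw [Complex.mul_conj, Complex.normSq_eq_norm_sq]
  simp_rw [hterm] at h
  rw [← Complex.ofReal_sum] at h
  have h' : ∑ χ : IrrCharacter G, ‖(χ : G → ℂ) g‖ ^ 2
      = (Nat.card (Subgroup.centralizer ({g} : Set G)) : ℝ) := by
    exact_mod_cast h
  rw [← h']
  obtain ⟨t, ht⟩ : ∃ t : IrrCharacter G, (t : G → ℂ) = fun _ => 1 :=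
    ⟨Cfsg.Agent.Lib.Helper4.trivIrr, rfl⟩
  have ht1 : t ≠ χ₁ := fun e => h1 (by rw [← e]; exact ht)
  have ht2 : t ≠ χ₂ := fun e => h2 (by rw [← e]; exact ht)
  have hsub : ({t, χ₁, χ₂} : Finset (IrrCharacter G)) ⊆ Finset.univ := Finset.subset_univ _
  have h3 := Finset.sum_le_sum_of_subset_of_nonneg hsub
    (f := fun χ : IrrCharacter G => ‖(χ : G → ℂ) g‖ ^ 2) (fun _ _ _ => by positivity)
  rw [Finset.sum_insert (by simp [ht1, ht2]), Finset.sum_insert (by simp [h12]),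
    Finset.sum_singleton] at h3
  have ht' : ‖(t : G → ℂ) g‖ ^ 2 = 1 := by
    rw [ht]
    simp
  linarith

end Cfsg.Agent.Lib.Helper30.S4501.C7
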