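import Mathlib
import Cfsg.Prelude.Def_GeometricClasses
import Cfsg.Agent.Lib.Helper98.SympM2
import Cfsg.Agent.Lib.Helper14.SMCONJ
import Cfsg.Agent.Lib.Helper94.SMSQ

/-!
Piece SM-B2 of S6002: an element of `Sp_4(F)` (odd characteristic) whose square is scalar but
which is not itself scalar is `Sp_4(F)`-conjugate into the normaliser of `R = 2^{1+4}_-`.
-/

set_option autoImplicit false

namespace Cfsg.Agent.Lib.Helper98.SM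

open Matrix Polynomial

/-- a scalar element of `R` is `±1` -/
theorem smb2_scalar_central {F : Type*} [Field F] {R : Subgroup (GL (Fin 2 ⊕ Fin 2) F)}
    (hG : GoodM R) (u : GL (Fin 2 ⊕ Fin 2) F) (hu : u ∈ R) (l : F)
    (hl : (u : Matrix (Fin 2 ⊕ Fin 2) (Fin 2 ⊕ Fin 2) F)
      = l • (1 : Matrix (Fin 2 ⊕ Fin 2) (Fin 2 ⊕ Fin 2) F)) : u = 1 ∨ u = -1 := by
  apply hG.hcen u hu
  intro s _
  apply Units.ext
  rw [Units.val_mul, Units.val_mul, hl]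
  simp

theorem smb2_det_one {F : Type*} [Field F] (g : GL (Fin 2 ⊕ Fin 2) F)
    (hg : g ∈ Cfsg.spGL 2 F) : (g : Matrix (Fin 2 ⊕ Fin 2) (Fin 2 ⊕ Fin 2) F).det = 1 :=
  SymplecticGroup.det_eq_one ((mem_spGL_iff_symplectic g).mp hg)

theorem smb2_core {F : Type*} [Field F] [Fintype F] {R : Subgroup (GL (Fin 2 ⊕ Fin 2) F)}
    (hG : GoodM R) (hRf : R ≤ Cfsg.spGL 2 F) (p : ℕ) [Fact p.Prime] [CharP F p] (hodd : Odd p)
    (u : GL (Fin 2 ⊕ Fin 2) F) (hu : u ∈ R) (z : F) (hz : z * z = 1)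
    (huu : (u : Matrix (Fin 2 ⊕ Fin 2) (Fin 2 ⊕ Fin 2) F)
      * (u : Matrix (Fin 2 ⊕ Fin 2) (Fin 2 ⊕ Fin 2) F)
      = z • (1 : Matrix (Fin 2 ⊕ Fin 2) (Fin 2 ⊕ Fin 2) F))
    (hune : u ≠ 1) (hune' : u ≠ -1)
    (x : GL (Fin 2 ⊕ Fin 2) F) (hx : x ∈ Cfsg.spGL 2 F)
    (hxx : (x : Matrix (Fin 2 ⊕ Fin 2) (Fin 2 ⊕ Fin 2) F)
      * (x : Matrix (Fin 2 ⊕ Fin 2) (Fin 2 ⊕ Fin 2) F)
      = z • (1 : Matrix (Fin 2 ⊕ Fin 2) (Fin 2 ⊕ Fin 2) F))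
    (hns : ∀ z : F, (x : Matrix (Fin 2 ⊕ Fin 2) (Fin 2 ⊕ Fin 2) F)
      ≠ z • (1 : Matrix (Fin 2 ⊕ Fin 2) (Fin 2 ⊕ Fin 2) F)) :
    ∃ g ∈ Cfsg.spGL 2 F, g⁻¹ * x * g ∈ Cfsg.Geo.subgroupNormalizer R := by
  have huS : u ∈ Cfsg.spGL 2 F := hRf hu
  have hcx := charpoly_sq_scalar hG.h2 (x : Matrix (Fin 2 ⊕ Fin 2) (Fin 2 ⊕ Fin 2) F) z hz hxx
    (smb2_det_one x hx) hns
  have huns : ∀ l : F, (u : Matrix (Fin 2 ⊕ Fin 2) (Fin 2 ⊕ Fin 2) F)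
      ≠ l • (1 : Matrix (Fin 2 ⊕ Fin 2) (Fin 2 ⊕ Fin 2) F) := by
    intro l hl
    rcases smb2_scalar_central hG u hu l hl with h | h
    · exact hune h
    · exact hune' h
  have hcu := charpoly_sq_scalar hG.h2 (u : Matrix (Fin 2 ⊕ Fin 2) (Fin 2 ⊕ Fin 2) F) z hz huu
    (smb2_det_one u huS) huns
  have h4 : ∀ y : GL (Fin 2 ⊕ Fin 2) F,
      (y : Matrix (Fin 2 ⊕ Fin 2) (Fin 2 ⊕ Fin 2) F)
        * (y : Matrix (Fin 2 ⊕ Fin 2) (Fin 2 ⊕ Fin 2) F)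
        = z • (1 : Matrix (Fin 2 ⊕ Fin 2) (Fin 2 ⊕ Fin 2) F) → y ^ 4 = 1 := by
    intro y hy
    apply Units.ext
    have e : y ^ 4 = (y * y) * (y * y) := by
      rw [show (4 : ℕ) = 2 + 2 from rfl, pow_add, pow_two]
    rw [e, Units.val_mul, Units.val_mul, hy, Units.val_one]
    rw [smul_mul_smul_comm, hz, one_smul, mul_one]
  have hcop : Nat.Coprime 4 p := by
    have h2p : Nat.Coprime 2 p := by
      rw [Nat.coprime_comm]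
      exact Nat.Coprime.symm ((Nat.coprime_primes Nat.prime_two (Fact.out : p.Prime)).mpr
        (fun h => by
          rw [← h] at hodd
          exact absurd hodd (by decide)))
    have : Nat.Coprime (2 ^ 2) p := Nat.Coprime.pow_left 2 h2p
    simpa using this
  obtain ⟨g, hg, hgx⟩ := sp_conj_of_charpoly p x u hx huS 4 hcop (h4 x hxx) (h4 u huu)
    (hcx.trans hcu.symm)
  refine ⟨g, hg, ?_⟩
  rw [hgx]
  exact Subgroup.le_normalizer hu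

theorem back_two {F : Type*} [Field F] [Fintype F] {R : Subgroup (GL (Fin 2 ⊕ Fin 2) F)}
    (hG : GoodM R) (hRf : R ≤ Cfsg.spGL 2 F) (p : ℕ) [Fact p.Prime] [CharP F p] (hodd : Odd p)
    (v : GL (Fin 2 ⊕ Fin 2) F) (hv : v ∈ R) (hvv : v * v = -1)
    (x : GL (Fin 2 ⊕ Fin 2) F) (hx : x ∈ Cfsg.spGL 2 F) (z : F)
    (hxz : ((x ^ 2 : GL (Fin 2 ⊕ Fin 2) F) : Matrix (Fin 2 ⊕ Fin 2) (Fin 2 ⊕ Fin 2) F)
      = z • (1 : Matrix (Fin 2 ⊕ Fin 2) (Fin 2 ⊕ Fin 2) F))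
    (hns : ∀ z : F, (x : Matrix (Fin 2 ⊕ Fin 2) (Fin 2 ⊕ Fin 2) F)
      ≠ z • (1 : Matrix (Fin 2 ⊕ Fin 2) (Fin 2 ⊕ Fin 2) F)) :
    ∃ g ∈ Cfsg.spGL 2 F, g⁻¹ * x * g ∈ Cfsg.Geo.subgroupNormalizer R := by
  have hz : z * z = 1 := sp_scalar_sq (x ^ 2) (Subgroup.pow_mem _ hx 2) z hxz
  have hxx : (x : Matrix (Fin 2 ⊕ Fin 2) (Fin 2 ⊕ Fin 2) F)
      * (x : Matrix (Fin 2 ⊕ Fin 2) (Fin 2 ⊕ Fin 2) F)
      = z • (1 : Matrix (Fin 2 ⊕ Fin 2) (Fin 2 ⊕ Fin 2) F) := by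
    rw [← Units.val_mul, ← pow_two, hxz]
  have hz' : z = 1 ∨ z = -1 := by
    have : (z - 1) * (z + 1) = 0 := by linear_combination hz
    rcases mul_eq_zero.mp this with h | h
    · left; linear_combination h
    · right; linear_combination h
  rcases hz' with rfl | rfl
  · obtain ⟨u, hu, huu, hu1, hu2⟩ := hG.exists_invol
    refine smb2_core hG hRf p hodd u hu 1 hz ?_ hu1 hu2 x hx hxx hns
    rw [← Units.val_mul, huu, Units.val_one, one_smul]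
  · refine smb2_core hG hRf p hodd v hv (-1) hz ?_ ?_ ?_ x hx hxx hns
    · rw [← Units.val_mul, hvv, Units.val_neg, Units.val_one, neg_smul, one_smul]
    · intro h
      rw [h, mul_one] at hvv
      exact hG.neg_one_ne hvv.symm
    · intro h
      rw [h, neg_mul_neg, mul_one] at hvv
      exact hG.neg_one_ne hvv.symm

end Cfsg.Agent.Lib.Helper98.SM
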