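import Mathlib
import Cfsg.Agent.Lib.Helper91.SpU
import Cfsg.Agent.Lib.Helper91.PslU

set_option autoImplicit false

namespace Cfsg.Agent.Lib.Helper58.SpFU

open Matrix Cfsg.Agent.Lib.Helper91.SpU Cfsg.Agent.Lib.Helper91.PslU

variable (m : ℕ) (K : Type*) [Field K]

theorem isUT_iff (A : Matrix (Fin m) (Fin m) K) :
    IsUT m K A ↔ ∃ s : SpecialLinearGroup (Fin m) K, s ∈ UU m K ∧ s.1 = A := by
  constructor
  · intro hA
    have hdet : A.det = 1 := by
      have hbt : A.BlockTriangular id := fun i j hji => hA.1 i j hji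
      rw [Matrix.det_of_isUpperTriangular hbt]
      exact Finset.prod_eq_one (fun i _ => hA.2 i)
    exact ⟨⟨A, hdet⟩, (mem_UU_iff m K ⟨A, hdet⟩).2 hA, rfl⟩
  · rintro ⟨s, hs, rfl⟩
    exact (mem_UU_iff m K s).1 hs

theorem isUT_mul {A A' : Matrix (Fin m) (Fin m) K} (hA : IsUT m K A) (hA' : IsUT m K A') :
    IsUT m K (A * A') := by
  obtain ⟨s, hs, rfl⟩ := (isUT_iff m K A).1 hA
  obtain ⟨s', hs', rfl⟩ := (isUT_iff m K A').1 hA'
  exact (isUT_iff m K _).2 ⟨s * s', mul_mem hs hs', rfl⟩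

theorem isUT_one : IsUT m K (1 : Matrix (Fin m) (Fin m) K) :=
  (isUT_iff m K _).2 ⟨1, one_mem _, rfl⟩

theorem isUT_of_mul_eq_one {A X : Matrix (Fin m) (Fin m) K} (hA : IsUT m K A)
    (hX : X * A = 1) : IsUT m K X := by
  obtain ⟨s, hs, rfl⟩ := (isUT_iff m K A).1 hA
  have h1 : s.1 * (s⁻¹).1 = 1 := by
    have : (s * s⁻¹).1 = 1 := by rw [mul_inv_cancel]; rfl
    exact this
  have h2 : X = (s⁻¹).1 := by
    calc X = X * (s.1 * (s⁻¹).1) := by rw [h1, Matrix.mul_one]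
      _ = (s⁻¹).1 := by rw [← Matrix.mul_assoc, hX, Matrix.one_mul]
  exact (isUT_iff m K _).2 ⟨s⁻¹, inv_mem hs, h2.symm⟩

/-- block decomposition of an element -/
theorem blk (g : Matrix.symplecticGroup (Fin m) K) :
    g.1 = fromBlocks g.1.toBlocks₁₁ g.1.toBlocks₁₂ g.1.toBlocks₂₁ g.1.toBlocks₂₂ :=
  (Matrix.fromBlocks_toBlocks g.1).symm

theorem coe_inv_blocks (g : Matrix.symplecticGroup (Fin m) K) :
    (g⁻¹).1 = fromBlocks g.1.toBlocks₂₂ᵀ (-g.1.toBlocks₁₂ᵀ) (-g.1.toBlocks₂₁ᵀ) g.1.toBlocks₁₁ᵀ := by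
  have h : (g⁻¹).1 = (-J (Fin m) K) * g.1ᵀ * J (Fin m) K := SymplecticGroup.coe_inv g
  rw [h]
  conv_lhs => rw [blk m K g]
  unfold J
  rw [Matrix.fromBlocks_transpose, Matrix.fromBlocks_neg, Matrix.fromBlocks_multiply,
    Matrix.fromBlocks_multiply]
  simp

theorem mul_blocks₂₁ (g h : Matrix.symplecticGroup (Fin m) K) (hg : g.1.toBlocks₂₁ = 0)
    (hh : h.1.toBlocks₂₁ = 0) : (g * h).1.toBlocks₂₁ = 0 := by
  have e : (g * h).1 = g.1 * h.1 := rfl
  rw [e]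
  conv_lhs => rw [blk m K g, blk m K h, Matrix.fromBlocks_multiply, Matrix.toBlocks_fromBlocks₂₁]
  rw [hg, hh, Matrix.zero_mul, Matrix.mul_zero, add_zero]

theorem mul_blocks₁₁ (g h : Matrix.symplecticGroup (Fin m) K)
    (hh : h.1.toBlocks₂₁ = 0) : (g * h).1.toBlocks₁₁ = g.1.toBlocks₁₁ * h.1.toBlocks₁₁ := by
  have e : (g * h).1 = g.1 * h.1 := rfl
  rw [e]
  conv_lhs => rw [blk m K g, blk m K h, Matrix.fromBlocks_multiply, Matrix.toBlocks_fromBlocks₁₁]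
  rw [hh, Matrix.mul_zero, add_zero]

theorem mul_blocks₂₂ (g h : Matrix.symplecticGroup (Fin m) K)
    (hg : g.1.toBlocks₂₁ = 0) : (g * h).1.toBlocks₂₂ = g.1.toBlocks₂₂ * h.1.toBlocks₂₂ := by
  have e : (g * h).1 = g.1 * h.1 := rfl
  rw [e]
  conv_lhs => rw [blk m K g, blk m K h, Matrix.fromBlocks_multiply, Matrix.toBlocks_fromBlocks₂₂]
  rw [hg, Matrix.zero_mul, zero_add]

/-- `Aᵀ * D = 1` for block upper triangular symplectic matrices -/
theorem transpose_mul_eq_one (g : Matrix.symplecticGroup (Fin m) K) (hg : g.1.toBlocks₂₁ = 0) :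
    g.1.toBlocks₁₁ᵀ * g.1.toBlocks₂₂ = 1 := by
  have h := g.2
  rw [blk m K g, SymplecticGroup.fromBlocks_mem_iff] at h
  have h3 := h.2.2
  rw [hg, Matrix.transpose_zero, Matrix.zero_mul, sub_zero] at h3
  exact h3

theorem one_blocks₂₁ : (1 : Matrix.symplecticGroup (Fin m) K).1.toBlocks₂₁ = 0 := by
  have e : (1 : Matrix.symplecticGroup (Fin m) K).1 = fromBlocks 1 0 0 1 :=
    Matrix.fromBlocks_one.symm
  rw [e, Matrix.toBlocks_fromBlocks₂₁]

theorem one_blocks₁₁ : (1 : Matrix.symplecticGroup (Fin m) K).1.toBlocks₁₁ = 1 := by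
  have e : (1 : Matrix.symplecticGroup (Fin m) K).1 = fromBlocks 1 0 0 1 :=
    Matrix.fromBlocks_one.symm
  rw [e, Matrix.toBlocks_fromBlocks₁₁]

theorem inU_one : InU m K (1 : Matrix.symplecticGroup (Fin m) K) := by
  refine ⟨one_blocks₂₁ m K, ?_⟩
  rw [one_blocks₁₁]
  exact isUT_one m K

theorem inU_mul {g h : Matrix.symplecticGroup (Fin m) K} (hg : InU m K g) (hh : InU m K h) :
    InU m K (g * h) := by
  refine ⟨mul_blocks₂₁ m K g h hg.1 hh.1, ?_⟩
  rw [mul_blocks₁₁ m K g h hh.1]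
  exact isUT_mul m K hg.2 hh.2

theorem inU_inv {g : Matrix.symplecticGroup (Fin m) K} (hg : InU m K g) :
    InU m K g⁻¹ := by
  have e := coe_inv_blocks m K g
  refine ⟨?_, ?_⟩
  · rw [e, Matrix.toBlocks_fromBlocks₂₁, hg.1, Matrix.transpose_zero, neg_zero]
  · rw [e, Matrix.toBlocks_fromBlocks₁₁]
    apply isUT_of_mul_eq_one m K hg.2
    have h := transpose_mul_eq_one m K g hg.1
    have h2 := congrArg Matrix.transpose h
    rw [Matrix.transpose_mul, Matrix.transpose_transpose, Matrix.transpose_one] at h2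
    exact h2

theorem exists_USp (m : ℕ) (K : Type*) [Field K] :
    ∃ U : Subgroup (Matrix.symplecticGroup (Fin m) K), ∀ g, g ∈ U ↔ InU m K g :=
  ⟨{ carrier := {g | InU m K g}
     mul_mem' := fun hg hh => inU_mul m K hg hh
     one_mem' := inU_one m K
     inv_mem' := fun hg => inU_inv m K hg }, fun _ => Iff.rfl⟩

end Cfsg.Agent.Lib.Helper58.SpFU
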