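import Mathlib
import Cfsg.Agent.Lib.Helper91.SpU
import Cfsg.Agent.Lib.Helper58.SpFU

set_option autoImplicit false

namespace Cfsg.Agent.Lib.Helper58.SpA4

open Matrix Cfsg.Agent.Lib.Helper91.SpU Cfsg.Agent.Lib.Helper58.SpFU

theorem tri_mul (m : ℕ) (K : Type*) [Field K] {A B : Matrix (Fin m) (Fin m) K}
    (hA : ∀ i j : Fin m, j < i → A i j = 0) (hB : ∀ i j : Fin m, j < i → B i j = 0) :
    (∀ i j : Fin m, j < i → (A * B) i j = 0) ∧ ∀ i : Fin m, (A * B) i i = A i i * B i i := by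
  constructor
  · intro i j hji
    rw [Matrix.mul_apply]
    apply Finset.sum_eq_zero
    intro l _
    by_cases hl : l < i
    · rw [hA i l hl, zero_mul]
    · rw [hB l j (lt_of_lt_of_le hji (not_lt.mp hl)), mul_zero]
  · intro i
    rw [Matrix.mul_apply]
    rw [Finset.sum_eq_single i]
    · intro l _ hl
      rcases lt_or_gt_of_ne hl with h | h
      · rw [hA i l h, zero_mul]
      · rw [hB l i h, mul_zero]
    · intro h
      exact absurd (Finset.mem_univ i) h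

theorem tri_pow (m : ℕ) (K : Type*) [Field K] {A : Matrix (Fin m) (Fin m) K}
    (hA : ∀ i j : Fin m, j < i → A i j = 0) (n : ℕ) :
    (∀ i j : Fin m, j < i → (A ^ n) i j = 0) ∧ ∀ i : Fin m, (A ^ n) i i = (A i i) ^ n := by
  induction n with
  | zero =>
    constructor
    · intro i j hji
      rw [pow_zero, Matrix.one_apply_ne (ne_of_gt hji)]
    · intro i
      rw [pow_zero, pow_zero, Matrix.one_apply_eq]
  | succ n ih =>
    have h := tri_mul m K ih.1 hA
    constructor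
    · intro i j hji
      rw [pow_succ]
      exact h.1 i j hji
    · intro i
      rw [pow_succ, pow_succ, h.2 i, ih.2 i]

theorem pow_blocks (m : ℕ) (K : Type*) [Field K] (g : Matrix.symplecticGroup (Fin m) K)
    (h1 : g.1.toBlocks₂₁ = 0) (n : ℕ) :
    (g ^ n).1.toBlocks₂₁ = 0 ∧ (g ^ n).1.toBlocks₁₁ = g.1.toBlocks₁₁ ^ n := by
  induction n with
  | zero =>
    rw [pow_zero, pow_zero]
    exact ⟨one_blocks₂₁ m K, one_blocks₁₁ m K⟩
  | succ n ih =>
    rw [pow_succ]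
    refine ⟨mul_blocks₂₁ m K _ _ ih.1 h1, ?_⟩
    rw [mul_blocks₁₁ m K _ _ h1, ih.2, pow_succ]

theorem pelem_tri_inU (m : ℕ) (K : Type*) [Field K] (p : ℕ) [Fact p.Prime] [CharP K p]
    (g : Matrix.symplecticGroup (Fin m) K) (h1 : g.1.toBlocks₂₁ = 0)
    (h2 : ∀ i j : Fin m, j < i → g.1.toBlocks₁₁ i j = 0) (k : ℕ) (hk : g ^ p ^ k = 1) :
    InU m K g := by
  refine ⟨h1, h2, ?_⟩
  intro i
  have hA : g.1.toBlocks₁₁ ^ (p ^ k) = 1 := by
    rw [← (pow_blocks m K g h1 (p ^ k)).2, hk]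
    exact one_blocks₁₁ m K
  have hd : (g.1.toBlocks₁₁ i i) ^ (p ^ k) = 1 := by
    rw [← (tri_pow m K h2 (p ^ k)).2 i, hA, Matrix.one_apply_eq]
  have h0 : (g.1.toBlocks₁₁ i i - 1) ^ (p ^ k) = 0 := by
    rw [sub_pow_char_pow, hd, one_pow, sub_self]
  exact sub_eq_zero.mp (pow_eq_zero_iff (pow_ne_zero k (Fact.out : p.Prime).ne_zero) |>.mp h0)

end Cfsg.Agent.Lib.Helper58.SpA4
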