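import Mathlib
import Cfsg.Agent.Lib.Helper71.SpK0

/-!
# S5664 job J3 (helper58): a maximal-intersection element has the property `MaxP`
-/

set_option autoImplicit false

namespace Cfsg.Agent.Lib.Helper58.SpKJ

open Matrix Cfsg.Agent.Lib.Helper71.SpK Cfsg.Agent.Lib.Helper97

variable {ι : Type} [Fintype ι] [DecidableEq ι] {F : Type*} [Field F]

/-- An element of `M` moving `W` whose intersection `W ⊓ hW` has maximal dimension has the
property `MaxP`. -/
lemma maxP_of_max (M : Subgroup (GL ι F)) (W : Submodule F (ι → F)) (h : GL ι F) (hM : h ∈ M)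
    (hmax : ∀ g ∈ M, gim W g ≠ W →
      Module.finrank F ↥(W ⊓ gim W g) ≤ Module.finrank F ↥(W ⊓ gim W h)) :
    MaxP M W h := by
  intro x hx hfix hex
  obtain ⟨y₀, hy₀, hy₀W, hxy₀⟩ := hex
  by_contra hcon
  push Not at hcon
  obtain ⟨y, hy, hxy⟩ := hcon
  have hgM : h⁻¹ * x * h ∈ M := M.mul_mem (M.mul_mem (M.inv_mem hM) hx) hM
  have hgim : gim W (h⁻¹ * x * h) = gim (gim (gim W h) x) h⁻¹ := by
    rw [gim_mul, gim_mul]
  have hgne : gim W (h⁻¹ * x * h) ≠ W := by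
    intro h1
    apply hxy
    have h2 : gim (gim W h) x = gim W h := by
      have h3 : gim (gim W (h⁻¹ * x * h)) h = gim W h := by rw [h1]
      rw [hgim, gim_inv_gim] at h3
      exact h3
    rw [← h2]
    exact mulVec_mem_gim x hy
  have hle := hmax _ hgM hgne
  have heq : Module.finrank F ↥(W ⊓ gim W (h⁻¹ * x * h)) =
      Module.finrank F ↥(gim W h ⊓ gim (gim W h) x) := by
    have h1 : W ⊓ gim W (h⁻¹ * x * h) = gim (gim W h ⊓ gim (gim W h) x) h⁻¹ := by
      rw [gim_inf, gim_gim_inv, hgim]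
    rw [h1, finrank_gim]
  have hlt : W ⊓ gim W h < gim W h ⊓ gim (gim W h) x := by
    rw [SetLike.lt_iff_le_and_exists]
    refine ⟨fun z hz => ⟨hz.2, ?_⟩, (x : Matrix ι ι F) *ᵥ y₀, ⟨hxy₀, mulVec_mem_gim x hy₀⟩, ?_⟩
    · have h1 := mulVec_mem_gim x hz.2
      rw [hfix z hz] at h1
      exact h1
    · intro h1
      have h2 := hfix _ h1
      have h3 := gl_mulVec_inj x h2
      apply hy₀W
      rw [← h3]
      exact h1.1
  have h4 := Submodule.finrank_lt_finrank_of_lt hlt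
  omega

/-- **Job J3** of the S5664 project: among the elements of `M` that move `W`, one with maximal
intersection `W ⊓ hW` has the property `MaxP`, and so has its inverse. -/
theorem exists_maxP (M : Subgroup (GL ι F)) (W : Submodule F (ι → F)) (g₀ : GL ι F)
    (hg₀ : g₀ ∈ M) (hne : gim W g₀ ≠ W) :
    ∃ h ∈ M, gim W h ≠ W ∧
      Module.finrank F ↥(W ⊓ gim W g₀) ≤ Module.finrank F ↥(W ⊓ gim W h) ∧
      MaxP M W h ∧ MaxP M W h⁻¹ := by
  classical
  let T : Set ℕ := {n | ∃ g ∈ M, gim W g ≠ W ∧ Module.finrank F ↥(W ⊓ gim W g) = n}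
  have hTne : T.Nonempty := ⟨_, g₀, hg₀, hne, rfl⟩
  have hTb : BddAbove T := by
    refine ⟨Module.finrank F ↥W, ?_⟩
    rintro n ⟨g, -, -, rfl⟩
    exact Submodule.finrank_mono inf_le_left
  obtain ⟨h, hhM, hhne, hh⟩ := Nat.sSup_mem hTne hTb
  have hmax : ∀ g ∈ M, gim W g ≠ W →
      Module.finrank F ↥(W ⊓ gim W g) ≤ Module.finrank F ↥(W ⊓ gim W h) := by
    intro g hg hgne
    rw [hh]
    exact le_csSup hTb ⟨g, hg, hgne, rfl⟩
  refine ⟨h, hhM, hhne, hmax g₀ hg₀ hne, maxP_of_max M W h hhM hmax, ?_⟩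
  apply maxP_of_max M W h⁻¹ (M.inv_mem hhM)
  have hd : Module.finrank F ↥(W ⊓ gim W h⁻¹) = Module.finrank F ↥(W ⊓ gim W h) := by
    have h1 : gim (W ⊓ gim W h⁻¹) h = gim W h ⊓ W := by rw [gim_inf, gim_inv_gim]
    rw [← finrank_gim (W ⊓ gim W h⁻¹) h, h1, inf_comm]
  intro g hg hgne
  rw [hd]
  exact hmax g hg hgne

end Cfsg.Agent.Lib.Helper58.SpKJ
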