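import Mathlib
import Cfsg.Agent.Lib.Helper71.SpK0

/-!
# S5664 job J8 (helper58): the commutator of two `L`-transvections in case (i)
-/

set_option autoImplicit false

namespace Cfsg.Agent.Lib.Helper58.SpKJ

open Matrix Cfsg.Agent.Lib.Helper71.SpK Cfsg.Agent.Lib.Helper97

variable {ι : Type} [Fintype ι] [DecidableEq ι] {F : Type*} [Field F]

/-- A commutator identity for square-zero elements. -/
lemma comm_sq_zero {R : Type*} [Ring R] (A Bm : R) (hAA : A * A = 0) (hBB : Bm * Bm = 0)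
    (hABA : A * Bm * A = 0) (hBAB : Bm * A * Bm = 0) :
    (1 + A) * (1 + Bm) * (1 - A) * (1 - Bm) = 1 + A * Bm - Bm * A := by
  linear_combination (norm := noncomm_ring)
    -hAA + hAA * Bm - hBB + hBAB - hABA - A * hBB + A * hBAB

variable {f : (ι → F) → (ι → F) → F} {L : Type*} [Field L] [Algebra F L]

/-- **Job J8** of the S5664 project. -/
theorem case1_SP (S : KS f L) [FiniteDimensional F L]
    (M : Subgroup (GL ι F)) (hNM : S.NG ≤ M)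
    (hMf : ∀ g ∈ M, ∀ x y : ι → F,
      f ((g : Matrix ι ι F) *ᵥ x) ((g : Matrix ι ι F) *ᵥ y) = f x y)
    {u : ι → F} (hu : u ≠ 0) {h : GL ι F} (hhM : h ∈ M)
    {y₀ : ι → F} (hy₀ : y₀ ∈ gim (S.line u) h) (hy₀u : S.B y₀ u ≠ 0)
    (hline : ∀ y ∈ gim (S.line u) h, ∃ c : F, S.B y u = algebraMap F L c * S.B y₀ u)
    {y₀' : ι → F} (hy₀' : y₀' ∈ gim (S.line u) h⁻¹) (hy₀'u : S.B y₀' u ≠ 0)
    (hline' : ∀ y ∈ gim (S.line u) h⁻¹, ∃ c : F, S.B y u = algebraMap F L c * S.B y₀' u) :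
    ∃ τ : F, τ ≠ 0 ∧ ∀ d₁ ∈ S.line u ⊓ gim (S.line u) h,
      ∀ d₂ ∈ S.line u ⊓ gim (S.line u) h, SP f M τ d₁ d₂ := by
  classical
  choose lam hlam using fun k : L => hline _ (mulVec_mem_gim h (S.act_mem_line k u))
  choose lam' hlam' using fun k : L => hline' _ (mulVec_mem_gim h⁻¹ (S.act_mem_line k u))
  obtain ⟨c₀, hc₀⟩ := S.exists_β_eq hy₀u 1
  obtain ⟨c₀', hc₀'⟩ := S.exists_β_eq hy₀'u 1
  have hβ : ∀ (c : F) (l : L), S.β (algebraMap F L c * l) = c * S.β l := by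
    intro c l
    rw [← Algebra.smul_def, map_smul, smul_eq_mul]
  have hh1 : ∀ x y : ι → F, f ((h : Matrix ι ι F) *ᵥ x) y =
      f x (((h⁻¹ : GL ι F) : Matrix ι ι F) *ᵥ y) := by
    intro x y
    have h1 := hMf h hhM x (((h⁻¹ : GL ι F) : Matrix ι ι F) *ᵥ y)
    rw [gl_mulVec_inv'] at h1
    exact h1
  have hh2 : ∀ x y : ι → F, f (((h⁻¹ : GL ι F) : Matrix ι ι F) *ᵥ x) y =
      f x ((h : Matrix ι ι F) *ᵥ y) := by
    intro x y
    have h1 := hMf h⁻¹ (M.inv_mem hhM) x ((h : Matrix ι ι F) *ᵥ y)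
    rw [gl_inv_mulVec] at h1
    exact h1
  -- the two formulas for `lam`, `lam'`
  have ha : ∀ k : L, lam k = -(lam' c₀) * S.β (k * S.B y₀' u) := by
    intro k
    have h1 : lam k = S.β (c₀ * S.B ((h : Matrix ι ι F) *ᵥ (S.φ k *ᵥ u)) u) := by
      rw [hlam k, mul_left_comm, hβ, hc₀, mul_one]
    have h2 : k * -(algebraMap F L (lam' c₀) * S.B y₀' u) =
        algebraMap F L (-(lam' c₀)) * (k * S.B y₀' u) := by
      rw [map_neg]; ring
    rw [h1, ← S.f_act_right, hh1, S.f_act, S.B_skew, hlam' c₀, h2, hβ]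
  have hb : ∀ k : L, lam' k = -(lam c₀') * S.β (k * S.B y₀ u) := by
    intro k
    have h1 : lam' k =
        S.β (c₀' * S.B (((h⁻¹ : GL ι F) : Matrix ι ι F) *ᵥ (S.φ k *ᵥ u)) u) := by
      rw [hlam' k, mul_left_comm, hβ, hc₀', mul_one]
    have h2 : k * -(algebraMap F L (lam c₀') * S.B y₀ u) =
        algebraMap F L (-(lam c₀')) * (k * S.B y₀ u) := by
      rw [map_neg]; ring
    rw [h1, ← S.f_act_right, hh2, S.f_act, S.B_skew, hlam c₀', h2, hβ]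
  have hc : lam c₀' = -(lam' c₀) := by rw [ha c₀', hc₀', mul_one]
  have hb' : ∀ k : L, lam' k = lam' c₀ * S.β (k * S.B y₀ u) := by
    intro k
    rw [hb k, hc, neg_neg]
  -- `τ₀ ≠ 0`
  have hτ₀ : lam' c₀ ≠ 0 := by
    intro h0
    have h1 := mem_gim.mp hy₀'
    rw [inv_inv] at h1
    obtain ⟨k, hk⟩ := S.mem_line.mp h1
    have h2 := hlam' k
    rw [hk, gl_inv_mulVec, hb' k, h0, zero_mul, map_zero, zero_mul] at h2
    exact hy₀'u h2
  refine ⟨-(lam' c₀), neg_ne_zero.mpr hτ₀, ?_⟩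
  intro d₁ hd₁ d₂ hd₂
  obtain ⟨k₁, hk₁⟩ := S.mem_line.mp hd₁.1
  obtain ⟨k₂, hk₂⟩ := S.mem_line.mp (mem_gim.mp hd₂.2)
  have hd₂' : (h : Matrix ι ι F) *ᵥ (S.φ k₂ *ᵥ u) = d₂ := by rw [hk₂, gl_mulVec_inv']
  set a : L := k₁ * (S.B y₀ u)⁻¹ with ha_def
  set b : L := k₂ * (S.B y₀' u)⁻¹ with hb_def
  have haψ : a * S.B y₀ u = k₁ := by
    rw [ha_def, mul_assoc, inv_mul_cancel₀ hy₀u, mul_one]
  have hbψ : b * S.B y₀' u = k₂ := by
    rw [hb_def, mul_assoc, inv_mul_cancel₀ hy₀'u, mul_one]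
  set A : Matrix ι ι F := S.tE u a with hA_def
  set Bm : Matrix ι ι F :=
    (h : Matrix ι ι F) * S.tE u b * ((h⁻¹ : GL ι F) : Matrix ι ι F) with hBm_def
  have hAv : ∀ v : ι → F, A *ᵥ v = S.φ (a * S.B v u) *ᵥ u := fun v => S.tE_mulVec u a v
  have hBv : ∀ v : ι → F, Bm *ᵥ v = (h : Matrix ι ι F) *ᵥ
      (S.φ (b * S.B (((h⁻¹ : GL ι F) : Matrix ι ι F) *ᵥ v) u) *ᵥ u) := by
    intro v
    rw [hBm_def, ← Matrix.mulVec_mulVec, ← Matrix.mulVec_mulVec, S.tE_mulVec]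
  have hABv : ∀ v : ι → F, A *ᵥ (Bm *ᵥ v) = (-(lam' c₀) * f v d₂) • d₁ := by
    intro v
    have h1 : a * (algebraMap F L
        (lam (b * S.B (((h⁻¹ : GL ι F) : Matrix ι ι F) *ᵥ v) u)) * S.B y₀ u) =
        (lam (b * S.B (((h⁻¹ : GL ι F) : Matrix ι ι F) *ᵥ v) u)) • k₁ := by
      rw [Algebra.smul_def, ← haψ]; ring
    have h2 : b * S.B (((h⁻¹ : GL ι F) : Matrix ι ι F) *ᵥ v) u * S.B y₀' u =
        k₂ * S.B (((h⁻¹ : GL ι F) : Matrix ι ι F) *ᵥ v) u := by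
      rw [← hbψ]; ring
    rw [hAv, hBv, hlam, h1, S.φ_smul_mulVec, hk₁, ha, h2, ← S.f_act_right, hk₂,
      hMf h⁻¹ (M.inv_mem hhM)]
  have hBAv : ∀ v : ι → F, Bm *ᵥ (A *ᵥ v) = (lam' c₀ * f v d₁) • d₂ := by
    intro v
    have h1 : b * (algebraMap F L (lam' (a * S.B v u)) * S.B y₀' u) =
        (lam' (a * S.B v u)) • k₂ := by
      rw [Algebra.smul_def, ← hbψ]; ring
    have h2 : a * S.B v u * S.B y₀ u = k₁ * S.B v u := by
      rw [← haψ]; ring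
    rw [hBv, hAv, hlam', h1, S.φ_smul_mulVec, Matrix.mulVec_smul, hd₂', hb', h2,
      ← S.f_act_right, hk₁]
  have hAA : A * A = 0 := S.tE_sq u a
  have hBB : Bm * Bm = 0 := by
    have h1 : ((h⁻¹ : GL ι F) : Matrix ι ι F) * (h : Matrix ι ι F) = 1 := by
      rw [← Units.val_mul, inv_mul_cancel, Units.val_one]
    calc Bm * Bm = (h : Matrix ι ι F) * S.tE u b *
          (((h⁻¹ : GL ι F) : Matrix ι ι F) * (h : Matrix ι ι F)) * S.tE u b *
          ((h⁻¹ : GL ι F) : Matrix ι ι F) := by rw [hBm_def]; simp only [mul_assoc]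
      _ = (h : Matrix ι ι F) * (S.tE u b * S.tE u b) * ((h⁻¹ : GL ι F) : Matrix ι ι F) := by
          rw [h1, mul_one]; simp only [mul_assoc]
      _ = 0 := by rw [S.tE_sq, mul_zero, zero_mul]
  have hABA : A * Bm * A = 0 := by
    apply Matrix.mulVec_injective
    funext v
    rw [← Matrix.mulVec_mulVec, ← Matrix.mulVec_mulVec, hBAv, Matrix.mulVec_smul, hAv,
      S.B_line hd₂.1, mul_zero, S.φ_zero_mulVec, smul_zero, Matrix.zero_mulVec]
  have hBAB : Bm * A * Bm = 0 := by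
    apply Matrix.mulVec_injective
    funext v
    rw [← Matrix.mulVec_mulVec, ← Matrix.mulVec_mulVec, hABv, Matrix.mulVec_smul, hBv,
      S.B_line (mem_gim.mp hd₁.2), mul_zero, S.φ_zero_mulVec, Matrix.mulVec_zero, smul_zero,
      Matrix.zero_mulVec]
  have hkey := comm_sq_zero A Bm hAA hBB hABA hBAB
  have hTb : S.T u b ∈ M := hNM (S.T_mem_NG u b)
  have hTa : S.T u a ∈ M := hNM (S.T_mem_NG u a)
  refine ⟨S.T u a * (h * S.T u b * h⁻¹) * (S.T u a)⁻¹ * (h * (S.T u b)⁻¹ * h⁻¹), ?_, ?_⟩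
  · exact M.mul_mem (M.mul_mem (M.mul_mem hTa
      (M.mul_mem (M.mul_mem hhM hTb) (M.inv_mem hhM))) (M.inv_mem hTa))
      (M.mul_mem (M.mul_mem hhM (M.inv_mem hTb)) (M.inv_mem hhM))
  · intro x
    have hhh : (h : Matrix ι ι F) * ((h⁻¹ : GL ι F) : Matrix ι ι F) = 1 := by
      rw [← Units.val_mul, mul_inv_cancel, Units.val_one]
    have hval : ((S.T u a * (h * S.T u b * h⁻¹) * (S.T u a)⁻¹ *
        (h * (S.T u b)⁻¹ * h⁻¹) : GL ι F) : Matrix ι ι F) =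
        (1 + A) * (1 + Bm) * (1 - A) * (1 - Bm) := by
      have e1 : ((S.T u a : GL ι F) : Matrix ι ι F) = 1 + A := rfl
      have e2 : (((S.T u a)⁻¹ : GL ι F) : Matrix ι ι F) = 1 - A := rfl
      have e3 : ((S.T u b : GL ι F) : Matrix ι ι F) = 1 + S.tE u b := rfl
      have e4 : (((S.T u b)⁻¹ : GL ι F) : Matrix ι ι F) = 1 - S.tE u b := rfl
      have e5 : (h : Matrix ι ι F) * (1 + S.tE u b) * ((h⁻¹ : GL ι F) : Matrix ι ι F) =
          1 + Bm := by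
        rw [hBm_def, mul_add, add_mul, mul_one, hhh]
      have e6 : (h : Matrix ι ι F) * (1 - S.tE u b) * ((h⁻¹ : GL ι F) : Matrix ι ι F) =
          1 - Bm := by
        rw [hBm_def, mul_sub, sub_mul, mul_one, hhh]
      simp only [Units.val_mul]
      rw [e1, e2, e3, e4, e5, e6]
    have e7 : (A * Bm) *ᵥ x = A *ᵥ (Bm *ᵥ x) := by rw [Matrix.mulVec_mulVec]
    have e8 : (Bm * A) *ᵥ x = Bm *ᵥ (A *ᵥ x) := by rw [Matrix.mulVec_mulVec]
    rw [hval, hkey, Matrix.sub_mulVec, Matrix.add_mulVec, Matrix.one_mulVec, e7, e8,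
      hABv, hBAv]
    module

end Cfsg.Agent.Lib.Helper58.SpKJ
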