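import Mathlib
import Cfsg.Agent.Lib.Helper47.SpPrime
import Cfsg.Agent.Lib.Helper47.DualPoly
import Cfsg.Agent.Lib.Helper47.PrimeOrd

/-!
S5980 piece TD2-GDEF (poster helper98): a dual-invariant multiset of cyclotomic factors
(`{g₀}` or `{g₀, dualP g₀}`) with separable product.
-/

set_option autoImplicit false

namespace Cfsg.Agent.Lib.Helper98.TD2

open Matrix Polynomial
open scoped Kronecker
open Cfsg.Agent.Lib.Helper47

theorem exists_cyc_multiset {F : Type*} [Field F] [Fintype F] {p q : ℕ} [Fact p.Prime]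
    [CharP F p] (hq : Fintype.card F = q) {r : ℕ} (hr : r.Prime) (hr2 : r ≠ 2) (hrp : r ≠ p)
    (g₀ : F[X]) (hg₀ : Cfsg.Agent.Lib.Helper47.IsCycFactor r g₀) :
    ∃ s : Multiset F[X], (∀ f ∈ s, Cfsg.Agent.Lib.Helper47.IsCycFactor r f) ∧
      s.map (Cfsg.Agent.Lib.Helper47.dualP (RingHom.id F)) = s ∧
      s.prod.Separable ∧ s.prod.eval 1 ≠ 0 ∧ 1 ≤ s.prod.natDegree ∧
      s.prod.natDegree = (if Even (orderOf (q : ZMod r)) then orderOf (q : ZMod r)
        else 2 * orderOf (q : ZMod r)) := by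
  classical
  have hfact : Fact r.Prime := ⟨hr⟩
  have hσ : ∀ x, (RingHom.id F) ((RingHom.id F) x) = x := fun _ => rfl
  have hcopr : r.Coprime p := (Nat.coprime_primes hr Fact.out).mpr hrp
  have hrF : (r : F) ≠ 0 := natCast_ne_zero_of_coprime p hcopr
  obtain ⟨g', hg'def⟩ : ∃ g' : F[X], g' = dualP (RingHom.id F) g₀ := ⟨_, rfl⟩
  have hg' : IsCycFactor r g' := by
    rw [hg'def]
    exact dualP_isCycFactor p hσ hr hrp hg₀
  have hdd : dualP (RingHom.id F) g' = g₀ := by
    rw [hg'def]
    exact (dualP_props p hσ g₀ hg₀.1 (hg₀.coeff_zero_ne hr.pos)).2.2.2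
  have hiff := dualP_id_eq_self_iff hq hr hr2 hrp hg₀
  have hdeg₀ : g₀.natDegree = orderOf (q : ZMod r) := hg₀.natDegree_eq hq hr hrp
  have hdeg' : g'.natDegree = orderOf (q : ZMod r) := hg'.natDegree_eq hq hr hrp
  have hpos : 1 ≤ orderOf (q : ZMod r) := by
    rw [← hdeg₀]
    exact hg₀.2.1.natDegree_pos
  have hev : ∀ f : F[X], IsCycFactor r f → f.eval 1 ≠ 0 := by
    intro f hf h0
    obtain ⟨w, hw⟩ := hf.2.2
    have h := congrArg (eval 1) hw
    rw [eval_mul, h0, zero_mul, eval_one_cyclotomic_prime] at h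
    exact hrF h
  have hsep : ∀ f : F[X], IsCycFactor r f → f.Separable :=
    fun f hf => PerfectField.separable_of_irreducible hf.2.1
  by_cases heven : Even (orderOf (q : ZMod r))
  · refine ⟨{g₀}, ?_, ?_, ?_, ?_, ?_, ?_⟩
    · intro f hf
      rw [Multiset.mem_singleton] at hf
      rw [hf]
      exact hg₀
    · rw [Multiset.map_singleton, hiff.mpr heven]
    · rw [Multiset.prod_singleton]
      exact hsep g₀ hg₀
    · rw [Multiset.prod_singleton]
      exact hev g₀ hg₀
    · rw [Multiset.prod_singleton, hdeg₀]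
      exact hpos
    · rw [Multiset.prod_singleton, hdeg₀, if_pos heven]
  · have hne : g₀ ≠ g' := by
      intro h
      apply heven
      rw [← hiff, ← hg'def]
      exact h.symm
    have hcop : IsCoprime g₀ g' := by
      rw [hg₀.2.1.coprime_iff_not_dvd]
      intro h
      exact hne (eq_of_monic_of_associated hg₀.1 hg'.1 (hg₀.2.1.associated_of_dvd hg'.2.1 h))
    refine ⟨{g₀, g'}, ?_, ?_, ?_, ?_, ?_, ?_⟩
    · intro f hf
      rw [Multiset.insert_eq_cons, Multiset.mem_cons, Multiset.mem_singleton] at hf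
      rcases hf with hf | hf
      · rw [hf]
        exact hg₀
      · rw [hf]
        exact hg'
    · have e : ({g₀, g'} : Multiset F[X]).map (dualP (RingHom.id F)) = {g', g₀} := by
        rw [Multiset.insert_eq_cons, Multiset.map_cons, Multiset.map_singleton, hdd, ← hg'def]
        rfl
      rw [e, Multiset.pair_comm]
    · rw [Multiset.prod_pair]
      exact (hsep g₀ hg₀).mul (hsep g' hg') hcop
    · rw [Multiset.prod_pair, eval_mul]
      exact mul_ne_zero (hev g₀ hg₀) (hev g' hg')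
    · rw [Multiset.prod_pair, hg₀.1.natDegree_mul hg'.1, hdeg₀, hdeg']
      omega
    · rw [Multiset.prod_pair, hg₀.1.natDegree_mul hg'.1, hdeg₀, hdeg', if_neg heven]
      omega

end Cfsg.Agent.Lib.Helper98.TD2
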