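import Mathlib
import Cfsg.Agent.Lib.Helper47.SpPrime
import Cfsg.Agent.Lib.Helper47.DualPoly
import Cfsg.Agent.Lib.Helper47.PrimeOrd

/-!
S5980 piece TD2-SPEX (poster helper98): a symplectic matrix with `M ^ r = 1` and prescribed
characteristic polynomial `(X - 1) ^ (2d - δ) * s.prod` for a dual-invariant multiset `s` of
cyclotomic factors.
-/

set_option autoImplicit false

namespace Cfsg.Agent.Lib.Helper98.TD2

open Matrix Polynomial
open scoped Kronecker
open Cfsg.Agent.Lib.Helper47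

theorem exists_sp_cyc {F : Type*} [Field F] [Fintype F] {p : ℕ} [Fact p.Prime]
    [CharP F p] {r : ℕ} (hr : r.Prime) (hr2 : r ≠ 2) (hrp : r ≠ p)
    (d : ℕ) (s : Multiset F[X]) (hs : ∀ f ∈ s, Cfsg.Agent.Lib.Helper47.IsCycFactor r f)
    (hdual : s.map (Cfsg.Agent.Lib.Helper47.dualP (RingHom.id F)) = s)
    (hdeg : s.prod.natDegree ≤ 2 * d) :
    ∃ M : Matrix (Fin d ⊕ Fin d) (Fin d ⊕ Fin d) F, M ∈ Matrix.symplecticGroup (Fin d) F ∧
      M ^ r = 1 ∧ M.charpoly = (X - 1) ^ (2 * d - s.prod.natDegree) * s.prod := by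
  classical
  obtain ⟨P, hP⟩ : ∃ P : F[X], P = (X - 1) ^ (2 * d - s.prod.natDegree) * s.prod := ⟨_, rfl⟩
  have hsm : s.prod.Monic := by
    have := monic_multiset_prod_of_monic s id (fun f hf => (hs f hf).1)
    simpa using this
  have hX1 : (X - 1 : F[X]).natDegree = 1 := by
    have := natDegree_X_sub_C (1 : F)
    simpa using this
  have hdegP : P.natDegree = 2 * d := by
    rw [hP, (monic_X_sub_one.pow _).natDegree_mul hsm, monic_X_sub_one.natDegree_pow, hX1]
    omega
  obtain ⟨M, hMc, hMr⟩ := exists_matrix_of_factors p hr _ _ hs (hP ▸ hdegP)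
  rw [← hP] at hMc
  have hPm : P.Monic := hMc ▸ Matrix.charpoly_monic M
  have hself : dualP (RingHom.id F) P = P := by
    rw [hP, dualP_mul, dualP_pow, dualP_X_sub_one, dualP_multiset_prod, hdual]
  obtain ⟨a, ha⟩ : ∃ a : F, a = P.coeff 0 := ⟨_, rfl⟩
  have hadet : a = M.det := by
    rw [ha, ← hMc, charpoly_coeff_zero, pow_mul]; simp
  have har : a ^ r = 1 := by rw [hadet, ← Matrix.det_pow, hMr, Matrix.det_one]
  have ha0 : a ≠ 0 := by
    rintro rfl
    rw [zero_pow hr.ne_zero] at har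
    exact zero_ne_one har
  have haa : a * a = 1 := by
    have h1 := congrArg (fun Q : F[X] => Q.coeff 0) hself
    simp only [dualP, coeff_C_mul, coeff_zero_reverse, Polynomial.map_id, RingHom.id_apply,
      hPm.leadingCoeff, mul_one] at h1
    rw [← ha] at h1
    have h2 := inv_mul_cancel₀ ha0
    rwa [h1] at h2
  have ha1 : a = 1 := by
    obtain ⟨k, hk⟩ := (Nat.Prime.eq_two_or_odd' hr).resolve_left hr2
    rw [hk, pow_succ, pow_mul, pow_two, haa, one_pow, one_mul] at har
    exact har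
  have hPr : P.reverse = P := by
    have h1 := hself
    unfold dualP at h1
    rw [← ha, ha1, Polynomial.map_id] at h1
    simpa using h1
  obtain ⟨g, hgp, hgc⟩ := sp_exists_charpoly p d P hPm hdegP hPr
  have hgr' : (g : Matrix (Fin d ⊕ Fin d) (Fin d ⊕ Fin d) F) ^ r = 1 := by
    apply pow_eq_one_of_charpoly_dvd p _ (orderOf g) hgp
      (by rw [← SubmonoidClass.coe_pow, pow_orderOf_eq_one]; rfl)
      (2 * d - s.prod.natDegree + Multiset.card s)
    rw [hgc, hP]
    exact cyc_prod_dvd hr _ _ hs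
  exact ⟨g, g.2, hgr', by rw [hgc, hP]⟩

end Cfsg.Agent.Lib.Helper98.TD2
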