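import Mathlib
import Cfsg.Prelude.Def_GeometricClasses
import Cfsg.Agent.Lib.Helper98.TDBase

/-!
S5979 piece TD-BLK (poster helper98): block diagonal embedding `fromBlocks C 0 0 1` reindexed to
`Fin n`: determinant, powers, ranks.
-/

set_option autoImplicit false

namespace Cfsg.Agent.Lib.Helper98.TD

open Matrix Polynomial
open scoped Kronecker

universe u

theorem tdblk_rank_fromBlocks {L : Type*} [Field L] {m n : Type*} [Fintype m] [Fintype n]
    [DecidableEq m] [DecidableEq n] (X : Matrix m m L) (Y : Matrix n n L) :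
    (Matrix.fromBlocks X 0 0 Y).rank = X.rank + Y.rank := by
  let Φ : (↥(LinearMap.range X.mulVecLin) × ↥(LinearMap.range Y.mulVecLin)) →ₗ[L] (m ⊕ n → L) :=
    (LinearEquiv.sumArrowLequivProdArrow m n L L).symm.toLinearMap ∘ₗ
      ((LinearMap.range X.mulVecLin).subtype.prodMap (LinearMap.range Y.mulVecLin).subtype)
  have hΦ : Function.Injective Φ := by
    apply (LinearEquiv.sumArrowLequivProdArrow m n L L).symm.injective.comp
    rintro ⟨a, b⟩ ⟨a', b'⟩ h
    simp only [LinearMap.prodMap_apply, Submodule.subtype_apply, Prod.mk.injEq] at h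
    exact Prod.ext (Subtype.ext h.1) (Subtype.ext h.2)
  have hrange : LinearMap.range Φ = LinearMap.range (Matrix.fromBlocks X 0 0 Y).mulVecLin := by
    ext v
    constructor
    · rintro ⟨⟨⟨a, x, rfl⟩, ⟨b, y, rfl⟩⟩, rfl⟩
      refine ⟨Sum.elim x y, ?_⟩
      ext (i | i) <;> simp [Φ, Matrix.fromBlocks_mulVec]
    · rintro ⟨w, rfl⟩
      refine ⟨(⟨X *ᵥ (w ∘ Sum.inl), ⟨_, rfl⟩⟩, ⟨Y *ᵥ (w ∘ Sum.inr), ⟨_, rfl⟩⟩), ?_⟩
      ext (i | i) <;> simp [Φ, Matrix.fromBlocks_mulVec]
  rw [Matrix.rank, ← hrange, LinearMap.finrank_range_of_inj hΦ, Module.finrank_prod]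
  rfl

theorem tdblk_rank_smul_one {L : Type*} [Field L] {n : Type*} [Fintype n] [DecidableEq n]
    (c : L) (hc : c ≠ 0) : (c • (1 : Matrix n n L)).rank = Fintype.card n := by
  apply Matrix.rank_of_isUnit
  rw [Matrix.isUnit_iff_isUnit_det, Matrix.det_smul, Matrix.det_one, mul_one]
  exact (pow_ne_zero _ hc).isUnit

theorem tdblk_key {F : Type u} [Field F] {i n : ℕ} (ε : Fin i ⊕ Fin (n - i) ≃ Fin n)
    (C : Matrix (Fin i) (Fin i) F) (L : Type u) [Field L] [Algebra F L] (θ : L) :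
    (Matrix.reindex ε ε (Matrix.fromBlocks C 0 0
        (1 : Matrix (Fin (n - i)) (Fin (n - i)) F))).map (algebraMap F L)
      - θ • (1 : Matrix (Fin n) (Fin n) L)
    = Matrix.reindex ε ε (Matrix.fromBlocks (C.map (algebraMap F L) - θ • 1) 0 0
        ((1 - θ) • (1 : Matrix (Fin (n - i)) (Fin (n - i)) L))) := by
  have e1 : (Matrix.fromBlocks C 0 0 (1 : Matrix (Fin (n - i)) (Fin (n - i)) F)).map
        (algebraMap F L) - θ • (1 : Matrix (Fin i ⊕ Fin (n - i)) (Fin i ⊕ Fin (n - i)) L)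
      = Matrix.fromBlocks (C.map (algebraMap F L) - θ • 1) 0 0
        ((1 - θ) • (1 : Matrix (Fin (n - i)) (Fin (n - i)) L)) := by
    rw [Matrix.fromBlocks_map, ← Matrix.fromBlocks_one, Matrix.fromBlocks_smul]
    ext (a | a) (b | b) <;> simp [sub_smul, Matrix.one_apply]
  rw [← e1]
  ext a b
  simp only [Matrix.reindex_apply, Matrix.submatrix_apply, Matrix.map_apply, Matrix.sub_apply,
    Matrix.smul_apply, Matrix.one_apply]
  by_cases hab : a = b
  · subst hab
    simp
  · have hab' : ε.symm a ≠ ε.symm b := fun h => hab (ε.symm.injective h)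
    simp [hab, hab']

theorem exists_block_mat {F : Type u} [Field F] {i n : ℕ} (hin : i ≤ n) (C : Matrix (Fin i) (Fin i) F) :
    ∃ M : Matrix (Fin n) (Fin n) F, M.det = C.det ∧ (∀ k : ℕ, C ^ k = 1 → M ^ k = 1) ∧
      ∀ (L : Type u) [Field L] [Algebra F L],
        (∀ θ : L, θ ≠ 1 → (M.map (algebraMap F L) - θ • (1 : Matrix (Fin n) (Fin n) L)).rank =
          (C.map (algebraMap F L) - θ • (1 : Matrix (Fin i) (Fin i) L)).rank + (n - i)) ∧
        (M.map (algebraMap F L) - 1).rank = (C.map (algebraMap F L) - 1).rank := by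
  obtain ⟨ε, -⟩ : ∃ ε : Fin i ⊕ Fin (n - i) ≃ Fin n, True :=
    ⟨finSumFinEquiv.trans (finCongr (by omega)), trivial⟩
  refine ⟨Matrix.reindex ε ε (Matrix.fromBlocks C 0 0 1), ?_, ?_, ?_⟩
  · rw [Matrix.det_reindex_self, Matrix.det_fromBlocks_zero₂₁, Matrix.det_one, mul_one]
  · intro k hk
    have h1 := map_pow (Matrix.reindexAlgEquiv F F ε)
      (Matrix.fromBlocks C 0 0 (1 : Matrix (Fin (n - i)) (Fin (n - i)) F)) k
    rw [Matrix.fromBlocks_diagonal_pow, hk, one_pow, Matrix.fromBlocks_one, map_one] at h1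
    exact h1.symm
  · intro L _ _
    refine ⟨fun θ hθ => ?_, ?_⟩
    · rw [tdblk_key ε C L θ, Matrix.rank_reindex, tdblk_rank_fromBlocks,
        tdblk_rank_smul_one _ (sub_ne_zero.mpr (Ne.symm hθ)), Fintype.card_fin]
    · have h := tdblk_key ε C L (1 : L)
      rw [one_smul, one_smul, sub_self, zero_smul] at h
      rw [h, Matrix.rank_reindex, tdblk_rank_fromBlocks, Matrix.rank_zero, add_zero]

end Cfsg.Agent.Lib.Helper98.TD
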