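import Mathlib
import Cfsg.Prelude.Def_GeometricClasses
import Cfsg.Agent.Lib.Helper98.TDBase

/-!
S5979 piece TD-CYC (poster helper98): the companion matrix of a monic polynomial `g`
(as the matrix of multiplication by the root on `AdjoinRoot g`): `aeval C g = 0` and
`rank (C_L - θ) ≥ deg g - 1`.
-/

set_option autoImplicit false

namespace Cfsg.Agent.Lib.Helper98.TD

open Matrix Polynomial
open scoped Kronecker

universe u

theorem tdcyc_rank {L : Type*} [Field L] {d : ℕ} (N : Matrix (Fin d) (Fin d) L)
    (hsub : ∀ i j : Fin d, (i : ℕ) = j + 1 → N i j = 1)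
    (hlow : ∀ i j : Fin d, (j : ℕ) + 1 < i → N i j = 0) : d ≤ N.rank + 1 := by
  cases d with
  | zero => exact Nat.zero_le _
  | succ k =>
    have hS : (N.submatrix Fin.succ Fin.castSucc).det = 1 := by
      rw [Matrix.det_of_isUpperTriangular]
      · apply Finset.prod_eq_one
        intro i _
        rw [Matrix.submatrix_apply]
        exact hsub _ _ (by simp)
      · intro i j hij
        rw [Matrix.submatrix_apply]
        apply hlow
        have h1 : (j : ℕ) < i := hij
        rw [Fin.val_castSucc, Fin.val_succ]
        omega
    have hr : (N.submatrix Fin.succ Fin.castSucc).rank = k := by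
      rw [Matrix.rank_of_isUnit _ ((Matrix.isUnit_iff_isUnit_det _).mpr
        (by rw [hS]; exact isUnit_one)), Fintype.card_fin]
    have h2 := Matrix.rank_submatrix_le N Fin.succ Fin.castSucc
    omega

theorem exists_cyclic_mat {F : Type u} [Field F] (g : F[X]) (hg : g.Monic) (hdeg : 1 ≤ g.natDegree) :
    ∃ C : Matrix (Fin g.natDegree) (Fin g.natDegree) F, Polynomial.aeval C g = 0 ∧
      ∀ (L : Type u) [Field L] [Algebra F L] (θ : L),
        g.natDegree ≤ (C.map (algebraMap F L) -
          θ • (1 : Matrix (Fin g.natDegree) (Fin g.natDegree) L)).rank + 1 := by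
  have hC := (AdjoinRoot.powerBasis' hg).leftMulMatrix
  have hent : ∀ i j : Fin g.natDegree,
      Algebra.leftMulMatrix (AdjoinRoot.powerBasisAux' hg) (AdjoinRoot.root g) i j
        = if (j : ℕ) + 1 = g.natDegree then
            -(AdjoinRoot.powerBasis' hg).minpolyGen.coeff (i : ℕ)
          else if (i : ℕ) = j + 1 then 1 else 0 := by
    intro i j
    exact congrFun (congrFun hC i) j
  refine ⟨Algebra.leftMulMatrix (AdjoinRoot.powerBasisAux' hg) (AdjoinRoot.root g), ?_, ?_⟩
  · rw [Polynomial.aeval_algHom_apply, AdjoinRoot.aeval_eq, AdjoinRoot.mk_self, map_zero]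
  · intro L _ _ θ
    apply tdcyc_rank
    · intro i j hij
      have hne : i ≠ j := by
        intro h
        rw [h] at hij
        omega
      have hi := i.2
      rw [Matrix.sub_apply, Matrix.map_apply, hent, if_neg (by omega), if_pos hij, map_one,
        Matrix.smul_apply, Matrix.one_apply_ne hne, smul_zero, sub_zero]
    · intro i j hij
      have hne : i ≠ j := by
        intro h
        rw [h] at hij
        omega
      have hi := i.2
      rw [Matrix.sub_apply, Matrix.map_apply, hent, if_neg (by omega), if_neg (by omega),
        map_zero, Matrix.smul_apply, Matrix.one_apply_ne hne, smul_zero, sub_zero]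

end Cfsg.Agent.Lib.Helper98.TD
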