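import Mathlib
import Cfsg.Agent.Lib.Helper61.TT5Defs
import Cfsg.Agent.Lib.Helper61.TT5Basic

set_option autoImplicit false

namespace Cfsg.Agent.Lib.Helper58.TT5

open Cfsg.Agent.Lib.Helper61.TT5

variable {G : Type*} [Group G] {D : Set G}

theorem perm3_center_trivial :
    ∀ σ : Equiv.Perm (Fin 3), (∀ τ : Equiv.Perm (Fin 3), σ * τ = τ * σ) → σ = 1 := by
  decide

/-- internal direct product of two elementwise commuting subgroups with trivial intersection -/
theorem sup_mulEquiv_prod {A B : Subgroup G} (hcomm : ∀ u ∈ A, ∀ v ∈ B, Commute u v)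
    (hdisj : ∀ g ∈ A, g ∈ B → g = 1) : Nonempty (↥(A ⊔ B) ≃* ↥A × ↥B) := by
  have comm : ∀ (m : ↥A) (n : ↥B), Commute (A.subtype m) (B.subtype n) :=
    fun m n => hcomm m.1 m.2 n.1 n.2
  have hinj : Function.Injective (MonoidHom.noncommCoprod A.subtype B.subtype comm) := by
    rw [MonoidHom.noncommCoprod_injective]
    refine ⟨A.subtype_injective, B.subtype_injective, ?_⟩
    rw [disjoint_iff_inf_le]
    intro g hg
    rw [Subgroup.mem_inf, Subgroup.range_subtype, Subgroup.range_subtype] at hg
    rw [Subgroup.mem_bot]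
    exact hdisj g hg.1 hg.2
  have hrange : (MonoidHom.noncommCoprod A.subtype B.subtype comm).range = A ⊔ B := by
    rw [MonoidHom.noncommCoprod_range, Subgroup.range_subtype, Subgroup.range_subtype]
  exact ⟨(MulEquiv.subgroupCongr hrange.symm).trans (MonoidHom.ofInjective hinj).symm⟩

theorem s3s3 (hT : TS D) {x y : G} (hx : x ∈ D) (hy : y ∈ D) (hxy : x ≠ y) (hN : SameNb D x y)
    (hall : ∀ z ∈ D, z = x ∨ z = y ∨ z = x * y * x ∨ Nb D x z) :
    Nonempty (↥(Subgroup.closure D) ≃* Equiv.Perm (Fin 3) × Equiv.Perm (Fin 3)) := by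
  obtain ⟨a, b, ha, hb, hab, hline⟩ := hT.line x hx
  obtain ⟨hnc, hNa, hN3⟩ := k33 hT hx hy hxy hN ha
  obtain ⟨eA⟩ := hT.s3 a ha.1
  obtain ⟨eB⟩ := hT.s3 x hx
  -- D = N(a) ∪ N(x)
  have hD : D = {z : G | Nb D a z} ∪ {z : G | Nb D x z} := by
    ext z
    constructor
    · intro hz
      rcases hall z hz with h | h | h | h
      · left; exact (hNa z).2 (Or.inl h)
      · left; exact (hNa z).2 (Or.inr (Or.inl h))
      · left; exact (hNa z).2 (Or.inr (Or.inr h))
      · right; exact h
    · rintro (h | h)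
      · exact h.1
      · exact h.1
  have hcl : Subgroup.closure D =
      Subgroup.closure {z : G | Nb D a z} ⊔ Subgroup.closure {z : G | Nb D x z} := by
    conv_lhs => rw [hD]
    rw [Subgroup.closure_union]
  have hgen : ∀ z, Nb D a z → ∀ w, Nb D x w → Commute z w := by
    intro z hz w hw
    rcases (hNa z).1 hz with h | h | h
    · rw [h]; exact hw.2.2
    · rw [h]; exact ((hN w).1 hw).2.2
    · rw [h]; exact ((hN3 w).1 hw).2.2
  have hcomm : ∀ u ∈ Subgroup.closure {z : G | Nb D a z},
      ∀ v ∈ Subgroup.closure {z : G | Nb D x z}, Commute u v := by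
    intro u hu v hv
    have h1 : Subgroup.closure {z : G | Nb D x z} ≤
        Subgroup.centralizer ((Subgroup.closure {z : G | Nb D a z} : Subgroup G) : Set G) := by
      rw [Subgroup.closure_le]
      intro w hw
      rw [SetLike.mem_coe, Subgroup.mem_centralizer_iff]
      intro g hg
      have h2 : Subgroup.closure {z : G | Nb D a z} ≤ Subgroup.centralizer ({w} : Set G) := by
        rw [Subgroup.closure_le]
        intro z hz
        rw [SetLike.mem_coe, Subgroup.mem_centralizer_iff]
        intro k hk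
        rw [Set.mem_singleton_iff] at hk
        rw [hk]
        exact ((hgen z hz w hw).eq).symm
      have h3 := h2 hg
      rw [Subgroup.mem_centralizer_iff] at h3
      exact (h3 w rfl).symm
    have h4 := h1 hv
    rw [Subgroup.mem_centralizer_iff] at h4
    exact h4 u hu
  have hdisj : ∀ g ∈ Subgroup.closure {z : G | Nb D a z},
      g ∈ Subgroup.closure {z : G | Nb D x z} → g = 1 := by
    intro g hgA hgB
    have h1 : eB ⟨g, hgB⟩ = 1 := by
      apply perm3_center_trivial
      intro τ
      obtain ⟨v, rfl⟩ := eB.surjective τ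
      rw [← map_mul, ← map_mul]
      congr 1
      apply Subtype.ext
      exact (hcomm g hgA v.1 v.2).eq
    have h2 : (⟨g, hgB⟩ : ↥(Subgroup.closure {z : G | Nb D x z})) = 1 := by
      apply eB.injective
      rw [h1, map_one]
    exact congrArg Subtype.val h2
  obtain ⟨e⟩ := sup_mulEquiv_prod hcomm hdisj
  exact ⟨((MulEquiv.subgroupCongr hcl).trans e).trans (MulEquiv.prodCongr eA eB)⟩

end Cfsg.Agent.Lib.Helper58.TT5
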