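import Mathlib
import Cfsg.Agent.Lib.Helper61.TT5Defs
import Cfsg.Agent.Lib.Helper61.TT5Basic

set_option autoImplicit false

namespace Cfsg.Agent.Lib.Helper58.TT5

open Cfsg.Agent.Lib.Helper61.TT5

variable {G : Type*} [Group G] {D : Set G}

/-- two distinct neighbours of a point do not commute -/
theorem nb_not_commute (hT : TS D) {d p q : G} (hd : d ∈ D) (hp : Nb D d p) (hq : Nb D d q)
    (hpq : p ≠ q) : ¬ Commute p q := by
  obtain ⟨a, b, ha, hb, hab, hall⟩ := hT.line d hd
  have haa := hT.sq a ha.1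
  have hbb := hT.sq b hb.1
  have hbr : a * b * a = b * a * b := hT.braid_of_not_commute ha.1 hb.1 hab
  -- `a` does not commute with `a * b * a`
  have h1 : ¬ Commute a (a * b * a) := by
    intro h
    apply hab
    have e : a * (a * b * a) = a * b * a * a := h.eq
    have e1 : a * (a * b * a) = b * a := by
      rw [← mul_assoc, ← mul_assoc, haa, one_mul]
    have e2 : a * b * a * a = a * b := by
      rw [mul_assoc, haa, mul_one]
    rw [e1, e2] at e
    exact e.symm
  have h2 : ¬ Commute b (a * b * a) := by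
    intro h
    apply hab
    rw [hbr] at h
    have e : b * (b * a * b) = b * a * b * b := h.eq
    have e1 : b * (b * a * b) = a * b := by
      rw [← mul_assoc, ← mul_assoc, hbb, one_mul]
    have e2 : b * a * b * b = b * a := by
      rw [mul_assoc, hbb, mul_one]
    rw [e1, e2] at e
    exact e
  rcases hall p hp with rfl | rfl | rfl <;> rcases hall q hq with rfl | rfl | rfl
  · exact absurd rfl hpq
  · exact hab
  · exact h1
  · exact fun h => hab h.symm.eq
  · exact absurd rfl hpq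
  · exact h2
  · exact fun h => h1 h.symm
  · exact fun h => h2 h.symm
  · exact absurd rfl hpq

theorem caseB (hT : TS D) (hne : D.Nonempty)
    (hinj : ∀ x ∈ D, ∀ y ∈ D, SameNb D x y → x = y) (hNI : NIProp D) (hCox : CoxProp G) :
    Nonempty (↥(Subgroup.closure D) ≃* Equiv.Perm (Fin 5)) := by
  obtain ⟨d, hd⟩ := hne
  obtain ⟨a, c, ha, hc, hac, hline⟩ := hT.line d hd
  obtain ⟨a', b', ha', hb', hab', -⟩ := hT.line c hc.1
  have hex : ∃ x, Nb D c x ∧ x ≠ d := by
    by_cases h : a' = d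
    · exact ⟨b', hb', fun e => hab' (by rw [h, e])⟩
    · exact ⟨a', ha', h⟩
  obtain ⟨x, hx, hxd⟩ := hex
  have hcd : Nb D c d := Nb.symm hd hc
  have hxd' : ¬ Commute x d := nb_not_commute hT hc.1 hx hcd hxd
  have hdx : d * x ≠ x * d := fun e => hxd' (Eq.symm e)
  have hxa : ¬ Commute x a := by
    intro h
    have hxa' : x ≠ a := by
      intro e
      apply hac
      rw [← e]
      exact hx.2.2.eq.symm
    have hax : Nb D a x := ⟨hx.1, hxa', h.symm⟩
    have had : Nb D a d := Nb.symm hd ha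
    have hNa := line3 hT ha.1 had hax hdx
    have hNc := line3 hT hc.1 hcd hx hdx
    have hS : SameNb D a c := by
      intro z
      constructor
      · intro hz
        rcases hNa z hz with rfl | rfl | rfl
        · exact hcd
        · exact hx
        · exact nb_aba hT hcd hx
      · intro hz
        rcases hNc z hz with rfl | rfl | rfl
        · exact had
        · exact hax
        · exact nb_aba hT had hax
    apply hac
    rw [hinj a ha.1 c hc.1 hS]
  obtain ⟨f, hf, f01, f12, f23, f34⟩ := hCox d x a c (hT.sq d hd) (hT.sq x hx.1) (hT.sq a ha.1)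
    (hT.sq c hc.1) (hT.braid_of_not_commute hd hx.1 (fun h => hxd' h.symm))
    (hT.braid_of_not_commute hx.1 ha.1 hxa) (hT.braid_of_not_commute ha.1 hc.1 hac)
    ha.2.2.eq hc.2.2.eq hx.2.2.eq.symm ha.2.1.symm
  have f24 : f (Equiv.swap 2 4) = a * c * a := by
    have e : (Equiv.swap (2 : Fin 5) 4) = Equiv.swap 2 3 * Equiv.swap 3 4 * Equiv.swap 2 3 := by
      decide
    rw [e, map_mul, map_mul, f23, f34]
  -- swaps map into `D`
  have hswap : ∀ σ : Equiv.Perm (Fin 5), σ.IsSwap → f σ ∈ D := by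
    rintro σ ⟨i, j, hij, rfl⟩
    have hc' : IsConj (Equiv.swap (0 : Fin 5) 1) (Equiv.swap i j) :=
      Equiv.Perm.isConj_swap (by decide) hij
    obtain ⟨g, hg⟩ := isConj_iff.1 hc'
    rw [← hg, map_mul, map_mul, map_inv, f01]
    exact hT.conj (f g) d hd
  have key : ∀ σ τ1 τ2 τ3 : Equiv.Perm (Fin 5), σ.IsSwap → τ1.IsSwap → τ2.IsSwap → τ3.IsSwap →
      τ1 ≠ σ → τ2 ≠ σ → τ3 ≠ σ → τ1 ≠ τ2 → τ1 ≠ τ3 → τ2 ≠ τ3 →
      σ * τ1 = τ1 * σ → σ * τ2 = τ2 * σ → σ * τ3 = τ3 * σ →
      ∀ y, Nb D (f σ) y → ∃ τ : Equiv.Perm (Fin 5), τ.IsSwap ∧ f τ = y := by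
    intro σ τ1 τ2 τ3 hσ h1 h2 h3 n1 n2 n3 n12 n13 n23 c1 c2 c3 y hy
    have nb : ∀ τ : Equiv.Perm (Fin 5), τ.IsSwap → τ ≠ σ → σ * τ = τ * σ →
        Nb D (f σ) (f τ) := by
      intro τ hτ hne hc
      refine ⟨hswap τ hτ, fun e => hne (hf e), ?_⟩
      show f σ * f τ = f τ * f σ
      rw [← map_mul, ← map_mul, hc]
    rcases three_nb hT (hswap σ hσ) (nb τ1 h1 n1 c1) (nb τ2 h2 n2 c2) (nb τ3 h3 n3 c3)
      (fun e => n12 (hf e)) (fun e => n13 (hf e)) (fun e => n23 (hf e)) y hy with rfl | rfl | rfl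
    · exact ⟨τ1, h1, rfl⟩
    · exact ⟨τ2, h2, rfl⟩
    · exact ⟨τ3, h3, rfl⟩
  have sw : ∀ i j : Fin 5, i ≠ j → (Equiv.swap i j).IsSwap := fun i j h => ⟨i, j, h, rfl⟩
  have Nd : ∀ y, Nb D d y → ∃ τ : Equiv.Perm (Fin 5), τ.IsSwap ∧ f τ = y := by
    intro y hy
    rw [← f01] at hy
    exact key (Equiv.swap 0 1) (Equiv.swap 2 3) (Equiv.swap 3 4) (Equiv.swap 2 4)
      (sw _ _ (by decide)) (sw _ _ (by decide)) (sw _ _ (by decide)) (sw _ _ (by decide))
      (by decide) (by decide) (by decide) (by decide) (by decide) (by decide)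
      (by decide) (by decide) (by decide) y hy
  have Na : ∀ y, Nb D a y → ∃ τ : Equiv.Perm (Fin 5), τ.IsSwap ∧ f τ = y := by
    intro y hy
    rw [← f23] at hy
    exact key (Equiv.swap 2 3) (Equiv.swap 0 1) (Equiv.swap 0 4) (Equiv.swap 1 4)
      (sw _ _ (by decide)) (sw _ _ (by decide)) (sw _ _ (by decide)) (sw _ _ (by decide))
      (by decide) (by decide) (by decide) (by decide) (by decide) (by decide)
      (by decide) (by decide) (by decide) y hy
  have Nc : ∀ y, Nb D c y → ∃ τ : Equiv.Perm (Fin 5), τ.IsSwap ∧ f τ = y := by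
    intro y hy
    rw [← f34] at hy
    exact key (Equiv.swap 3 4) (Equiv.swap 0 1) (Equiv.swap 0 2) (Equiv.swap 1 2)
      (sw _ _ (by decide)) (sw _ _ (by decide)) (sw _ _ (by decide)) (sw _ _ (by decide))
      (by decide) (by decide) (by decide) (by decide) (by decide) (by decide)
      (by decide) (by decide) (by decide) y hy
  have Naca : ∀ y, Nb D (a * c * a) y → ∃ τ : Equiv.Perm (Fin 5), τ.IsSwap ∧ f τ = y := by
    intro y hy
    rw [← f24] at hy
    exact key (Equiv.swap 2 4) (Equiv.swap 0 1) (Equiv.swap 0 3) (Equiv.swap 1 3)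
      (sw _ _ (by decide)) (sw _ _ (by decide)) (sw _ _ (by decide)) (sw _ _ (by decide))
      (by decide) (by decide) (by decide) (by decide) (by decide) (by decide)
      (by decide) (by decide) (by decide) y hy
  have haca : Nb D d (a * c * a) := nb_aba hT ha hc
  -- every member of `D` is the image of a swap
  have hall : ∀ e ∈ D, ∃ τ : Equiv.Perm (Fin 5), τ.IsSwap ∧ f τ = e := by
    intro e he
    by_cases hed : e = d
    · exact ⟨Equiv.swap 0 1, sw _ _ (by decide), by rw [f01, hed]⟩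
    by_cases hde : Commute d e
    · exact Nd e ⟨he, hed, hde⟩
    by_cases h1 : Commute a e
    · exact Na e ⟨he, fun h => hde (by rw [h]; exact ha.2.2), h1⟩
    by_cases h2 : Commute c e
    · exact Nc e ⟨he, fun h => hde (by rw [h]; exact hc.2.2), h2⟩
    by_cases h3 : Commute (a * c * a) e
    · exact Naca e ⟨he, fun h => hde (by rw [h]; exact haca.2.2), h3⟩
    exfalso
    obtain ⟨hne', hS⟩ := hNI d a c e hd ha hc hac he hde h1 h2 h3
    exact hne' (hinj e he _ (hT.conj (a * c) e he) hS).symm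
  have hD : D = f '' {σ : Equiv.Perm (Fin 5) | σ.IsSwap} := by
    ext e
    constructor
    · intro he
      obtain ⟨τ, hτ, rfl⟩ := hall e he
      exact ⟨τ, hτ, rfl⟩
    · rintro ⟨τ, hτ, rfl⟩
      exact hswap τ hτ
  have hcl : Subgroup.closure D = f.range := by
    conv_lhs => rw [hD]
    rw [← MonoidHom.map_closure, Equiv.Perm.closure_isSwap, ← MonoidHom.range_eq_map]
  exact ⟨(MulEquiv.subgroupCongr hcl).trans (MonoidHom.ofInjective hf).symm⟩

end Cfsg.Agent.Lib.Helper58.TT5
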