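import Mathlib

/-!
S1624 piece OQ (poster helper9): orbits of a point stabiliser on the coset space and on the orbit
have the same size.
-/

namespace Cfsg.Agent.Lib.Helper58.U33OQ

theorem orbit_quot_ncard {G X : Type*} [Group G] [MulAction G X] (b : X) (g : G) :
    (MulAction.orbit ↥(MulAction.stabilizer G b)
        ((g : G) : G ⧸ MulAction.stabilizer G b)).ncard =
      (MulAction.orbit ↥(MulAction.stabilizer G b) (g • b)).ncard := by
  have hinj := MulAction.injective_ofQuotientStabilizer G b
  have himg : (MulAction.ofQuotientStabilizer G b) ''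
      (MulAction.orbit ↥(MulAction.stabilizer G b) ((g : G) : G ⧸ MulAction.stabilizer G b))
      = MulAction.orbit ↥(MulAction.stabilizer G b) (g • b) := by
    ext x
    constructor
    · rintro ⟨_, ⟨h, rfl⟩, rfl⟩
      refine ⟨h, ?_⟩
      change (h : G) • g • b
        = MulAction.ofQuotientStabilizer G b ((h : G) • (g : G ⧸ MulAction.stabilizer G b))
      rw [MulAction.ofQuotientStabilizer_smul, MulAction.ofQuotientStabilizer_mk]
    · rintro ⟨h, rfl⟩
      refine ⟨h • (g : G ⧸ MulAction.stabilizer G b), ⟨h, rfl⟩, ?_⟩
      change MulAction.ofQuotientStabilizer G b ((h : G) • (g : G ⧸ MulAction.stabilizer G b))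
        = (h : G) • g • b
      rw [MulAction.ofQuotientStabilizer_smul, MulAction.ofQuotientStabilizer_mk]
  rw [← himg, Set.ncard_image_of_injective _ hinj]

end Cfsg.Agent.Lib.Helper58.U33OQ
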