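import Mathlib

/-!
S1624 piece TWO (poster helper9): two orbits of prescribed sizes from a partition certificate.
-/

namespace Cfsg.Agent.Lib.Helper58.U33TWO

theorem two_orbits {H X : Type*} [Group H] [Finite H] [MulAction H X] (T : ℕ → X) (n : ℕ)
    (hinj : ∀ k < n, ∀ k' < n, T k = T k' → k = k')
    (hclosed : ∀ h : H, ∀ k < n, ∃ k' < n, h • T k = T k')
    (hfix : ∀ h : H, h • T 0 = T 0)
    (C1 C2 : Finset ℕ) (a b : ℕ) (ha : a ∈ C1) (hb : b ∈ C2)
    (hC1 : ∀ k ∈ C1, 1 ≤ k ∧ k < n) (hC2 : ∀ k ∈ C2, 1 ≤ k ∧ k < n)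
    (hdisj : Disjoint C1 C2) (hcard : C1.card + C2.card + 1 = n)
    (h1 : ∀ k ∈ C1, T k ∈ MulAction.orbit H (T a))
    (h2 : ∀ k ∈ C2, T k ∈ MulAction.orbit H (T b))
    (hdvd : ¬ (n - 1) ∣ Nat.card H) :
    (MulAction.orbit H (T a)).ncard = C1.card ∧ (MulAction.orbit H (T b)).ncard = C2.card := by
  classical
  have hU : C1 ∪ C2 = Finset.Ico 1 n := by
    apply Finset.eq_of_subset_of_card_le
    · intro k hk
      rw [Finset.mem_union] at hk
      rw [Finset.mem_Ico]
      rcases hk with hk | hk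
      · exact hC1 k hk
      · exact hC2 k hk
    · rw [Finset.card_union_of_disjoint hdisj, Nat.card_Ico]
      omega
  have hmemU : ∀ k, 1 ≤ k → k < n → k ∈ C1 ∨ k ∈ C2 := by
    intro k hk1 hkn
    have h : k ∈ C1 ∪ C2 := by
      rw [hU, Finset.mem_Ico]
      exact ⟨hk1, hkn⟩
    exact Finset.mem_union.mp h
  have horb : ∀ k, 1 ≤ k → k < n → ∀ x ∈ MulAction.orbit H (T k),
      ∃ k', 1 ≤ k' ∧ k' < n ∧ x = T k' := by
    intro k hk1 hkn x hx
    obtain ⟨h, rfl⟩ := hx
    obtain ⟨k', hk'n, hk'⟩ := hclosed h k hkn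
    refine ⟨k', ?_, hk'n, hk'⟩
    by_contra hcon
    have hk'0 : k' = 0 := by omega
    rw [hk'0] at hk'
    have e : T k = T 0 := by
      have h' : T k = h⁻¹ • T 0 := by rw [← hk', inv_smul_smul]
      rw [h', hfix]
    have h0 := hinj k hkn 0 (by omega) e
    omega
  have hTinj : Set.InjOn T (↑(Finset.Ico 1 n) : Set ℕ) := by
    intro x hx y hy hxy
    rw [Finset.mem_coe, Finset.mem_Ico] at hx hy
    exact hinj x hx.2 y hy.2 hxy
  have key : ∀ (C D : Finset ℕ) (c d : ℕ), (∀ k ∈ C, 1 ≤ k ∧ k < n) → (∀ k ∈ D, 1 ≤ k ∧ k < n) →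
      c ∈ C → d ∈ D → (∀ k, 1 ≤ k → k < n → k ∈ C ∨ k ∈ D) →
      (∀ k ∈ C, T k ∈ MulAction.orbit H (T c)) → (∀ k ∈ D, T k ∈ MulAction.orbit H (T d)) →
      (MulAction.orbit H (T c)).ncard = C.card := by
    intro C D c d hC hD hc hd hCD hc1 hd1
    have hdis : ∀ x ∈ MulAction.orbit H (T c), x ∉ MulAction.orbit H (T d) := by
      intro x hxc hxd
      have e1 : MulAction.orbit H x = MulAction.orbit H (T c) := MulAction.orbit_eq_iff.mpr hxc
      have e2 : MulAction.orbit H x = MulAction.orbit H (T d) := MulAction.orbit_eq_iff.mpr hxd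
      have e3 : MulAction.orbit H (T d) = MulAction.orbit H (T c) := e2.symm.trans e1
      have e4 : MulAction.orbit H (T c) = T '' (↑(Finset.Ico 1 n) : Set ℕ) := by
        apply Set.Subset.antisymm
        · intro y hy
          obtain ⟨k', hk1, hkn, hk'⟩ := horb c (hC c hc).1 (hC c hc).2 y hy
          exact ⟨k', by rw [Finset.mem_coe, Finset.mem_Ico]; exact ⟨hk1, hkn⟩, hk'.symm⟩
        · rintro _ ⟨k, hk, rfl⟩
          rw [Finset.mem_coe, Finset.mem_Ico] at hk
          rcases hCD k hk.1 hk.2 with h | h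
          · exact hc1 k h
          · rw [← e3]
            exact hd1 k h
      have e5 : (MulAction.orbit H (T c)).ncard = n - 1 := by
        rw [e4, hTinj.ncard_image, Set.ncard_coe_finset, Nat.card_Ico]
      apply hdvd
      rw [← e5, ← MulAction.index_stabilizer]
      exact Subgroup.index_dvd_card _
    have e6 : MulAction.orbit H (T c) = T '' (↑C : Set ℕ) := by
      apply Set.Subset.antisymm
      · intro y hy
        obtain ⟨k', hk1, hkn, hk'⟩ := horb c (hC c hc).1 (hC c hc).2 y hy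
        rcases hCD k' hk1 hkn with h | h
        · exact ⟨k', Finset.mem_coe.mpr h, hk'.symm⟩
        · exfalso
          apply hdis y hy
          rw [hk']
          exact hd1 k' h
      · rintro _ ⟨k, hk, rfl⟩
        exact hc1 k (Finset.mem_coe.mp hk)
    have hCinj : Set.InjOn T (↑C : Set ℕ) := by
      intro x hx y hy hxy
      rw [Finset.mem_coe] at hx hy
      exact hinj x (hC x hx).2 y (hC y hy).2 hxy
    rw [e6, hCinj.ncard_image, Set.ncard_coe_finset]
  refine ⟨key C1 C2 a b hC1 hC2 ha hb hmemU h1 h2, key C2 C1 b a hC2 hC1 hb ha ?_ h2 h1⟩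
  intro k hk1 hkn
  exact (hmemU k hk1 hkn).symm

end Cfsg.Agent.Lib.Helper58.U33TWO
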