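import Mathlib
import Cfsg.Prelude.Def_GeometricClasses
import Cfsg.Prelude.Def_ClassicalGeometry
import Cfsg.Prelude.Def_LieClassical
import Cfsg.Agent.Lib.Helper98.U84Defs
import Cfsg.Agent.Lib.Helper47.SUConj
import Cfsg.Agent.Lib.Helper93.SUPair

/-!
S5984 piece U84-BRIDGE (poster helper98): elements of `GU ⊓ specialLinear` (inside `GL`) with
equal characteristic polynomial and order prime to `p` are conjugate there.
-/

set_option autoImplicit false

namespace Cfsg.Agent.Lib.Helper98.U84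

open Matrix Polynomial

theorem su_conj_of_charpoly {F : Type*} [Field F] [Fintype F] {p q n : ℕ} [Fact p.Prime]
    [CharP F p] (hF : Fintype.card F = q ^ 2) (x y : GL (Fin n) F)
    (hx : x ∈ Cfsg.GU n F q ⊓ Cfsg.Geo.specialLinear (Fin n) F)
    (hy : y ∈ Cfsg.GU n F q ⊓ Cfsg.Geo.specialLinear (Fin n) F)
    (k : ℕ) (hk : k.Coprime p) (hxk : x ^ k = 1) (hyk : y ^ k = 1)
    (hc : (x : Matrix (Fin n) (Fin n) F).charpoly = (y : Matrix (Fin n) (Fin n) F).charpoly) :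
    ∃ g ∈ Cfsg.GU n F q ⊓ Cfsg.Geo.specialLinear (Fin n) F, g⁻¹ * x * g = y := by
  have hxd : (x : Matrix (Fin n) (Fin n) F).det = 1 :=
    (Cfsg.Agent.Lib.Helper93.mem_sl_iff x).mp hx.2
  have hyd : (y : Matrix (Fin n) (Fin n) F).det = 1 :=
    (Cfsg.Agent.Lib.Helper93.mem_sl_iff y).mp hy.2
  obtain ⟨x', hx'⟩ : ∃ x' : ↥(Cfsg.SU n F q),
      ((x' : Matrix.SpecialLinearGroup (Fin n) F) : Matrix (Fin n) (Fin n) F)
        = (x : Matrix (Fin n) (Fin n) F) :=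
    ⟨⟨⟨(x : Matrix (Fin n) (Fin n) F), hxd⟩, fun u v => hx.1 u v⟩, rfl⟩
  obtain ⟨y', hy'⟩ : ∃ y' : ↥(Cfsg.SU n F q),
      ((y' : Matrix.SpecialLinearGroup (Fin n) F) : Matrix (Fin n) (Fin n) F)
        = (y : Matrix (Fin n) (Fin n) F) :=
    ⟨⟨⟨(y : Matrix (Fin n) (Fin n) F), hyd⟩, fun u v => hy.1 u v⟩, rfl⟩
  have hpow : ∀ (w : ↥(Cfsg.SU n F q)) (j : ℕ),
      (((w ^ j : ↥(Cfsg.SU n F q)) : Matrix.SpecialLinearGroup (Fin n) F) :
        Matrix (Fin n) (Fin n) F)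
        = ((w : Matrix.SpecialLinearGroup (Fin n) F) : Matrix (Fin n) (Fin n) F) ^ j := by
    intro w j
    rw [SubgroupClass.coe_pow, Matrix.SpecialLinearGroup.coe_pow]
  have hone : (((1 : ↥(Cfsg.SU n F q)) : Matrix.SpecialLinearGroup (Fin n) F) :
      Matrix (Fin n) (Fin n) F) = 1 := rfl
  have hx'k : x' ^ k = 1 := by
    apply Subtype.ext
    apply Subtype.ext
    have h1 := hpow x' k
    rw [hx', ← Units.val_pow_eq_pow_val, hxk, Units.val_one] at h1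
    exact h1.trans hone.symm
  have hy'k : y' ^ k = 1 := by
    apply Subtype.ext
    apply Subtype.ext
    have h1 := hpow y' k
    rw [hy', ← Units.val_pow_eq_pow_val, hyk, Units.val_one] at h1
    exact h1.trans hone.symm
  have hc' : ((x' : Matrix.SpecialLinearGroup (Fin n) F) : Matrix (Fin n) (Fin n) F).charpoly
      = ((y' : Matrix.SpecialLinearGroup (Fin n) F) : Matrix (Fin n) (Fin n) F).charpoly := by
    rw [hx', hy']
    exact hc
  have hconj := Cfsg.Agent.Lib.Helper47.su_isConj_of_charpoly_eq hF p n x' y' k k hk hk hx'k hy'k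
    hc'
  obtain ⟨c, hcxy⟩ := isConj_iff.mp hconj
  obtain ⟨Cm, hCm⟩ : ∃ Cm : Matrix (Fin n) (Fin n) F,
      Cm = ((c : Matrix.SpecialLinearGroup (Fin n) F) : Matrix (Fin n) (Fin n) F) := ⟨_, rfl⟩
  obtain ⟨Ci, hCi⟩ : ∃ Ci : Matrix (Fin n) (Fin n) F,
      Ci = (((c⁻¹ : ↥(Cfsg.SU n F q)) : Matrix.SpecialLinearGroup (Fin n) F) :
        Matrix (Fin n) (Fin n) F) := ⟨_, rfl⟩
  have hCC : Ci * Cm = 1 := by
    have h1 : (((c⁻¹ * c : ↥(Cfsg.SU n F q)) : Matrix.SpecialLinearGroup (Fin n) F) :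
        Matrix (Fin n) (Fin n) F) = Ci * Cm := by
      rw [hCi, hCm]
      rfl
    rw [← h1, inv_mul_cancel]
    rfl
  have hmat : (y : Matrix (Fin n) (Fin n) F) = Cm * (x : Matrix (Fin n) (Fin n) F) * Ci := by
    have h1 : (((c * x' * c⁻¹ : ↥(Cfsg.SU n F q)) : Matrix.SpecialLinearGroup (Fin n) F) :
        Matrix (Fin n) (Fin n) F)
        = Cm * ((x' : Matrix.SpecialLinearGroup (Fin n) F) : Matrix (Fin n) (Fin n) F) * Ci := by
      rw [hCm, hCi]
      rfl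
    rw [hcxy, hy', hx'] at h1
    exact h1
  have hCipres : Cfsg.Agent.Lib.Helper7.suPres q n Ci := by
    rw [hCi]
    exact fun u v => (c⁻¹).2 u v
  have hCidet : Ci.det = 1 := by
    rw [hCi]
    exact (c⁻¹ : ↥(Cfsg.SU n F q)).1.2
  obtain ⟨t, htval, htmem⟩ := Cfsg.Agent.Lib.Helper93.exists_gl_of_pres hCipres hCidet
  refine ⟨t, htmem, ?_⟩
  have hxt : x * t = t * y := by
    apply Units.ext
    rw [Units.val_mul, Units.val_mul, htval, hmat, ← Matrix.mul_assoc, ← Matrix.mul_assoc, hCC,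
      Matrix.one_mul]
  rw [mul_assoc, hxt, ← mul_assoc, inv_mul_cancel, one_mul]

end Cfsg.Agent.Lib.Helper98.U84
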