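import Mathlib
import Cfsg.Prelude.Def_GeometricClasses
import Cfsg.Prelude.Def_ClassicalGeometry
import Cfsg.Prelude.Def_LieClassical
import Cfsg.Agent.Lib.Helper98.U84Defs
import Cfsg.Agent.Lib.Helper47.InvSL

/-!
S5984 piece U84-CP2 (poster helper98): a matrix with `M * M = lam ^ 2 • 1` has characteristic
polynomial `(X - lam) ^ a * (X + lam) ^ b` and determinant `lam ^ a * (-lam) ^ b`.
-/

set_option autoImplicit false

namespace Cfsg.Agent.Lib.Helper98.U84

open Matrix Polynomial

theorem charpoly_of_sq {F : Type*} [Field F] {n : ℕ} (h2 : (2 : F) ≠ 0)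
    (M : Matrix (Fin n) (Fin n) F) (lam : F) (hlam : lam ≠ 0)
    (hM : M * M = (lam ^ 2) • (1 : Matrix (Fin n) (Fin n) F)) :
    ∃ a b : ℕ, a + b = n ∧ M.charpoly = (X - C lam) ^ a * (X - C (-lam)) ^ b ∧
      M.det = lam ^ a * (-lam) ^ b := by
  have hcc : lam ≠ -lam := by
    intro h
    have h' : (2 : F) * lam = 0 := by linear_combination h
    rcases mul_eq_zero.mp h' with h'' | h''
    · exact h2 h''
    · exact hlam h''
  have haevz : aeval (toLin' M) (X ^ 2 - C (lam ^ 2) : F[X]) = 0 := by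
    rw [map_sub, map_pow, aeval_X, aeval_C, ← Matrix.toLin'_pow, pow_two, hM]
    apply LinearMap.ext
    intro v
    simp [Algebra.algebraMap_eq_smul_one]
  have haev : aeval (toLin' M) ((X - C lam) * (X - C (-lam)) : F[X]) = 0 := by
    have e : ((X - C lam) * (X - C (-lam)) : F[X]) = X ^ 2 - C (lam ^ 2) := by
      rw [map_neg, map_pow]
      ring
    rw [e]
    exact haevz
  obtain ⟨-, a, b, hab⟩ :=
    Cfsg.Agent.Lib.Helper47.charpoly_two_roots (Fin n → F) (toLin' M) lam (-lam) hcc haev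
  have hab' : M.charpoly = (X - C lam) ^ a * (X - C (-lam)) ^ b := by
    rw [← Matrix.charpoly_toLin']
    exact hab
  have hn : a + b = n := by
    have h := congrArg natDegree hab
    rw [LinearMap.charpoly_natDegree, Module.finrank_fintype_fun_eq_card, Fintype.card_fin,
      natDegree_mul (pow_ne_zero _ (X_sub_C_ne_zero lam)) (pow_ne_zero _ (X_sub_C_ne_zero (-lam))),
      natDegree_pow, natDegree_pow, natDegree_X_sub_C, natDegree_X_sub_C] at h
    omega
  refine ⟨a, b, hn, hab', ?_⟩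
  have hc0 : M.charpoly.coeff 0 = (-lam) ^ a * lam ^ b := by
    rw [coeff_zero_eq_eval_zero, hab', eval_mul, eval_pow, eval_pow, eval_sub, eval_sub, eval_X,
      eval_C, eval_C]
    ring
  have h1 := Matrix.det_eq_sign_charpoly_coeff M
  have hpow : (-1 : F) ^ n = (-1) ^ a * (-1) ^ b := by rw [← hn, pow_add]
  rw [Fintype.card_fin, hc0, hpow] at h1
  rw [h1]
  have e1 : (-lam) ^ a = (-1) ^ a * lam ^ a := by rw [neg_pow]
  have e2 : (-lam) ^ b = (-1) ^ b * lam ^ b := by rw [neg_pow]
  have e3 : ((-1 : F) ^ a) * (-1) ^ a = 1 := by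
    rw [← mul_pow]
    simp
  rw [e1, e2]
  linear_combination (lam ^ a * lam ^ b * (-1) ^ b) * e3

end Cfsg.Agent.Lib.Helper98.U84
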