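import Mathlib
import Cfsg.Prelude.Def_GeometricClasses
import Cfsg.Prelude.Def_ClassicalGeometry
import Cfsg.Prelude.Def_LieClassical
import Cfsg.Agent.Lib.Helper98.U84Defs
import Cfsg.Agent.Lib.Helper60.U3Base

/-!
S5984 piece U84-EMB (poster helper98): `GL_m(F)` embeds in the stabiliser (in `GU_n(q)`) of a
pair of complementary totally singular subspaces, so its order divides the order of the
stabiliser.
-/

set_option autoImplicit false

namespace Cfsg.Agent.Lib.Helper98.U84

open Matrix Polynomial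
open Cfsg.Agent.Lib.Helper60 (frobQ frobQ_apply frobQ_frobQ)

theorem card_gl_dvd_stab {F : Type*} [Field F] [Fintype F] {q n m : ℕ}
    (hF : Fintype.card F = q ^ 2) (D : Fin 2 → Submodule F (Fin n → F))
    (Pm : Matrix (Fin n) (Fin m ⊕ Fin m) F) (Pi : Matrix (Fin m ⊕ Fin m) (Fin n) F)
    (hP : Adapted q D Pm Pi) (hB : BlockOK q D Pm Pi) :
    Nat.card (GL (Fin m) F) ∣
      Nat.card ↥(Cfsg.Geo.decompositionStabilizer D ⊓ Cfsg.GU n F q) := by
  classical
  have hqq : ∀ x : F, (x ^ q) ^ q = x := fun x => frobQ_frobQ hF x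
  obtain ⟨β, hβ⟩ : ∃ β : GL (Fin m) F → Matrix (Fin m) (Fin m) F,
      ∀ A, β A = (((A⁻¹ : GL (Fin m) F) : Matrix (Fin m) (Fin m) F)ᵀ).map (frobQ hF) :=
    ⟨_, fun _ => rfl⟩
  have hβmul : ∀ A A' : GL (Fin m) F, β (A * A') = β A * β A' := by
    intro A A'
    rw [hβ, hβ, hβ, _root_.mul_inv_rev, Units.val_mul, Matrix.transpose_mul, Matrix.map_mul]
  have hcond : ∀ A : GL (Fin m) F,
      (A : Matrix (Fin m) (Fin m) F)ᵀ * (β A).map (· ^ q) = 1 := by
    intro A
    have e : (β A).map (· ^ q) = ((A⁻¹ : GL (Fin m) F) : Matrix (Fin m) (Fin m) F)ᵀ := by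
      rw [hβ]
      ext i j
      simp only [Matrix.map_apply, frobQ_apply]
      exact hqq _
    rw [e, ← Matrix.transpose_mul, ← Units.val_mul, inv_mul_cancel, Units.val_one,
      Matrix.transpose_one]
  choose y hyval hyGU hystab hycp hydet using fun A : GL (Fin m) F => hB A (β A) (hcond A)
  have hmul : ∀ A A' : GL (Fin m) F, y (A * A') = y A * y A' := by
    intro A A'
    apply Units.ext
    rw [Units.val_mul, hyval, hyval, hyval]
    have e1 : Pm * fromBlocks (A : Matrix (Fin m) (Fin m) F) 0 0 (β A) * Pi *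
        (Pm * fromBlocks (A' : Matrix (Fin m) (Fin m) F) 0 0 (β A') * Pi)
        = Pm * (fromBlocks (A : Matrix (Fin m) (Fin m) F) 0 0 (β A) *
          fromBlocks (A' : Matrix (Fin m) (Fin m) F) 0 0 (β A')) * Pi := by
      calc Pm * fromBlocks (A : Matrix (Fin m) (Fin m) F) 0 0 (β A) * Pi *
            (Pm * fromBlocks (A' : Matrix (Fin m) (Fin m) F) 0 0 (β A') * Pi)
          = Pm * fromBlocks (A : Matrix (Fin m) (Fin m) F) 0 0 (β A) * (Pi * Pm) *
            fromBlocks (A' : Matrix (Fin m) (Fin m) F) 0 0 (β A') * Pi := by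
            simp only [Matrix.mul_assoc]
        _ = Pm * (fromBlocks (A : Matrix (Fin m) (Fin m) F) 0 0 (β A) *
            fromBlocks (A' : Matrix (Fin m) (Fin m) F) 0 0 (β A')) * Pi := by
            rw [hP.inv_mul, Matrix.mul_one]
            simp only [Matrix.mul_assoc]
    rw [e1, Matrix.fromBlocks_multiply, hβmul, Units.val_mul]
    simp
  have hinj : Function.Injective y := by
    intro A A' h
    have h1 : ((y A : GL (Fin n) F) : Matrix (Fin n) (Fin n) F) = (y A' : GL (Fin n) F) := by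
      rw [h]
    rw [hyval, hyval] at h1
    have h2 : fromBlocks (A : Matrix (Fin m) (Fin m) F) 0 0 (β A)
        = fromBlocks (A' : Matrix (Fin m) (Fin m) F) 0 0 (β A') := by
      have h3 := congrArg (fun M => Pi * M * Pm) h1
      have e : ∀ M : Matrix (Fin m ⊕ Fin m) (Fin m ⊕ Fin m) F, Pi * (Pm * M * Pi) * Pm = M := by
        intro M
        calc Pi * (Pm * M * Pi) * Pm = (Pi * Pm) * M * (Pi * Pm) := by
              simp only [Matrix.mul_assoc]
          _ = M := by rw [hP.inv_mul, Matrix.one_mul, Matrix.mul_one]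
      rw [e, e] at h3
      exact h3
    have h4 := (Matrix.fromBlocks_inj.mp h2).1
    exact Units.ext h4
  obtain ⟨φ, hφ⟩ : ∃ φ : GL (Fin m) F →* ↥(Cfsg.Geo.decompositionStabilizer D ⊓ Cfsg.GU n F q),
      ∀ A, ((φ A : ↥(Cfsg.Geo.decompositionStabilizer D ⊓ Cfsg.GU n F q)) : GL (Fin n) F) = y A :=
    ⟨MonoidHom.mk' (fun A => ⟨y A, ⟨hystab A, hyGU A⟩⟩) (fun A A' => Subtype.ext (hmul A A')),
      fun _ => rfl⟩
  have hφinj : Function.Injective φ := by
    intro A A' h
    apply hinj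
    rw [← hφ A, ← hφ A', h]
  exact Subgroup.card_dvd_of_injective φ hφinj

end Cfsg.Agent.Lib.Helper98.U84
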