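import Mathlib
import Cfsg.Prelude.Def_GeometricClasses
import Cfsg.Prelude.Def_ClassicalGeometry
import Cfsg.Prelude.Def_LieClassical
import Cfsg.Agent.Lib.Helper98.U84Defs

/-!
S5984 piece U84-FIXBOTH (poster helper98): an element of odd order in the stabiliser of a pair of
complementary subspaces fixes both members.
-/

set_option autoImplicit false

namespace Cfsg.Agent.Lib.Helper98.U84

open Matrix Polynomial

theorem fix_both_of_odd {F : Type*} [Field F] {n m : ℕ} (D : Fin 2 → Submodule F (Fin n → F))
    (hD : Cfsg.Geo.IsMDecomposition m D) (y : GL (Fin n) F)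
    (hy : y ∈ Cfsg.Geo.decompositionStabilizer D) (r : ℕ) (hr : Odd r) (hyr : y ^ r = 1) :
    (D 0).map (Matrix.toLin' (y : Matrix (Fin n) (Fin n) F)) = D 0 ∧
      (D 1).map (Matrix.toLin' (y : Matrix (Fin n) (Fin n) F)) = D 1 := by
  obtain ⟨π, hπ⟩ := hy
  have hpow : ∀ (k : ℕ) (i : Fin 2),
      (D i).map (Matrix.toLin' ((y ^ k : GL (Fin n) F) : Matrix (Fin n) (Fin n) F))
        = D ((π ^ k) i) := by
    intro k
    induction k with
    | zero =>
      intro i
      rw [pow_zero, pow_zero, Units.val_one, Matrix.toLin'_one, Submodule.map_id]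
      rfl
    | succ k ih =>
      intro i
      rw [pow_succ, pow_succ, Units.val_mul, Matrix.toLin'_mul, Submodule.map_comp, hπ, ih]
      rfl
  have hne : D 0 ≠ D 1 := by
    intro h
    have hdis : Disjoint (D 0) (D 1) := hD.indep.pairwiseDisjoint (by decide)
    rw [← h, disjoint_self] at hdis
    have h1 := hD.finrank_eq 0
    rw [hdis, finrank_bot] at h1
    exact hD.pos.ne h1
  have hr1 : ∀ i : Fin 2, D i = D ((π ^ r) i) := by
    intro i
    have h := hpow r i
    rw [hyr, Units.val_one, Matrix.toLin'_one, Submodule.map_id] at h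
    exact h
  have hπr : π ^ r = 1 := by
    ext i
    have h := hr1 i
    have h0 : ∀ a b : Fin 2, D a = D b → a = b := by
      intro a b hab
      fin_cases a <;> fin_cases b
      · rfl
      · exact absurd hab hne
      · exact absurd hab.symm hne
      · rfl
    rw [← h0 i ((π ^ r) i) h]
    rfl
  have hπ2 : π ^ 2 = 1 := by
    have h := pow_card_eq_one (x := π)
    rw [Fintype.card_perm, Fintype.card_fin] at h
    exact h
  have hπ1 : π = 1 := by
    obtain ⟨k, hk⟩ := hr
    rw [hk, pow_succ, pow_mul, hπ2, one_pow, one_mul] at hπr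
    exact hπr
  rw [hπ1] at hπ
  exact ⟨hπ 0, hπ 1⟩

end Cfsg.Agent.Lib.Helper98.U84
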