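import Mathlib
import Cfsg.Prelude.Def_GeometricClasses
import Cfsg.Prelude.Def_ClassicalGeometry
import Cfsg.Prelude.Def_LieClassical
import Cfsg.Agent.Lib.Helper98.U84Defs

/-!
S5984 piece U84-SCALH (poster helper98): scalar matrices lie in `decompositionStabilizer D`.
-/

set_option autoImplicit false

namespace Cfsg.Agent.Lib.Helper98.U84

open Matrix Polynomial

theorem scalar_mem_stab {F : Type*} [Field F] {n t : ℕ} (hn : 1 ≤ n)
    (D : Fin t → Submodule F (Fin n → F)) (x : GL (Fin n) F) (z : F)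
    (hx : (x : Matrix (Fin n) (Fin n) F) = z • (1 : Matrix (Fin n) (Fin n) F)) :
    x ∈ Cfsg.Geo.decompositionStabilizer D := by
  have hne : Nonempty (Fin n) := ⟨⟨0, hn⟩⟩
  have hz : z ≠ 0 := by
    rintro rfl
    rw [zero_smul] at hx
    have hdet : IsUnit (x : Matrix (Fin n) (Fin n) F).det :=
      (Matrix.isUnit_iff_isUnit_det _).mp x.isUnit
    rw [hx, Matrix.det_zero] at hdet
    exact not_isUnit_zero hdet
  show ∃ σ : Equiv.Perm (Fin t),
    ∀ i, (D i).map (Matrix.toLin' (x : Matrix (Fin n) (Fin n) F)) = D (σ i)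
  refine ⟨1, fun i => ?_⟩
  rw [hx, Equiv.Perm.one_apply]
  have e : Matrix.toLin' (z • (1 : Matrix (Fin n) (Fin n) F)) = z • LinearMap.id := by
    rw [map_smul, Matrix.toLin'_one]
  rw [e]
  ext v
  constructor
  · rintro ⟨u, hu, rfl⟩
    simp only [LinearMap.smul_apply, LinearMap.id_apply]
    exact (D i).smul_mem z hu
  · intro hv
    refine ⟨z⁻¹ • v, (D i).smul_mem _ hv, ?_⟩
    simp only [LinearMap.smul_apply, LinearMap.id_apply]
    rw [smul_smul, mul_inv_cancel₀ hz, one_smul]

end Cfsg.Agent.Lib.Helper98.U84
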