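import Mathlib
import Cfsg.Prelude.Def_GeometricClasses
import Cfsg.Prelude.Def_ClassicalGeometry
import Cfsg.Prelude.Def_LieClassical
import Cfsg.Agent.Lib.Helper98.U84Defs

/-!
S5984 piece U84-YEX (poster helper98): from `BlockOK`, a diagonal block element with
`y * y = lam ^ 2 • 1` and prescribed characteristic polynomial and determinant.
-/

set_option autoImplicit false
set_option linter.unusedVariables false

namespace Cfsg.Agent.Lib.Helper98.U84

open Matrix Polynomial

theorem u84yex_prod {α M : Type*} [CommMonoid M] (m k : ℕ) (hk : k ≤ m) (g : α → M) (u v : α) :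
    ∏ i : Fin m, g (if (i : ℕ) < k then u else v) = g u ^ k * g v ^ (m - k) := by
  have e : ∀ i : Fin m, g (if (i : ℕ) < k then u else v)
      = if (i : ℕ) < k then g u else g v := by
    intro i
    split <;> rfl
  simp only [e]
  rw [Finset.prod_ite, Finset.prod_const, Finset.prod_const]
  have h1 : (Finset.univ.filter (fun i : Fin m => (i : ℕ) < k)).card = k := by
    rw [Fin.card_filter_val_lt]
    exact min_eq_right hk
  have h2 : (Finset.univ.filter (fun i : Fin m => ¬ (i : ℕ) < k)).card = m - k := by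
    have h3 := Finset.card_filter_add_card_filter_not (s := (Finset.univ : Finset (Fin m)))
      (fun i : Fin m => (i : ℕ) < k)
    rw [h1, Finset.card_univ, Fintype.card_fin] at h3
    omega
  rw [h1, h2]

theorem u84yex_diag {F : Type*} [Field F] {q n m : ℕ} (hq0 : q ≠ 0)
    (D : Fin 2 → Submodule F (Fin n → F))
    (Pm : Matrix (Fin n) (Fin m ⊕ Fin m) F) (Pi : Matrix (Fin m ⊕ Fin m) (Fin n) F)
    (hP : Adapted q D Pm Pi) (hB : BlockOK q D Pm Pi) (lam : F) (d e : Fin m → F)
    (hde : ∀ i, d i * (e i) ^ q = 1) (hd : ∀ i, d i * d i = lam ^ 2)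
    (he : ∀ i, e i * e i = lam ^ 2) :
    ∃ y : GL (Fin n) F, y ∈ Cfsg.GU n F q ∧ y ∈ Cfsg.Geo.decompositionStabilizer D ∧
      (y : Matrix (Fin n) (Fin n) F) * (y : Matrix (Fin n) (Fin n) F) =
        (lam ^ 2) • (1 : Matrix (Fin n) (Fin n) F) ∧
      (y : Matrix (Fin n) (Fin n) F).charpoly = (∏ i, (X - C (d i))) * ∏ i, (X - C (e i)) ∧
      (y : Matrix (Fin n) (Fin n) F).det = (∏ i, d i) * ∏ i, e i := by
  have hcond : (Matrix.diagonal d)ᵀ * (Matrix.diagonal e).map (· ^ q) = 1 := by
    have hmap : (Matrix.diagonal e).map (· ^ q) = Matrix.diagonal (fun i => e i ^ q) := by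
      ext i j
      by_cases hij : i = j
      · subst hij
        simp
      · simp [Matrix.diagonal_apply_ne _ hij, zero_pow hq0]
    rw [Matrix.diagonal_transpose, hmap, Matrix.diagonal_mul_diagonal, ← Matrix.diagonal_one]
    congr 1
    funext i
    exact hde i
  obtain ⟨y, hyval, hyGU, hystab, hycp, hydet⟩ := hB _ _ hcond
  refine ⟨y, hyGU, hystab, ?_, ?_, ?_⟩
  · rw [hyval]
    have e1 : Pm * fromBlocks (diagonal d) 0 0 (diagonal e) * Pi *
        (Pm * fromBlocks (diagonal d) 0 0 (diagonal e) * Pi)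
        = Pm * (fromBlocks (diagonal d) 0 0 (diagonal e) *
          fromBlocks (diagonal d) 0 0 (diagonal e)) * Pi := by
      calc Pm * fromBlocks (diagonal d) 0 0 (diagonal e) * Pi *
            (Pm * fromBlocks (diagonal d) 0 0 (diagonal e) * Pi)
          = Pm * fromBlocks (diagonal d) 0 0 (diagonal e) * (Pi * Pm) *
            fromBlocks (diagonal d) 0 0 (diagonal e) * Pi := by
            simp only [Matrix.mul_assoc]
        _ = Pm * (fromBlocks (diagonal d) 0 0 (diagonal e) *
            fromBlocks (diagonal d) 0 0 (diagonal e)) * Pi := by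
            rw [hP.inv_mul, Matrix.mul_one]
            simp only [Matrix.mul_assoc]
    have e2 : diagonal d * diagonal d = (lam ^ 2) • (1 : Matrix (Fin m) (Fin m) F) := by
      rw [Matrix.diagonal_mul_diagonal, Matrix.smul_one_eq_diagonal]
      congr 1
      funext i
      exact hd i
    have e3 : diagonal e * diagonal e = (lam ^ 2) • (1 : Matrix (Fin m) (Fin m) F) := by
      rw [Matrix.diagonal_mul_diagonal, Matrix.smul_one_eq_diagonal]
      congr 1
      funext i
      exact he i
    have e4 : fromBlocks (diagonal d) 0 0 (diagonal e) * fromBlocks (diagonal d) 0 0 (diagonal e)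
        = (lam ^ 2) • (1 : Matrix (Fin m ⊕ Fin m) (Fin m ⊕ Fin m) F) := by
      rw [Matrix.fromBlocks_multiply, e2, e3, ← Matrix.fromBlocks_one, Matrix.fromBlocks_smul]
      simp
    rw [e1, e4, Matrix.mul_smul, Matrix.mul_one, Matrix.smul_mul, hP.mul_inv]
  · rw [hycp, Matrix.charpoly_diagonal, Matrix.charpoly_diagonal]
  · rw [hydet, Matrix.det_diagonal, Matrix.det_diagonal]

theorem exists_block_sq {F : Type*} [Field F] [Fintype F] {q n m : ℕ}
    (hF : Fintype.card F = q ^ 2) (hq : Odd q) (h2 : (2 : F) ≠ 0)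
    (D : Fin 2 → Submodule F (Fin n → F))
    (Pm : Matrix (Fin n) (Fin m ⊕ Fin m) F) (Pi : Matrix (Fin m ⊕ Fin m) (Fin n) F)
    (hP : Adapted q D Pm Pi) (hB : BlockOK q D Pm Pi) (lam : F) (a b : ℕ)
    (hab : a + b = 2 * m)
    (hcase : (lam ^ (q + 1) = -1 ∧ a = b) ∨ (lam ^ (q + 1) = 1 ∧ Even b)) :
    ∃ y : GL (Fin n) F, y ∈ Cfsg.GU n F q ∧ y ∈ Cfsg.Geo.decompositionStabilizer D ∧
      (y : Matrix (Fin n) (Fin n) F) * (y : Matrix (Fin n) (Fin n) F) =
        (lam ^ 2) • (1 : Matrix (Fin n) (Fin n) F) ∧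
      (y : Matrix (Fin n) (Fin n) F).charpoly = (X - C lam) ^ a * (X - C (-lam)) ^ b ∧
      (y : Matrix (Fin n) (Fin n) F).det = lam ^ a * (-lam) ^ b := by
  have hq0 : q ≠ 0 := by
    rintro rfl
    exact absurd hq (by decide)
  rcases hcase with ⟨hl, hab'⟩ | ⟨hl, hb⟩
  · have ha : a = m := by omega
    have hb : b = m := by omega
    obtain ⟨y, hyGU, hystab, hsq, hcp, hdet⟩ := u84yex_diag hq0 D Pm Pi hP hB lam
      (fun _ => lam) (fun _ => -lam)
      (by
        intro i
        rw [Odd.neg_pow hq]
        rw [pow_succ] at hl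
        linear_combination (-1 : F) * hl)
      (fun i => by ring) (fun i => by ring)
    refine ⟨y, hyGU, hystab, hsq, ?_, ?_⟩
    · rw [hcp, Finset.prod_const, Finset.prod_const, Finset.card_univ, Fintype.card_fin, ha, hb]
    · rw [hdet, Finset.prod_const, Finset.prod_const, Finset.card_univ, Fintype.card_fin, ha, hb]
  · obtain ⟨k, hk⟩ := hb
    have hkm : k ≤ m := by omega
    have ha : a = (m - k) + (m - k) := by omega
    have hev : Even (q + 1) := hq.add_one
    obtain ⟨y, hyGU, hystab, hsq, hcp, hdet⟩ := u84yex_diag hq0 D Pm Pi hP hB lam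
      (fun i => if (i : ℕ) < k then -lam else lam) (fun i => if (i : ℕ) < k then -lam else lam)
      (by
        intro i
        show (if (i : ℕ) < k then -lam else lam) * (if (i : ℕ) < k then -lam else lam) ^ q = 1
        split
        · rw [← pow_succ', Even.neg_pow hev]
          exact hl
        · rw [← pow_succ']
          exact hl)
      (by
        intro i
        show (if (i : ℕ) < k then -lam else lam) * (if (i : ℕ) < k then -lam else lam) = lam ^ 2
        split <;> ring)
      (by
        intro i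
        show (if (i : ℕ) < k then -lam else lam) * (if (i : ℕ) < k then -lam else lam) = lam ^ 2
        split <;> ring)
    refine ⟨y, hyGU, hystab, hsq, ?_, ?_⟩
    · rw [hcp, u84yex_prod m k hkm (fun c : F => (X - C c : F[X])) (-lam) lam, ha, hk, pow_add,
        pow_add]
      ring
    · rw [hdet, u84yex_prod m k hkm (fun c : F => c) (-lam) lam, ha, hk, pow_add, pow_add]
      ring

end Cfsg.Agent.Lib.Helper98.U84
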