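import Mathlib
import Cfsg.Prelude.Def_GeometricClasses
import Cfsg.Prelude.Def_LieClassical

/-! Project U9 (helper44), piece SOLG: a group of isometries of a non-degenerate hermitian form
in dimension 3 over the field with 4 elements is solvable (it is conjugate into `GU_3(2)`). -/

set_option autoImplicit false

namespace Cfsg.Agent.Lib.Helper44.U9

open Matrix Cfsg.Geo
open scoped Kronecker

variable {n : ℕ} {F : Type*} [Field F] [Fintype F] {q : ℕ}

omit [Fintype F] in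
/-- the form with Gram matrix `G` as a dot product -/
theorem SOLG_form_eq (σ : F → F) (G : Matrix (Fin 3) (Fin 3) F) (x y : Fin 3 → F) :
    formOfGram σ G x y = x ⬝ᵥ (G *ᵥ (fun b => σ (y b))) := by
  unfold formOfGram
  simp only [dotProduct, Matrix.mulVec, Finset.mul_sum, mul_assoc]

omit [Fintype F] in
/-- the standard hermitian form as a dot product -/
theorem SOLG_herm_eq (u v : Fin 3 → F) :
    Cfsg.hermForm 3 F 2 u v = u ⬝ᵥ (fun b => (v b) ^ 2) := by
  unfold Cfsg.hermForm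
  rfl

/-- the characteristic is 2 -/
theorem SOLG_char (hF : Fintype.card F = 2 ^ 2) : CharP F 2 := by
  have : CharP F (ringChar F) := ringChar.charP F
  obtain ⟨k, hp, hk⟩ := FiniteField.card F (ringChar F)
  rw [hF] at hk
  have hdvd : ringChar F ∣ 2 ^ 2 := by
    rw [hk]
    exact dvd_pow_self _ k.ne_zero
  have h2 : ringChar F = 2 := by
    have := (Nat.prime_dvd_prime_iff_eq hp Nat.prime_two).1 (hp.dvd_of_dvd_pow hdvd)
    exact this
  rw [← h2]
  infer_instance

/-- squaring commutes with the action of a matrix -/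
theorem SOLG_sq_mulVec (hF : Fintype.card F = 2 ^ 2) (A : Matrix (Fin 3) (Fin 3) F)
    (v : Fin 3 → F) :
    (fun b => ((A *ᵥ v) b) ^ 2) = (A.map (fun x : F => x ^ 2)) *ᵥ (fun b => (v b) ^ 2) := by
  have : CharP F 2 := SOLG_char hF
  have : Fact (Nat.Prime 2) := ⟨Nat.prime_two⟩
  funext b
  simp only [Matrix.mulVec, dotProduct, Matrix.map_apply]
  rw [sum_pow_char]
  exact Finset.sum_congr rfl (fun j _ => mul_pow _ _ _)

/-- the key identity -/
theorem SOLG_key (hF : Fintype.card F = 2 ^ 2) (G : Matrix (Fin 3) (Fin 3) F)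
    (A : Matrix (Fin 3) (Fin 3) F) (c : F)
    (hA : Aᵀ * G * A.map (fun x : F => x ^ 2) = c • (1 : Matrix (Fin 3) (Fin 3) F))
    (u v : Fin 3 → F) :
    formOfGram (fun c : F => c ^ 2) G (A *ᵥ u) (A *ᵥ v) = c * Cfsg.hermForm 3 F 2 u v := by
  rw [SOLG_form_eq, SOLG_herm_eq, SOLG_sq_mulVec hF, Matrix.mulVec_mulVec,
    ← Matrix.vecMul_transpose, ← Matrix.dotProduct_mulVec, Matrix.mulVec_mulVec, ← mul_assoc, hA]
  simp [Matrix.smul_mulVec, dotProduct_smul]

/-- SOLG: a group of isometries of a non-degenerate hermitian form in dimension 3 over the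
field with 4 elements is solvable. -/
theorem SOLG (hF : Fintype.card F = q ^ 2) (hq : q = 2) (hsol : Group.IsSolvable ↥(Cfsg.GU 3 F 2))
    (G : Matrix (Fin 3) (Fin 3) F) (A : GL (Fin 3) F) (c : F) (hc : c ≠ 0)
    (hA : A.1ᵀ * G * A.1.map (fun x : F => x ^ q) = c • (1 : Matrix (Fin 3) (Fin 3) F))
    (R : Subgroup (GL (Fin 3) F))
    (hR : ∀ y ∈ R, ∀ u v : Fin 3 → F,
      formOfGram (fun c : F => c ^ q) G (y.1 *ᵥ u) (y.1 *ᵥ v) =
        formOfGram (fun c : F => c ^ q) G u v) : Group.IsSolvable ↥R := by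
  subst hq
  have key := SOLG_key hF G A.1 c hA
  have hAinv : ∀ x : Fin 3 → F, A.1 *ᵥ ((A⁻¹ : GL (Fin 3) F).1 *ᵥ x) = x := by
    intro x
    rw [Matrix.mulVec_mulVec]
    have : A.1 * (A⁻¹ : GL (Fin 3) F).1 = 1 := by
      rw [← Units.val_mul, mul_inv_cancel, Units.val_one]
    rw [this, Matrix.one_mulVec]
  have hmem : ∀ y ∈ R, A⁻¹ * y * A ∈ Cfsg.GU 3 F 2 := by
    intro y hy u v
    have hval : (Units.coeHom (Matrix (Fin 3) (Fin 3) F)) (A⁻¹ * y * A)
        = (A⁻¹ : GL (Fin 3) F).1 * y.1 * A.1 := by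
      simp [Units.coeHom]
    rw [hval]
    have e1 : ∀ w : Fin 3 → F, ((A⁻¹ : GL (Fin 3) F).1 * y.1 * A.1) *ᵥ w
        = (A⁻¹ : GL (Fin 3) F).1 *ᵥ (y.1 *ᵥ (A.1 *ᵥ w)) := by
      intro w
      rw [Matrix.mulVec_mulVec, Matrix.mulVec_mulVec]
    rw [e1, e1]
    have h1 := key ((A⁻¹ : GL (Fin 3) F).1 *ᵥ (y.1 *ᵥ (A.1 *ᵥ u)))
      ((A⁻¹ : GL (Fin 3) F).1 *ᵥ (y.1 *ᵥ (A.1 *ᵥ v)))
    rw [hAinv, hAinv, hR y hy, key u v] at h1
    exact (mul_left_cancel₀ hc h1).symm
  let f : ↥R →* ↥(Cfsg.GU 3 F 2) :=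
    { toFun := fun y => ⟨A⁻¹ * y.1 * A, hmem y.1 y.2⟩
      map_one' := by
        apply Subtype.ext
        simp
      map_mul' := by
        intro x y
        apply Subtype.ext
        simp [mul_assoc] }
  have hinj : Function.Injective f := by
    intro x y hxy
    have h := congrArg (fun g : ↥(Cfsg.GU 3 F 2) => (g : GL (Fin 3) F)) hxy
    have h' : A⁻¹ * x.1 * A = A⁻¹ * y.1 * A := h
    apply Subtype.ext
    rw [mul_assoc, mul_assoc] at h'
    exact mul_right_cancel (mul_left_cancel h')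
  have := hsol
  exact Group.isSolvable_of_isSolvable_injective hinj

end Cfsg.Agent.Lib.Helper44.U9
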