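import Mathlib
import Cfsg.Agent.Lib.Helper44.UDDefs
import Cfsg.Agent.Lib.Helper44.UDKit2

/-!
# S5655 piece STEP4 (helper44's project): a non-monomial element with a zero entry forces
`q + 1 ≤ n` (glue from REFLMONO).
-/

set_option autoImplicit false
set_option linter.unusedSectionVars false
set_option linter.unusedVariables false

namespace Cfsg.Agent.Lib.Helper44.UD

open Matrix Cfsg.Agent.Lib.Helper93 Cfsg.Agent.Lib.Helper18 Cfsg.Agent.Lib.Helper7
open Cfsg.Agent.Lib.Helper65.Mono (diagU diagU_val isMono_diagU det_diagU gl_inv_mul_apply)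

theorem udstep4_qrefl_apply {F : Type*} [Field F] [Fintype F] (q n : ℕ) (w : Fin n → F) (s : F)
    (i j : Fin n) :
    qrefl q n w s i j = (if i = j then 1 else 0) + (s - 1) * (w i * w j ^ q) := by
  unfold qrefl hrk
  rw [Matrix.add_apply, Matrix.smul_apply, Matrix.one_apply, Matrix.vecMulVec_apply, smul_eq_mul]

theorem ud_step4 {F : Type*} [Field F] [Fintype F] (q : ℕ) (h1 : ReflMonoStmt F q) : Step4Stmt F q := by
  classical
  intro hF n hn X hX hM hNC hRZ y hyX hym hz
  obtain ⟨z, a, hza⟩ := hz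
  have hXG : X ≤ Cfsg.GU n F q := hX.trans inf_le_left
  have hpres : suPres q n (y : Matrix (Fin n) (Fin n) F) := hXG hyX
  obtain ⟨w, hw⟩ : ∃ w : Fin n → F,
      w = fun c => ((y⁻¹ : GL (Fin n) F) : Matrix (Fin n) (Fin n) F) c z := ⟨_, rfl⟩
  have hwc : ∀ c, w c = (y : Matrix (Fin n) (Fin n) F) z c ^ q := fun c => by
    rw [hw]
    exact udk_inv_apply hF y hpres c z
  have hwq : ∀ c, w c ^ q = (y : Matrix (Fin n) (Fin n) F) z c := fun c => by
    rw [hwc, herm_pow_pow hF]
  have hq0 := herm_q_ne_zero hF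
  have hwa : w a = 0 := by rw [hwc, hza, zero_pow hq0]
  -- three nonzero coordinates of `w`
  have h3 : ∃ b c d : Fin n, b ≠ c ∧ b ≠ d ∧ c ≠ d ∧ w b ≠ 0 ∧ w c ≠ 0 ∧ w d ≠ 0 := by
    have hcard : 2 < (Finset.univ \ ({a} : Finset (Fin n))).card := by
      have h3 := Finset.le_card_sdiff ({a} : Finset (Fin n)) Finset.univ
      rw [Finset.card_univ, Fintype.card_fin, Finset.card_singleton] at h3
      omega
    obtain ⟨b, c, d, hb, hc, hd, hbc, hbd, hcd⟩ := Finset.two_lt_card_iff.mp hcard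
    simp only [Finset.mem_sdiff, Finset.mem_univ, true_and, Finset.mem_singleton] at hb hc hd
    have hne : ∀ k, k ≠ a → w k ≠ 0 := by
      intro k hk hwk
      rw [hwc] at hwk
      have h0 := (pow_eq_zero_iff hq0).mp hwk
      exact hRZ y hyX hym z a k (Ne.symm hk) ⟨hza, h0⟩
    exact ⟨b, c, d, hbc, hbd, hcd, hne b hb, hne c hc, hne d hd⟩
  -- every `l ∈ μ` has `l ^ n = 1`
  have key : ∀ l : Fˣ, (l : F) ^ (q + 1) = 1 → l ^ n = 1 := by
    intro l hl
    obtain ⟨d, hd⟩ : ∃ d : Fin n → Fˣ, d = fun i => l * (if i = z then (l ^ n)⁻¹ else 1) :=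
      ⟨_, rfl⟩
    have hlnN : (((l ^ n)⁻¹ : Fˣ) : F) ^ (q + 1) = 1 := by
      rw [Units.val_inv_eq_inv_val, Units.val_pow_eq_pow_val, inv_pow, ← pow_mul, mul_comm n,
        pow_mul, hl, one_pow, inv_one]
    have hdN : ∀ i, ((d i : Fˣ) : F) ^ (q + 1) = 1 := by
      intro i
      rw [hd]
      dsimp only
      rw [Units.val_mul, mul_pow, hl, one_mul]
      split_ifs
      · exact hlnN
      · rw [Units.val_one, one_pow]
    have hdet : (diagU d : Matrix (Fin n) (Fin n) F).det = 1 := by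
      rw [det_diagU]
      have e1 : ∏ i, ((d i : Fˣ) : F) = ((∏ i, d i : Fˣ) : F) := by rw [Units.coe_prod]
      have e2 : ∏ i, d i = 1 := by
        rw [hd]
        dsimp only
        rw [Finset.prod_mul_distrib, Finset.prod_const, Finset.card_univ, Fintype.card_fin,
          Finset.prod_ite_eq' Finset.univ z (fun _ => (l ^ n)⁻¹), if_pos (Finset.mem_univ _),
          mul_inv_cancel]
      rw [e1, e2, Units.val_one]
    have hdX : diagU d ∈ X := by
      refine hM _ ?_ hdet (isMono_diagU _)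
      show suPres q n ((diagU d : GL (Fin n) F) : Matrix (Fin n) (Fin n) F)
      rw [diagU_val]
      exact udk_diag_pres _ hdN
    have hgX : y⁻¹ * diagU d * y ∈ X := X.mul_mem (X.mul_mem (X.inv_mem hyX) hdX) hyX
    obtain ⟨s, hs⟩ : ∃ s : F, s = (((l ^ n)⁻¹ : Fˣ) : F) := ⟨_, rfl⟩
    have hdk : ∀ k, ((d k : Fˣ) : F) = (l : F) + (if k = z then (l : F) * (s - 1) else 0) := by
      intro k
      rw [hd, hs]
      dsimp only
      rw [Units.val_mul]
      split_ifs
      · ring
      · rw [Units.val_one]; ring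
    have hg : ∀ i j, ((y⁻¹ * diagU d * y : GL (Fin n) F) : Matrix (Fin n) (Fin n) F) i j
        = (l : F) * qrefl q n w s i j := by
      intro i j
      rw [Units.val_mul, Units.val_mul, diagU_val, Matrix.mul_assoc, Matrix.mul_apply]
      have e1 : ∀ k, ((y⁻¹ : GL (Fin n) F) : Matrix (Fin n) (Fin n) F) i k *
          (Matrix.diagonal (fun i => ((d i : Fˣ) : F)) * (y : Matrix (Fin n) (Fin n) F)) k j
          = (l : F) * (((y⁻¹ : GL (Fin n) F) : Matrix (Fin n) (Fin n) F) i k *
              (y : Matrix (Fin n) (Fin n) F) k j)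
            + (if k = z then (l : F) * (s - 1) * (w i * w j ^ q) else 0) := by
        intro k
        rw [Matrix.diagonal_mul, hdk]
        split_ifs with hk
        · rw [hk, hwq, hw]
          ring
        · ring
      rw [Finset.sum_congr rfl (fun k _ => e1 k), Finset.sum_add_distrib, ← Finset.mul_sum,
        gl_inv_mul_apply, Finset.sum_ite_eq' Finset.univ z, if_pos (Finset.mem_univ _),
        udstep4_qrefl_apply]
      ring
    have hl0 : (l : F) ≠ 0 := l.ne_zero
    have hgm : IsMono ((y⁻¹ * diagU d * y : GL (Fin n) F) : Matrix (Fin n) (Fin n) F) := by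
      by_contra hgm
      refine hNC _ hgX hgm a ⟨a, fun i' hi' => ?_⟩
      by_contra hne
      apply hi'
      rw [hg, udstep4_qrefl_apply, if_neg hne, hwa, zero_pow hq0]
      ring
    have hrm : IsMono (qrefl q n w s) := by
      intro j
      obtain ⟨i, hi⟩ := hgm j
      refine ⟨i, fun i' hi' => hi i' ?_⟩
      rw [hg]
      exact mul_ne_zero hl0 hi'
    have hs1 : s = 1 := h1 n w s h3 hrm
    rw [hs] at hs1
    have h5 : (l ^ n)⁻¹ = 1 := Units.ext (by rw [hs1, Units.val_one])
    exact inv_eq_one.mp h5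
  obtain ⟨ζ, hζ⟩ := udk_exists_order (F := F) hF
  have h6 := key ζ (udk_order_pow ζ hζ)
  have h7 := orderOf_dvd_of_pow_eq_one h6
  rw [hζ] at h7
  exact Nat.le_of_dvd (by omega) h7

end Cfsg.Agent.Lib.Helper44.UD
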