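import Mathlib
import Cfsg.Agent.Lib.Helper44.UDDefs
import Cfsg.Agent.Lib.Helper44.UDKit2

/-!
# S5655 piece STEP5ODD (helper44's project): in odd characteristic a non-monomial element with a
zero entry leads to a contradiction (glue from FIXCOUNT).
-/

set_option autoImplicit false
set_option linter.unusedSectionVars false
set_option linter.unusedVariables false

namespace Cfsg.Agent.Lib.Helper44.UD

open Matrix Cfsg.Agent.Lib.Helper93 Cfsg.Agent.Lib.Helper18 Cfsg.Agent.Lib.Helper7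

section
variable {F : Type*} [Field F] [Fintype F] {n : ℕ}

/-- the monomial involution `diag(-1 at z) * τ_ij(t)` -/
def udstep5odd_m (i j z : Fin n) (t : F) : Matrix (Fin n) (Fin n) F :=
  Matrix.diagonal (fun r => (if r = i then t⁻¹ else 1) * (if r = j then t else 1) *
    (if r = z then -1 else 1)) * (Equiv.swap i j).toPEquiv.toMatrix

theorem udstep5odd_m_mulVec (i j z : Fin n) (t : F) (x : Fin n → F) (r : Fin n) :
    (udstep5odd_m i j z t *ᵥ x) r = ((if r = i then t⁻¹ else 1) * (if r = j then t else 1) *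
      (if r = z then -1 else 1)) * x (Equiv.swap i j r) := by
  unfold udstep5odd_m
  rw [← Matrix.mulVec_mulVec, Matrix.mulVec_diagonal, PEquiv.toMatrix_toPEquiv_mulVec]
  rfl

theorem udstep5odd_m_apply {i j z : Fin n} {t : F} (hij : i ≠ j) (hiz : i ≠ z) (hjz : j ≠ z)
    (x : Fin n → F) (r : Fin n) :
    (udstep5odd_m i j z t *ᵥ x) r = if r = i then t⁻¹ * x j else if r = j then t * x i
      else if r = z then - x z else x r := by
  rw [udstep5odd_m_mulVec]
  by_cases hri : r = i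
  · rw [hri, Equiv.swap_apply_left, if_pos rfl, if_neg hij, if_neg hiz, if_pos rfl]
    ring
  · by_cases hrj : r = j
    · rw [hrj, Equiv.swap_apply_right, if_neg (Ne.symm hij), if_pos rfl, if_neg hjz,
        if_neg (Ne.symm hij), if_pos rfl]
      ring
    · rw [Equiv.swap_apply_of_ne_of_ne hri hrj, if_neg hri, if_neg hrj, if_neg hri, if_neg hrj]
      by_cases hrz : r = z
      · rw [if_pos hrz, if_pos hrz, hrz]
        ring
      · rw [if_neg hrz, if_neg hrz]
        ring

theorem udstep5odd_m_det {i j : Fin n} (z : Fin n) {t : F} (hij : i ≠ j) (ht0 : t ≠ 0) :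
    (udstep5odd_m i j z t).det = 1 := by
  unfold udstep5odd_m
  rw [Matrix.det_mul, Matrix.det_diagonal, Matrix.det_permutation, Equiv.Perm.sign_swap hij,
    Finset.prod_mul_distrib, Finset.prod_mul_distrib]
  simp [ht0]

theorem udstep5odd_m_mono (i j z : Fin n) (t : F) : IsMono (udstep5odd_m i j z t) := by
  intro k
  refine ⟨Equiv.swap i j k, fun r hr => ?_⟩
  by_contra hne
  apply hr
  have h1 := udk_col (udstep5odd_m i j z t) k r
  rw [udstep5odd_m_mulVec] at h1
  rw [← h1, Pi.single_eq_of_ne, mul_zero]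
  intro h
  apply hne
  rw [← h, Equiv.swap_apply_self]

theorem udstep5odd_m_sq {i j z : Fin n} {t : F} (hij : i ≠ j) (hiz : i ≠ z) (hjz : j ≠ z)
    (ht0 : t ≠ 0) : udstep5odd_m i j z t * udstep5odd_m i j z t = 1 := by
  apply Matrix.mulVec_injective
  funext x
  rw [← Matrix.mulVec_mulVec, Matrix.one_mulVec]
  funext r
  rw [udstep5odd_m_apply hij hiz hjz]
  by_cases hri : r = i
  · rw [if_pos hri, udstep5odd_m_apply hij hiz hjz, if_neg (Ne.symm hij), if_pos rfl, hri]
    field_simp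
  · rw [if_neg hri]
    by_cases hrj : r = j
    · rw [if_pos hrj, udstep5odd_m_apply hij hiz hjz, if_pos rfl, hrj]
      field_simp
    · rw [if_neg hrj]
      by_cases hrz : r = z
      · rw [if_pos hrz, udstep5odd_m_apply hij hiz hjz, if_neg (Ne.symm hiz),
          if_neg (Ne.symm hjz), if_pos rfl, hrz]
        ring
      · rw [if_neg hrz, udstep5odd_m_apply hij hiz hjz, if_neg hri, if_neg hrj, if_neg hrz]

end

theorem udstep5odd_m_pres {F : Type*} [Field F] [Fintype F] {q n : ℕ}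
    (hF : Fintype.card F = q ^ 2) (i j z : Fin n) {t : F} (ht : t ^ (q + 1) = 1) :
    suPres q n (udstep5odd_m i j z t) := by
  intro x x'
  unfold Cfsg.hermForm
  simp only [udstep5odd_m_mulVec]
  rw [← Equiv.sum_comp (Equiv.swap i j) (fun r => x r * x' r ^ q)]
  refine Finset.sum_congr rfl fun r _ => ?_
  have hc : ((if r = i then t⁻¹ else 1) * (if r = j then t else 1) *
      (if r = z then -1 else 1) : F) ^ (q + 1) = 1 := by
    rw [mul_pow, mul_pow]
    have e1 : ((if r = i then t⁻¹ else 1 : F)) ^ (q + 1) = 1 := by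
      split_ifs
      · rw [inv_pow, ht, inv_one]
      · rw [one_pow]
    have e2 : ((if r = j then t else 1 : F)) ^ (q + 1) = 1 := by
      split_ifs
      · exact ht
      · rw [one_pow]
    have e3 : ((if r = z then -1 else 1 : F)) ^ (q + 1) = 1 := by
      split_ifs
      · rw [pow_succ, herm_neg_pow hF, one_pow]
        ring
      · rw [one_pow]
    rw [e1, e2, e3]
    ring
  generalize ((if r = i then t⁻¹ else 1) * (if r = j then t else 1) *
      (if r = z then -1 else 1) : F) = c at hc ⊢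
  have hc' : c ^ q * c = 1 := by rw [← pow_succ]; exact hc
  rw [mul_pow]
  linear_combination (x (Equiv.swap i j r) * x' (Equiv.swap i j r) ^ q) * hc'

theorem ud_step5odd {F : Type*} [Field F] [Fintype F] (q : ℕ) (h1 : FixCountStmt F) : Step5OddStmt F q := by
  classical
  intro hF h2 n hn hqn X hX hM hNC hCZ hRZ y hyX hym hz
  obtain ⟨z, a, hza⟩ := hz
  have hXG : X ≤ Cfsg.GU n F q := hX.trans inf_le_left
  have hpres : suPres q n (y : Matrix (Fin n) (Fin n) F) := hXG hyX
  have hq2 := herm_two_le hF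
  have hv : ∀ r, r ≠ z → (y : Matrix (Fin n) (Fin n) F) r a ≠ 0 := fun r hr h0 =>
    hCZ y hyX hym a z r (Ne.symm hr) ⟨hza, h0⟩
  -- pigeonhole on the norms of the entries of column `a`
  obtain ⟨i, j, hiz, hjz, hij, hN⟩ : ∃ i j : Fin n, i ≠ z ∧ j ≠ z ∧ i ≠ j ∧
      (y : Matrix (Fin n) (Fin n) F) i a ^ (q + 1) = (y : Matrix (Fin n) (Fin n) F) j a ^ (q + 1) := by
    obtain ⟨f, hf⟩ : ∃ f : Fin n → Fˣ, f = fun r =>
        if h : (y : Matrix (Fin n) (Fin n) F) r a = 0 then 1 else (Units.mk0 _ h) ^ (q + 1) :=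
      ⟨_, rfl⟩
    have hcardt : (Finset.univ.filter (fun u : Fˣ => u ^ (q - 1) = 1)).card
        < (Finset.univ.erase z : Finset (Fin n)).card := by
      have h3 := IsCyclic.card_pow_eq_one_le (α := Fˣ) (n := q - 1) (by omega)
      rw [Finset.card_erase_of_mem (Finset.mem_univ _), Finset.card_univ, Fintype.card_fin]
      omega
    have hmaps : Set.MapsTo f (Finset.univ.erase z : Finset (Fin n))
        (Finset.univ.filter (fun u : Fˣ => u ^ (q - 1) = 1)) := by
      intro r hr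
      simp only [Finset.coe_filter, Finset.mem_univ, true_and, Set.mem_ofPred_eq]
      rw [hf]
      by_cases h : (y : Matrix (Fin n) (Fin n) F) r a = 0
      · simp only [dif_pos h, one_pow]
      · simp only [dif_neg h]
        rw [← pow_mul, mul_comm, ← herm_card_units hF]
        exact pow_card_eq_one'
    obtain ⟨i, hi, j, hj, hij, hfij⟩ :=
      Finset.exists_ne_map_eq_of_card_lt_of_maps_to hcardt hmaps
    rw [Finset.mem_erase] at hi hj
    refine ⟨i, j, hi.1, hj.1, hij, ?_⟩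
    have hi0 := hv i hi.1
    have hj0 := hv j hj.1
    rw [hf] at hfij
    simp only [dif_neg hi0, dif_neg hj0] at hfij
    have h4 := congrArg Units.val hfij
    simpa using h4
  obtain ⟨vi, hvi⟩ : ∃ vi : F, vi = (y : Matrix (Fin n) (Fin n) F) i a := ⟨_, rfl⟩
  obtain ⟨vj, hvj⟩ : ∃ vj : F, vj = (y : Matrix (Fin n) (Fin n) F) j a := ⟨_, rfl⟩
  have hvi0 : vi ≠ 0 := by rw [hvi]; exact hv i hiz
  have hvj0 : vj ≠ 0 := by rw [hvj]; exact hv j hjz
  obtain ⟨t, ht⟩ : ∃ t : F, t = vj / vi := ⟨_, rfl⟩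
  have ht0 : t ≠ 0 := by rw [ht]; exact div_ne_zero hvj0 hvi0
  have htN : t ^ (q + 1) = 1 := by
    rw [ht, div_pow, hvi, hvj, ← hN]
    exact div_self (pow_ne_zero _ (hv i hiz))
  -- the monomial involution
  obtain ⟨m, hm⟩ : ∃ m : Matrix (Fin n) (Fin n) F, m = udstep5odd_m i j z t := ⟨_, rfl⟩
  have hmdet : m.det = 1 := by rw [hm]; exact udstep5odd_m_det z hij ht0
  have hmsq : m * m = 1 := by rw [hm]; exact udstep5odd_m_sq hij hiz hjz ht0
  obtain ⟨M, hMv⟩ : ∃ M : GL (Fin n) F, (M : Matrix (Fin n) (Fin n) F) = m :=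
    ⟨Matrix.GeneralLinearGroup.mkOfDetNeZero m (by rw [hmdet]; exact one_ne_zero), rfl⟩
  have hMX : M ∈ X := by
    refine hM M ?_ (by rw [hMv]; exact hmdet) (by rw [hMv, hm]; exact udstep5odd_m_mono i j z t)
    show suPres q n (M : Matrix (Fin n) (Fin n) F)
    rw [hMv, hm]
    exact udstep5odd_m_pres hF i j z htN
  have hMM : M * M = 1 := Units.ext (by rw [Units.val_mul, hMv, hmsq, Units.val_one])
  obtain ⟨g, hg⟩ : ∃ g : GL (Fin n) F, g = y⁻¹ * M * y := ⟨_, rfl⟩
  have hgX : g ∈ X := by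
    rw [hg]
    exact X.mul_mem (X.mul_mem (X.inv_mem hyX) hMX) hyX
  have hgv : ∀ x : Fin n → F, (g : Matrix (Fin n) (Fin n) F) *ᵥ x =
      ((y⁻¹ : GL (Fin n) F) : Matrix (Fin n) (Fin n) F) *ᵥ
        (m *ᵥ ((y : Matrix (Fin n) (Fin n) F) *ᵥ x)) := by
    intro x
    rw [hg, Units.val_mul, Units.val_mul, hMv, ← Matrix.mulVec_mulVec, ← Matrix.mulVec_mulVec]
  have hgg : (g : Matrix (Fin n) (Fin n) F) * (g : Matrix (Fin n) (Fin n) F) = 1 := by
    rw [← Units.val_mul, ← Units.val_one]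
    congr 1
    rw [hg]
    calc y⁻¹ * M * y * (y⁻¹ * M * y) = y⁻¹ * (M * M) * y := by group
      _ = 1 := by rw [hMM]; group
  -- `m` fixes column `a` of `y`
  have hma : m *ᵥ ((y : Matrix (Fin n) (Fin n) F) *ᵥ Pi.single a 1)
      = (y : Matrix (Fin n) (Fin n) F) *ᵥ Pi.single a 1 := by
    funext r
    rw [hm, udstep5odd_m_apply hij hiz hjz]
    simp only [udk_col]
    by_cases hri : r = i
    · rw [if_pos hri, hri, ← hvi, ← hvj, ht]
      field_simp
    · rw [if_neg hri]
      by_cases hrj : r = j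
      · rw [if_pos hrj, hrj, ← hvi, ← hvj, ht]
        field_simp
      · rw [if_neg hrj]
        by_cases hrz : r = z
        · rw [if_pos hrz, hrz, hza, neg_zero]
        · rw [if_neg hrz]
  have hga : (g : Matrix (Fin n) (Fin n) F) *ᵥ Pi.single a 1 = Pi.single a 1 := by
    rw [hgv, hma, udk_inv_mulVec]
  have hgm : IsMono (g : Matrix (Fin n) (Fin n) F) := by
    by_contra hgm
    refine hNC g hgX hgm a ⟨a, fun i' hi' => ?_⟩
    by_contra hne
    apply hi'
    have h9 := udk_col (g : Matrix (Fin n) (Fin n) F) a i'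
    rw [hga, Pi.single_eq_of_ne hne] at h9
    exact h9.symm
  -- the image of `g - 1`
  have himg : ∃ p p' : Fin n → F, ∀ x : Fin n → F, ∃ α β : F,
      (g : Matrix (Fin n) (Fin n) F) *ᵥ x - x = α • p + β • p' := by
    refine ⟨((y⁻¹ : GL (Fin n) F) : Matrix (Fin n) (Fin n) F) *ᵥ Pi.single z 1,
      ((y⁻¹ : GL (Fin n) F) : Matrix (Fin n) (Fin n) F) *ᵥ (t • Pi.single j 1 - Pi.single i 1),
      fun x => ?_⟩
    obtain ⟨u, hu⟩ : ∃ u, u = (y : Matrix (Fin n) (Fin n) F) *ᵥ x := ⟨_, rfl⟩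
    refine ⟨-(u z) - u z, u i - t⁻¹ * u j, ?_⟩
    have hx : x = ((y⁻¹ : GL (Fin n) F) : Matrix (Fin n) (Fin n) F) *ᵥ u := by
      rw [hu, udk_inv_mulVec]
    rw [hgv, ← hu]
    rw [hx]
    rw [← Matrix.mulVec_smul, ← Matrix.mulVec_smul, ← Matrix.mulVec_add, ← Matrix.mulVec_sub]
    congr 1
    funext r
    rw [hm, Pi.sub_apply, udstep5odd_m_apply hij hiz hjz]
    simp only [Pi.add_apply, Pi.smul_apply, Pi.sub_apply, smul_eq_mul]
    by_cases hri : r = i
    · rw [hri, if_pos rfl, Pi.single_eq_of_ne hiz, Pi.single_eq_of_ne hij, Pi.single_eq_same]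
      ring
    · rw [if_neg hri]
      by_cases hrj : r = j
      · rw [hrj, if_pos rfl, Pi.single_eq_of_ne hjz, Pi.single_eq_same,
          Pi.single_eq_of_ne (Ne.symm hij)]
        field_simp
        ring
      · rw [if_neg hrj]
        by_cases hrz : r = z
        · rw [hrz, if_pos rfl, Pi.single_eq_same, Pi.single_eq_of_ne (Ne.symm hjz),
            Pi.single_eq_of_ne (Ne.symm hiz)]
          ring
        · rw [if_neg hrz, Pi.single_eq_of_ne hrz, Pi.single_eq_of_ne hrj,
            Pi.single_eq_of_ne hri]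
          ring
  -- FIXCOUNT
  have hfc := h1 n (g : Matrix (Fin n) (Fin n) F) hgm hgg himg
  have hfin : 1 < {c : Fin n | (g : Matrix (Fin n) (Fin n) F) *ᵥ Pi.single c 1
      = Pi.single c (1 : F)}.ncard := by omega
  obtain ⟨c₁, hc₁, c₂, hc₂, hc12⟩ := (Set.one_lt_ncard (Set.toFinite _)).mp hfin
  have hzero : ∀ c : Fin n, (g : Matrix (Fin n) (Fin n) F) *ᵥ Pi.single c 1
      = Pi.single c (1 : F) → (y : Matrix (Fin n) (Fin n) F) z c = 0 := by
    intro c hc
    rw [hgv] at hc
    have h5 := congrArg (fun v => (y : Matrix (Fin n) (Fin n) F) *ᵥ v) hc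
    simp only at h5
    rw [udk_mulVec_inv] at h5
    have h6 := congrFun h5 z
    rw [hm, udstep5odd_m_apply hij hiz hjz, if_neg (Ne.symm hiz), if_neg (Ne.symm hjz),
      if_pos rfl, udk_col] at h6
    have h7 : (2 : F) * (y : Matrix (Fin n) (Fin n) F) z c = 0 := by linear_combination -h6
    rcases mul_eq_zero.mp h7 with h | h
    · exact absurd h h2
    · exact h
  exact hRZ y hyX hym z c₁ c₂ hc12 ⟨hzero c₁ hc₁, hzero c₂ hc₂⟩

end Cfsg.Agent.Lib.Helper44.UD
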